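import Mathlib

/-!
Points with product one on a diagonal hyperplane of a four-dimensional space, avoiding three lines.
-/

set_option autoImplicit false
set_option linter.unusedSectionVars false

namespace Cfsg.Agent.MaxSub.SLFour

variable {F : Type*} [Field F] [Fintype F]

theorem half_power {q : ℕ} (hodd : Odd q) : 2 * (q / 2) = q - 1 := by
  obtain ⟨k, rfl⟩ := hodd; omega

/-- `k (x + m / x)` is a non-zero square for some `x`. -/
theorem exists_square_value (hodd : Odd (Fintype.card F)) (h7 : 7 ≤ Fintype.card F) {k m : F}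
    (hk : k ≠ 0) (hm : m ≠ 0) (hgood : 2 * m ^ (Fintype.card F / 2) + 1 ≠ 0) :
    ∃ x z : F, x ≠ 0 ∧ z ≠ 0 ∧ z * z = k * (x + m / x) := by
  classical
  set q := Fintype.card F with hq
  set h := q / 2 with hh
  have h2h : 2 * h = q - 1 := half_power hodd
  have hchar : ringChar F ≠ 2 := fun e => by
    have := FiniteField.even_card_of_char_two e
    rw [Nat.odd_iff] at hodd
    omega
  by_contra hno
  push Not at hno
  have hzero : ∀ x : Fˣ, ((x : F) ^ 2 + m) * (k ^ h * ((x : F) ^ 2 + m) ^ h + (x : F) ^ h) = 0 := by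
    intro x
    have hx : (x : F) ≠ 0 := x.ne_zero
    rcases eq_or_ne ((x : F) ^ 2 + m) 0 with e | e
    · rw [e, zero_mul]
    have hv : k * ((x : F) + m / (x : F)) ≠ 0 := by
      refine mul_ne_zero hk fun e' => e ?_
      field_simp at e'
      linear_combination e'
    have hns : ¬ IsSquare (k * ((x : F) + m / (x : F))) := by
      rintro ⟨z, hz⟩
      exact hno x z hx (fun e => hv (by rw [hz, e, mul_zero])) hz.symm
    have hp := (FiniteField.isSquare_iff hchar hv).not.1 hns
    rcases FiniteField.pow_dichotomy hchar hv with e1 | e1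
    · exact absurd e1 hp
    refine mul_eq_zero_of_right _ ?_
    have e2 : k * ((x : F) ^ 2 + m) = k * ((x : F) + m / (x : F)) * (x : F) := by field_simp
    rw [← mul_pow, e2, mul_pow, e1]
    ring
  have hsum : ∑ x : Fˣ, ((x : F) ^ 2 + m) * (k ^ h * ((x : F) ^ 2 + m) ^ h + (x : F) ^ h) = 0 :=
    Finset.sum_eq_zero fun x _ => hzero x
  have hps : ∀ i : ℕ, ∑ x : Fˣ, (x : F) ^ i = if q - 1 ∣ i then -1 else 0 := fun i =>
    FiniteField.sum_pow_units F i
  have hexp : ∀ x : Fˣ, ((x : F) ^ 2 + m) * (k ^ h * ((x : F) ^ 2 + m) ^ h + (x : F) ^ h) =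
      (∑ j ∈ Finset.range (h + 1 + 1), k ^ h * (m ^ (h + 1 - j) * ((h + 1).choose j : F)) * (x : F) ^ (2 * j)) +
        ((x : F) ^ (h + 2) + m * (x : F) ^ h) := fun x => by
    have : ∑ j ∈ Finset.range (h + 1 + 1), k ^ h * (m ^ (h + 1 - j) * ((h + 1).choose j : F)) * (x : F) ^ (2 * j)
        = k ^ h * ((x : F) ^ 2 + m) ^ (h + 1) := by
      rw [add_pow, Finset.mul_sum]
      exact Finset.sum_congr rfl fun j _ => by rw [pow_mul]; ring
    rw [this]; ring
  rw [Finset.sum_congr rfl (fun x _ => hexp x), Finset.sum_add_distrib, Finset.sum_add_distrib,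
    Finset.sum_comm, ← Finset.mul_sum] at hsum
  simp only [← Finset.mul_sum, hps] at hsum
  have n1 : ¬ q - 1 ∣ h + 2 := fun hd => by
    have := Nat.le_of_dvd (by omega) hd; omega
  have n2 : ¬ q - 1 ∣ h := fun hd => by
    have := Nat.le_of_dvd (by omega) hd; omega
  rw [if_neg n1, if_neg n2, mul_zero, add_zero, add_zero] at hsum
  rw [Finset.sum_eq_add 0 h (by omega) (fun j hj hne => ?_) (by simp) (by simp)] at hsum
  · rw [if_pos (show q - 1 ∣ 2 * 0 by simp), if_pos (by rw [h2h]), Nat.choose_zero_right, Nat.choose_succ_self_right,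
      Nat.sub_zero, show h + 1 - h = 1 by omega] at hsum
    refine hgood ?_
    have h2 : (2 : F) * ((h : F) + 1) = 1 := by
      have e : ((2 * h + 1 : ℕ) : F) = 0 := by
        rw [show 2 * h + 1 = q by omega, hq]; exact FiniteField.cast_card_eq_zero F
      push_cast at e
      linear_combination e
    have hkm : k ^ h * m ≠ 0 := mul_ne_zero (pow_ne_zero _ hk) hm
    apply mul_left_cancel₀ hkm
    rw [mul_zero]
    push_cast at hsum
    linear_combination (-2 : F) * hsum - k ^ h * m * h2
  · rw [if_neg, mul_zero]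
    intro hd
    rw [Finset.mem_range] at hj
    rw [← h2h] at hd
    obtain ⟨c, hc⟩ := (Nat.mul_dvd_mul_iff_left (by norm_num : 0 < 2)).1 hd
    rcases c with _ | _ | c
    · exact hne.1 (by omega)
    · exact hne.2 (by omega)
    · have : h * 2 ≤ h * (c + 1 + 1) := Nat.mul_le_mul_left h (by omega)
      omega

/-- Choosing a point from four candidates. -/
theorem of_candidates (e : Fin 4 → F) (he : ∀ l, e l ≠ 0) (B : Finset (Fin 4 → F)) (hB : B.card ≤ 3)
    (X : Fin 4 → Fin 4 → F) (hs : ∀ a, X a 0 + X a 1 + X a 2 + X a 3 = 0) (hn : ∀ a l, X a l ≠ 0)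
    (hc : ∀ a, ∃ c : F, c ^ 4 * (X a 0 * X a 1 * X a 2 * X a 3) = e 0 * e 1 * e 2 * e 3)
    (hpw : ∀ a b, (∀ i j, X a i * X b j = X b i * X a j) → a = b) :
    ∃ d : Fin 4 → F, (∀ l, d l ≠ 0) ∧ d 0 * d 1 * d 2 * d 3 = 1 ∧
      e 0 * d 0 + e 1 * d 1 + e 2 * d 2 + e 3 * d 3 = 0 ∧ ∀ w ∈ B, ∀ c : F, d ≠ c • w := by
  classical
  choose c hc using hc
  have hc0 : ∀ a, c a ≠ 0 := fun a e' => by
    have := hc a
    rw [e', zero_pow (by norm_num), zero_mul] at this
    exact mul_ne_zero (mul_ne_zero (mul_ne_zero (he 0) (he 1)) (he 2)) (he 3) this.symm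
  let d : Fin 4 → Fin 4 → F := fun a l => c a * X a l / e l
  have hd1 : ∀ a, d a 0 * d a 1 * d a 2 * d a 3 = 1 := fun a => by
    have h0 := he 0; have h1 := he 1; have h2 := he 2; have h3 := he 3
    simp only [d]; field_simp; linear_combination hc a
  have hd2 : ∀ a, e 0 * d a 0 + e 1 * d a 1 + e 2 * d a 2 + e 3 * d a 3 = 0 := fun a => by
    have h0 := he 0; have h1 := he 1; have h2 := he 2; have h3 := he 3
    simp only [d]; field_simp; linear_combination c a * hs a
  suffices ∃ a, ∀ w ∈ B, ∀ t : F, d a ≠ t • w by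
    obtain ⟨a, ha⟩ := this
    exact ⟨d a, fun l => div_ne_zero (mul_ne_zero (hc0 a) (hn a l)) (he l), hd1 a, hd2 a, ha⟩
  by_contra hall
  push Not at hall
  choose w hw t ht using hall
  obtain ⟨a, -, b, -, hab, hwab⟩ := Finset.exists_ne_map_eq_of_card_lt_of_maps_to
    (s := (Finset.univ : Finset (Fin 4))) (t := B) (f := w) (by simp; omega) (fun a _ => hw a)
  refine hab (hpw a b fun i j => ?_)
  have key : d a i * d b j = d b i * d a j := by
    rw [ht a, ht b, hwab]; simp only [Pi.smul_apply, smul_eq_mul]; ring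
  have h0 := he i; have h1 := he j; have h2 := hc0 a; have h3 := hc0 b
  simp only [d] at key
  field_simp at key
  linear_combination key

theorem cast_three_of_card_nine (h9 : Fintype.card F = 9) : (3 : F) = 0 := by
  have := FiniteField.cast_card_eq_zero F
  rw [h9] at this
  push_cast at this
  rw [show (9 : F) = 3 * 3 by norm_num] at this
  exact mul_self_eq_zero.1 this

/-- The field with nine elements. -/
theorem exists_point_nine (h9 : Fintype.card F = 9) (e : Fin 4 → F) (he : ∀ l, e l ≠ 0)
    (B : Finset (Fin 4 → F)) (hB : B.card ≤ 3) :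
    ∃ d : Fin 4 → F, (∀ l, d l ≠ 0) ∧ d 0 * d 1 * d 2 * d 3 = 1 ∧
      e 0 * d 0 + e 1 * d 1 + e 2 * d 2 + e 3 * d 3 = 0 ∧ ∀ w ∈ B, ∀ c : F, d ≠ c • w := by
  classical
  have h3 := cast_three_of_card_nine h9
  obtain ⟨u, hu⟩ := IsCyclic.exists_ofOrder_eq_natCard (α := Fˣ)
  have ho : orderOf u = 8 := by rw [hu, Nat.card_eq_fintype_card, Fintype.card_units, h9]
  set g : F := (u : F) with hg
  have hg0 : g ≠ 0 := u.ne_zero
  have hinj : ∀ a b : ℕ, a < 8 → b < 8 → g ^ a = g ^ b → a = b := fun a b ha hb h =>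
    pow_injOn_Iio_orderOf (x := u) (ho ▸ ha) (ho ▸ hb) (Units.ext (by simpa [g] using h))
  have h8 : g ^ 8 = 1 := by
    have := congrArg Units.val (pow_orderOf_eq_one u)
    simpa [ho] using this
  have h4 : g ^ 4 = -1 := by
    have : (g ^ 4) * (g ^ 4) = 1 := by rw [← pow_add]; exact h8
    exact (mul_self_eq_one_iff.1 this).resolve_left fun h => by
      have := hinj 4 0 (by norm_num) (by norm_num) (by simpa using h); omega
  obtain ⟨j, hj⟩ : ∃ j : ℕ, g ^ j = e 0 * e 1 * e 2 * e 3 := by
    set P : Fˣ := Units.mk0 _ (mul_ne_zero (mul_ne_zero (mul_ne_zero (he 0) (he 1)) (he 2)) (he 3))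
    have : P ∈ Submonoid.powers u := by
      rw [mem_powers_iff_mem_zpowers]
      have htop : Subgroup.zpowers u = ⊤ := Subgroup.eq_top_of_card_eq _ (by rw [Nat.card_zpowers, hu])
      rw [htop]; trivial
    obtain ⟨j, hj⟩ := this
    exact ⟨j, by simpa [g, P] using congrArg Units.val hj⟩
  rw [← Nat.div_add_mod j 4, pow_add, pow_mul, h4] at hj
  have hsign : ∃ c : F, c ^ 4 = (-1) ^ (j / 4) :=
    ⟨g ^ (j / 4), by rw [← pow_mul, mul_comm, pow_mul, h4]⟩
  obtain ⟨c, hc⟩ := hsign
  rw [← hc] at hj
  have heven : ∀ r < 2, j % 4 = 2 * r → ∃ d : Fin 4 → F, (∀ l, d l ≠ 0) ∧ d 0 * d 1 * d 2 * d 3 = 1 ∧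
      e 0 * d 0 + e 1 * d 1 + e 2 * d 2 + e 3 * d 3 = 0 ∧ ∀ w ∈ B, ∀ c : F, d ≠ c • w := by
    intro r hr hjr
    refine of_candidates e he B hB
      (fun a => ![1, -1, g ^ (2 * (a : ℕ) + r), -g ^ (2 * (a : ℕ) + r)]) (fun a => by simp)
      (fun a l => by fin_cases l <;> simp [hg0]) (fun a => ?_) (fun a b h => ?_)
    · refine ⟨c * g ^ (a : ℕ) , ?_⟩
      rw [← hj, hjr]
      simp only [Matrix.cons_val_zero, Matrix.cons_val_one, Matrix.cons_val]
      have e8 : g ^ (8 * (a : ℕ)) = 1 := by rw [pow_mul, h8, one_pow]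
      rw [show c ^ 4 * g ^ (2 * r) = c ^ 4 * (g ^ (8 * (a : ℕ)) * g ^ (2 * r)) by rw [e8, one_mul]]
      ring
    · have := h 0 2
      simp only [Matrix.cons_val_zero, Matrix.cons_val, one_mul] at this
      have := hinj _ _ (by omega) (by omega) this
      exact Fin.ext (by omega)
  have hodd : ∀ x y : F, x ≠ 0 → y ≠ 0 → x ≠ y → x + y = 1 →
      (∃ s : F, s ^ 4 * (x * y) = g ^ (j % 4)) → ∃ d : Fin 4 → F, (∀ l, d l ≠ 0) ∧
        d 0 * d 1 * d 2 * d 3 = 1 ∧ e 0 * d 0 + e 1 * d 1 + e 2 * d 2 + e 3 * d 3 = 0 ∧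
        ∀ w ∈ B, ∀ c : F, d ≠ c • w := by
    intro x y hx hy hxy hsum ⟨s, hs⟩
    refine of_candidates e he B hB ![![1, 1, x, y], ![1, 1, y, x], ![x, y, 1, 1], ![y, x, 1, 1]]
      (fun a => by fin_cases a <;> (simp; linear_combination hsum + h3))
      (fun a l => by fin_cases a <;> fin_cases l <;> simp [hx, hy]) (fun a => ?_) (fun a b h => ?_)
    · refine ⟨c * s, ?_⟩
      rw [← hj]
      fin_cases a <;> (simp; linear_combination c ^ 4 * hs)
    · have h02 := h 0 2
      have h23 := h 2 3
      fin_cases a <;> fin_cases b <;> simp at h02 h23 ⊢ <;>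
        first
        | exact hxy h02
        | exact hxy h02.symm
        | exact hxy h23
        | exact hxy h23.symm
        | exact hxy (by linear_combination h02)
        | exact hxy (by linear_combination h23)
        | exact hxy (by linear_combination -h02)
        | exact hxy (by linear_combination -h23)
  have hgen : (g * g + g = 1) ∨ (g * g = g + 1) := by
    have : (g * g + g - 1) * (g * g - g - 1) = 0 := by linear_combination h4 - (g * g) * h3
    rcases mul_eq_zero.1 this with h | h
    · exact Or.inl (by linear_combination h)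
    · exact Or.inr (by linear_combination h)
  have hne : ∀ a b : ℕ, a < 8 → b < 8 → a ≠ b → g ^ a ≠ g ^ b := fun a b ha hb hab h => hab (hinj a b ha hb h)
  rcases (show j % 4 = 2 * 0 ∨ j % 4 = 2 * 1 ∨ j % 4 = 1 ∨ j % 4 = 3 by omega) with h | h | h | h
  · exact heven 0 (by norm_num) h
  · exact heven 1 (by norm_num) h
  · rcases hgen with hgg | hgg
    · refine hodd (g ^ 3) (g ^ 6) (pow_ne_zero _ hg0) (pow_ne_zero _ hg0) (hne 3 6 (by norm_num) (by norm_num) (by norm_num)) ?_
        ⟨1, by rw [h]; linear_combination g * h8⟩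
      have := congrArg (· ^ 3) hgg
      simp only [one_pow] at this
      linear_combination this - (g ^ 4 * (g + 1)) * h3
    · refine hodd (g ^ 6) (g ^ 7) (pow_ne_zero _ hg0) (pow_ne_zero _ hg0) (hne 6 7 (by norm_num) (by norm_num) (by norm_num)) ?_
        ⟨g, by rw [h]; linear_combination (g ^ 9 + g) * h8⟩
      linear_combination (g ^ 2 * (g + 1)) * h4 - (g + 2) * hgg - (g + 1) * h3
  · rcases hgen with hgg | hgg
    · exact hodd g (g ^ 2) hg0 (pow_ne_zero _ hg0)
        (by simpa using hne 1 2 (by norm_num) (by norm_num) (by norm_num))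
        (by linear_combination hgg) ⟨1, by rw [h]; ring⟩
    · exact hodd (g ^ 2) (g ^ 5) (pow_ne_zero _ hg0) (pow_ne_zero _ hg0)
        (hne 2 5 (by norm_num) (by norm_num) (by norm_num))
        (by linear_combination hgg + g * h4) ⟨g, by rw [h]; linear_combination g ^ 3 * h8⟩

/-- A point with product one on the hyperplane, off three given lines. -/
theorem exists_point (h7 : 7 ≤ Fintype.card F) (e : Fin 4 → F) (he : ∀ l, e l ≠ 0)
    (B : Finset (Fin 4 → F)) (hB : B.card ≤ 3) :
    ∃ d : Fin 4 → F, (∀ l, d l ≠ 0) ∧ d 0 * d 1 * d 2 * d 3 = 1 ∧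
      e 0 * d 0 + e 1 * d 1 + e 2 * d 2 + e 3 * d 3 = 0 ∧ ∀ w ∈ B, ∀ c : F, d ≠ c • w := by
  classical
  by_cases h9 : Fintype.card F = 9
  · exact exists_point_nine h9 e he B hB
  set q := Fintype.card F with hq
  set X : Finset F := insert (-e 1 / e 0) (B.image fun w => w 0 / w 1)
  have hX : X.card ≤ 4 := (Finset.card_insert_le _ _).trans
    (by have := Finset.card_image_le (s := B) (f := fun w => w 0 / w 1); omega)
  -- the ratio of the first two coordinates
  obtain ⟨r, hr0, hrX, hgood⟩ : ∃ r : F, r ≠ 0 ∧ r ∉ X ∧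
      (Odd q → 2 * (e 3 / (r * e 2)) ^ (q / 2) + 1 ≠ 0) := by
    by_cases hp3 : Odd q ∧ (3 : F) = 0
    · obtain ⟨hodd, hp3⟩ := hp3
      have h10 : 10 ≤ q := by
        rcases Nat.lt_or_ge q 10 with hlt | h; swap; · exact h
        exfalso
        have h78 : q = 7 := by rcases hodd with ⟨k, hk⟩; omega
        have := FiniteField.cast_card_eq_zero F
        rw [← hq, h78] at this
        exact one_ne_zero (α := F) (by push_cast at this; linear_combination this - 2 * hp3)
      have hchar : ringChar F ≠ 2 := fun e => by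
        have := FiniteField.even_card_of_char_two e
        rcases hodd with ⟨k, hk⟩; omega
      obtain ⟨ν, hν⟩ := FiniteField.exists_nonsquare hchar
      have hν0 : ν ≠ 0 := fun e => hν (e ▸ IsSquare.zero)
      -- r ranges over one class modulo squares
      set S : Finset F := Finset.univ.filter fun r => r ≠ 0 ∧ ¬ IsSquare (e 3 / (r * e 2))
      set T : Finset F := Finset.univ.filter fun r => r ≠ 0 ∧ IsSquare (e 3 / (r * e 2))
      have hTS : T.card ≤ S.card := Finset.card_le_card_of_injOn (fun r => r * ν)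
        (fun r hr => by
          simp only [Finset.coe_filter, T, S, Set.mem_setOf_eq, Finset.mem_univ, true_and] at hr ⊢
          refine ⟨mul_ne_zero hr.1 hν0, fun ⟨z, hz⟩ => hν ?_⟩
          obtain ⟨y, hy⟩ := hr.2
          have hz0 : z ≠ 0 := fun e0 => by
            rw [e0, mul_zero] at hz
            exact div_ne_zero (he 3) (mul_ne_zero (mul_ne_zero hr.1 hν0) (he 2)) hz
          refine ⟨y / z, ?_⟩
          rw [div_mul_div_comm, ← hy, ← hz]
          have h2 := he 2; have h3 := he 3; have h4 := hr.1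
          field_simp)
        (fun a _ b _ h => mul_right_cancel₀ hν0 h)
      have hunion : q - 1 ≤ S.card + T.card := by
        have hd : (Finset.univ.erase (0 : F)) ⊆ S ∪ T := fun x hx => by
          simp only [Finset.mem_erase, Finset.mem_univ, and_true] at hx
          simp [S, T, hx, em']
        have := (Finset.card_le_card hd).trans (Finset.card_union_le S T)
        rwa [Finset.card_erase_of_mem (Finset.mem_univ _), Finset.card_univ] at this
      obtain ⟨r, hr, hrX⟩ := Finset.exists_mem_notMem_of_card_lt_card (s := X) (t := S) (by omega)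
      simp only [S, Finset.mem_filter, Finset.mem_univ, true_and] at hr
      refine ⟨r, hr.1, hrX, fun _ => ?_⟩
      have hm : e 3 / (r * e 2) ≠ 0 := div_ne_zero (he 3) (mul_ne_zero hr.1 (he 2))
      rcases FiniteField.pow_dichotomy hchar hm with e1 | e1
      · exact absurd ((FiniteField.isSquare_iff hchar hm).2 e1) hr.2
      · rw [e1]; intro h
        exact one_ne_zero (α := F) (by linear_combination -h)
    · obtain ⟨r, -, hr⟩ := Finset.exists_mem_notMem_of_card_lt_card (s := insert 0 X) (t := Finset.univ)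
        (by rw [Finset.card_univ]; have := Finset.card_insert_le 0 X; omega)
      simp only [Finset.mem_insert, not_or] at hr
      refine ⟨r, hr.1, hr.2, fun hodd h => ?_⟩
      have hchar : ringChar F ≠ 2 := fun e => by
        have := FiniteField.even_card_of_char_two e
        rcases hodd with ⟨k, hk⟩; omega
      rcases FiniteField.pow_dichotomy hchar (div_ne_zero (he 3) (mul_ne_zero hr.1 (he 2))) with e1 | e1 <;>
        rw [e1] at h
      · exact hp3 ⟨hodd, by linear_combination h⟩
      · exact one_ne_zero (α := F) (by linear_combination -h)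
  simp only [X, Finset.mem_insert, Finset.mem_image, not_or, not_exists, not_and] at hrX
  set α := e 0 * r + e 1 with hα
  have hα0 : α ≠ 0 := fun h => hrX.1 (by
    rw [eq_div_iff (he 0)]; linear_combination h)
  set m := e 3 / (r * e 2) with hm
  have hm0 : m ≠ 0 := div_ne_zero (he 3) (mul_ne_zero hr0 (he 2))
  set k := -(e 2) / α with hk
  have hk0 : k ≠ 0 := div_ne_zero (neg_ne_zero.2 (he 2)) hα0
  obtain ⟨x, z, hx, hz, hzz⟩ : ∃ x z : F, x ≠ 0 ∧ z ≠ 0 ∧ z * z = k * (x + m / x) := by
    rcases Nat.even_or_odd q with hev | hodd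
    · have hchar : ringChar F = 2 := FiniteField.even_card_iff_char_two.2 (Nat.even_iff.1 hev)
      obtain ⟨x, -, hx⟩ := Finset.exists_mem_notMem_of_card_lt_card
        (s := Finset.univ.filter fun x : F => x = 0 ∨ x * x = -m) (t := Finset.univ) (by
          rw [Finset.card_univ]
          refine lt_of_le_of_lt ?_ (show 3 < q by omega)
          calc _ ≤ (insert (0 : F) (Finset.univ.filter fun x : F => x * x = -m)).card :=
                Finset.card_le_card fun x hx => by simpa using hx
            _ ≤ (Finset.univ.filter fun x : F => x * x = -m).card + 1 := Finset.card_insert_le _ _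
            _ ≤ 3 := by
              have : (Finset.univ.filter fun x : F => x * x = -m).card ≤ 2 := by
                by_cases hs : ∃ a : F, a * a = -m
                · obtain ⟨a, ha⟩ := hs
                  refine (Finset.card_le_card (t := {a, -a}) fun x hx => ?_).trans Finset.card_le_two
                  simp only [Finset.mem_filter, Finset.mem_univ, true_and] at hx
                  simpa using mul_self_eq_mul_self_iff.1 (hx.trans ha.symm)
                · push Not at hs
                  rw [Finset.filter_eq_empty_iff.2 fun x _ => hs x]; simp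
              omega)
      simp only [Finset.mem_filter, Finset.mem_univ, true_and, not_or] at hx
      obtain ⟨z, hz⟩ := FiniteField.isSquare_of_char_two hchar (k * (x + m / x))
      refine ⟨x, z, hx.1, fun h => hx.2 ?_, hz.symm⟩
      rw [h, mul_zero, mul_eq_zero, or_iff_right hk0] at hz
      have hx1 := hx.1
      field_simp at hz
      linear_combination hz
    · exact exists_square_value hodd h7 hk0 hm0 (hgood hodd)
  refine ⟨![r * z, z, x / z, 1 / (r * z * x)], fun l => ?_, ?_, ?_, fun w hw c h => ?_⟩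
  · fin_cases l <;> simp [hr0, hz, hx]
  · simp only [Matrix.cons_val_zero, Matrix.cons_val_one, Matrix.cons_val]
    field_simp
  · simp only [Matrix.cons_val_zero, Matrix.cons_val_one, Matrix.cons_val]
    rw [hk, hm] at hzz
    have h2 := he 2
    field_simp at hzz ⊢
    linear_combination hzz
  · have h0 := congrFun h 0
    have h1 := congrFun h 1
    simp at h0 h1
    have hw1 : w 1 ≠ 0 := fun e0 => hz (by rw [h1, e0, mul_zero])
    apply hrX.2 w hw
    rw [div_eq_iff hw1]
    have hc : c ≠ 0 := fun e0 => hz (by rw [h1, e0, zero_mul])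
    apply mul_left_cancel₀ hc
    linear_combination -h0 + r * h1

end Cfsg.Agent.MaxSub.SLFour
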