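import Cfsg.Agent.MaxSub.SLFour.FixLine
import Cfsg.Agent.MaxSub.SLFour.TorusPoint

/-!
Stabilisers of frames of a four-dimensional space are maximal in the special linear group, over
fields with at least seven elements.
-/

set_option autoImplicit false
set_option linter.style.haveILetI false
set_option linter.unusedSectionVars false

namespace Cfsg.Agent.MaxSub.SLFour

open Matrix Cfsg.Geo Cfsg.Agent.MaxSub.SubfieldMax Cfsg.Agent.DecompMax Cfsg.Agent.DecompMax.Lin Module
open scoped MatrixGroups Matrix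

variable {ι : Type} [Fintype ι] [DecidableEq ι] {F : Type*} [Field F]

theorem monGL_pow_perm (π : Equiv.Perm ι) (d : ι → Fˣ) (n : ℕ) :
    ∃ e : ι → Fˣ, (monGL π d : GL ι F) ^ n = monGL (π ^ n) e := by
  induction n with
  | zero => exact ⟨fun _ => 1, by rw [pow_zero, pow_zero]; exact Units.ext monMat_one.symm⟩
  | succ n ih =>
    obtain ⟨e, he⟩ := ih
    exact ⟨_, by rw [pow_succ, he, monGL_mul, ← pow_succ]⟩

theorem monGL_one_pow (d : ι → Fˣ) (n : ℕ) :
    (monGL 1 d : GL ι F) ^ n = monGL 1 fun x => d x ^ n := by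
  induction n with
  | zero => simp only [pow_zero]; exact Units.ext monMat_one.symm
  | succ n ih =>
    rw [pow_succ, ih, monGL_mul, mul_one]
    congr 1
    funext x
    simp [pow_succ]

theorem monGL_one_apply (d : ι → Fˣ) (x y : ι) :
    ((monGL 1 d : GL ι F) : Matrix ι ι F) x y = if x = y then (d y : F) else 0 := rfl

theorem monGL_one_mul_apply (d : ι → Fˣ) (A : Matrix ι ι F) (x y : ι) :
    (((monGL 1 d : GL ι F) : Matrix ι ι F) * A) x y = (d x : F) * A x y := by
  rw [Matrix.mul_apply, Finset.sum_eq_single x (fun z _ hz => by rw [monGL_one_apply, if_neg hz.symm, zero_mul])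
    (by simp), monGL_one_apply, if_pos rfl]

theorem mul_monGL_apply (A : Matrix ι ι F) (π : Equiv.Perm ι) (d : ι → Fˣ) (x y : ι) :
    (A * ((monGL π d : GL ι F) : Matrix ι ι F)) x y = A x (π y) * d y := by
  rw [Matrix.mul_apply, Finset.sum_eq_single (π y) (fun z _ hz => ?_) (by simp)]
  · show A x (π y) * monMat π d (π y) y = _
    simp [monMat]
  · show A x z * monMat π d z y = 0
    simp [monMat, hz]

variable {M : Subgroup (GL ι F)}

theorem setup_inv {g : GL ι F} (H : Setup M g) : Setup M g⁻¹ :=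
  ⟨H.mon, H.nofix, inv_mem H.mem, fun h => H.notMon (by simpa using h.inv)⟩

theorem perm_pow_six (h4 : Fintype.card ι = 4) (π : Equiv.Perm ι) {o : ι} (ho : π o = o) :
    π ^ 6 = 1 := by
  have hp : ∀ x, π x ≠ o ↔ x ≠ o := fun x => by
    rw [not_iff_not]
    exact ⟨fun h => π.injective (h.trans ho.symm), fun h => h ▸ ho⟩
  set σ : Equiv.Perm {x // x ≠ o} := π.subtypePerm hp
  have h6 : σ ^ 6 = 1 := by
    have := pow_card_eq_one (x := σ)
    rwa [Fintype.card_perm, Fintype.card_subtype_compl, Fintype.card_subtype_eq, h4] at this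
  refine Equiv.ext fun x => ?_
  rcases eq_or_ne x o with rfl | hx
  · exact Equiv.Perm.pow_apply_eq_self_of_apply_eq_self ho 6
  · have h := congrArg (fun τ : Equiv.Perm {x // x ≠ o} => ((τ ⟨x, hx⟩ : {x // x ≠ o}) : ι)) h6
    simpa [σ, Equiv.Perm.subtypePerm_pow] using h

/-- A column with two entries is impossible. -/
theorem not_supp_two (h4 : Fintype.card ι = 4) {h : GL ι F} (H : Setup M h) {ζ : Fˣ}
    (hζ : (ζ : F) ^ 12 ≠ 1) {o p p' : ι} (hpp : p ≠ p')
    (hs : ∀ l, l ≠ p → l ≠ p' → (h : Matrix ι ι F) l o = 0) : False := by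
  classical
  obtain ⟨r, hrp, hrp', -⟩ := exists_three_avoid (le_of_eq h4.symm) p p' p'
  obtain ⟨s, hsp, hsp', hsr⟩ := exists_three_avoid (le_of_eq h4.symm) p p' r
  have hall : ∀ x, x = p ∨ x = p' ∨ x = r ∨ x = s := by
    have hc : ({p, p', r, s} : Finset ι).card = 4 := by
      rw [Finset.card_insert_of_notMem (by simp [hpp, hrp.symm, hsp.symm]),
        Finset.card_insert_of_notMem (by simp [hrp'.symm, hsp'.symm]),
        Finset.card_insert_of_notMem (by simp [hsr.symm]), Finset.card_singleton]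
    have := (Finset.card_eq_iff_eq_univ _).1 (hc.trans h4.symm)
    intro x
    have hx := Finset.mem_univ x
    rw [← this] at hx
    simpa using hx
  set d : ι → Fˣ := fun i => if i = r then ζ else if i = s then ζ⁻¹ else 1 with hd
  have ht : monGL 1 d ∈ M := diag_pair_mem H.mon hsr.symm ζ
  set t : GL ι F := monGL 1 d
  set N := h⁻¹ * t * h
  have hN : N ∈ M := mul_mem (mul_mem (inv_mem H.mem) ht) H.mem
  have hto : (t : Matrix ι ι F) *ᵥ ((h : Matrix ι ι F) *ᵥ ev F o) = (h : Matrix ι ι F) *ᵥ ev F o := by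
    funext x
    rw [Matrix.mulVec_mulVec, Matrix.mulVec_single_one, Matrix.mulVec_single_one, Matrix.col_apply,
      Matrix.col_apply, monGL_one_mul_apply]
    rcases hall x with rfl | rfl | rfl | rfl
    · simp [d, hrp.symm, hsp.symm]
    · simp [d, hrp'.symm, hsp'.symm]
    · rw [hs _ hrp hrp', mul_zero]
    · rw [hs _ hsp hsp', mul_zero]
  have hNo : (N : Matrix ι ι F) *ᵥ ev F o = ev F o := by
    simp only [N, Units.val_mul, ← Matrix.mulVec_mulVec]
    rw [hto, Matrix.mulVec_mulVec, ← Units.val_mul, inv_mul_cancel, Units.val_one, Matrix.one_mulVec]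
  obtain ⟨π, c, hπ⟩ := (H.mon_of_single hN (i := o) (j := o) (k := 1) (by rw [hNo, one_smul])).exists_eq
  have hπo : π o = o := by
    by_contra hne
    have e := congrFun hNo o
    rw [hπ, monGL_mulVec_ev] at e
    simp [ev, Ne.symm hne] at e
  obtain ⟨e, he⟩ := monGL_pow_perm π c 6
  rw [perm_pow_six h4 π hπo, ← hπ] at he
  have hconj : N ^ 6 = h⁻¹ * t ^ 6 * h := by
    simp only [N, pow_succ, pow_zero, one_mul]; group
  rw [hconj, monGL_one_pow] at he
  have he' : monGL 1 (fun x => d x ^ 6) * h = h * monGL 1 e := by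
    rw [← he]; group
  have key : ∀ x l, (h : Matrix ι ι F) x l ≠ 0 → ((d x : F)) ^ 6 = (e l : F) := fun x l hx => by
    have := congrArg (fun A : GL ι F => (A : Matrix ι ι F) x l) he'
    simp only [Units.val_mul, monGL_one_mul_apply, mul_monGL_apply, Equiv.Perm.one_apply,
      Units.val_pow_eq_pow_val] at this
    exact mul_right_cancel₀ hx (this.trans (mul_comm _ _))
  refine Matrix.GeneralLinearGroup.det_ne_zero h (Matrix.det_eq_zero_of_row_eq_zero r fun l => ?_)
  by_contra hr
  obtain ⟨y, hyr, hy⟩ := H.exists_ne l r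
  have hh := (key r l hr).trans (key y l hy).symm
  rcases hall y with rfl | rfl | rfl | rfl
  · simp [d, hrp.symm, hsp.symm] at hh
    exact hζ (by rw [show (12 : ℕ) = 6 * 2 from rfl, pow_mul, hh, one_pow])
  · simp [d, hrp'.symm, hsp'.symm] at hh
    exact hζ (by rw [show (12 : ℕ) = 6 * 2 from rfl, pow_mul, hh, one_pow])
  · exact hyr rfl
  · simp [d, hsr] at hh
    have hz := ζ.ne_zero
    apply hζ
    field_simp at hh
    linear_combination hh

/-- A non-monomial element has no zero entries. -/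
theorem no_zero [Fintype F] (hq : 7 ≤ Fintype.card F) (h4 : Fintype.card ι = 4) {g : GL ι F}
    (H : Setup M g) {o i : ι} (h0 : (g : Matrix ι ι F) o i = 0) : False := by
  classical
  obtain ⟨ζ, hζ⟩ := IsCyclic.exists_ofOrder_eq_natCard (α := Fˣ)
  have hord : 6 ≤ orderOf ζ := by
    rw [hζ, Nat.card_eq_fintype_card, Fintype.card_units]; omega
  have hz4 : (ζ : F) ^ 4 ≠ 1 := fun h => by
    have := Nat.le_of_dvd (by norm_num) (orderOf_dvd_of_pow_eq_one (Units.ext (by simpa using h) : ζ ^ 4 = 1))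
    omega
  set d : ι → Fˣ := fun x => if x = o then (ζ ^ 3)⁻¹ else ζ with hd
  have hdet : ((Equiv.Perm.sign (1 : Equiv.Perm ι) : ℤˣ) : F) * ∏ x, (d x : F) = 1 := by
    rw [← Units.coe_prod, ← Finset.mul_prod_erase _ _ (Finset.mem_univ o),
      Finset.prod_congr (g := fun _ => ζ) rfl (fun x hx => if_neg (Finset.ne_of_mem_erase hx)),
      Finset.prod_const, Finset.card_erase_of_mem (Finset.mem_univ o), Finset.card_univ, h4]
    simp [d]
  have ht : monGL 1 d ∈ M := H.mon _ _ (monGL_mem_specialLinear hdet)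
  set t : GL ι F := monGL 1 d
  set N := g⁻¹ * t * g
  have hN : N ∈ M := mul_mem (mul_mem (inv_mem H.mem) ht) H.mem
  set δ : F := (((ζ ^ 3)⁻¹ : Fˣ) : F) - ζ with hδ
  have hδ0 : δ ≠ 0 := fun h => hz4 (by
    have hz := ζ.ne_zero
    simp [δ] at h
    field_simp at h
    linear_combination -h)
  set u : ι → F := fun x => ((g⁻¹ : GL ι F) : Matrix ι ι F) x o with hu
  set φ : ι → F := fun x => (g : Matrix ι ι F) o x with hφ
  have hdapp : ∀ x, (d x : F) = (ζ : F) + if x = o then δ else 0 := fun x => by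
    by_cases hx : x = o <;> simp [d, δ, hx]
  have hNapp : ∀ x k, (N : Matrix ι ι F) x k = (if x = k then (ζ : F) else 0) + δ * (u x * φ k) := by
    intro x k
    have e : ((g⁻¹ : GL ι F) : Matrix ι ι F) * (g : Matrix ι ι F) = 1 := by
      rw [← Units.val_mul, inv_mul_cancel, Units.val_one]
    have e1 := congrFun (congrFun e x) k
    rw [Matrix.mul_apply, Matrix.one_apply] at e1
    simp only [N, Units.val_mul, mul_assoc, Matrix.mul_apply (M := ((g⁻¹ : GL ι F) : Matrix ι ι F)),
      monGL_one_mul_apply, t]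
    simp only [hdapp, add_mul, mul_add, Finset.sum_add_distrib, ite_mul, zero_mul, mul_ite, mul_zero,
      Finset.sum_ite_eq', Finset.mem_univ, if_true]
    rw [Finset.sum_congr rfl (fun y _ => show ((g⁻¹ : GL ι F) : Matrix ι ι F) x y * ((ζ : F) *
      (g : Matrix ι ι F) y k) = (ζ : F) * (((g⁻¹ : GL ι F) : Matrix ι ι F) x y * (g : Matrix ι ι F) y k)
      by ring), ← Finset.mul_sum, e1]
    simp only [u, φ, mul_ite, mul_one, mul_zero]
    ring
  have hNm : IsMon N := H.mon_of_single hN (i := i) (j := i) (k := (ζ : F)) (by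
    funext x
    rw [Matrix.mulVec_single_one, Matrix.col_apply, hNapp, Pi.smul_apply, smul_eq_mul,
      show φ i = 0 from h0]
    by_cases hx : x = i <;> simp [hx, ev])
  have hone : ∀ k a b, (N : Matrix ι ι F) a k ≠ 0 → (N : Matrix ι ι F) b k ≠ 0 → a = b := by
    intro k a b ha hb
    obtain ⟨j, hj⟩ := hNm k
    exact (by_contra fun e => ha (hj a e) : a = j).trans (by_contra fun e => hb (hj b e) : b = j).symm
  have hoff : ∀ k a, φ k ≠ 0 → a ≠ k → u a ≠ 0 → (N : Matrix ι ι F) a k ≠ 0 := fun k a hk hak ha => by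
    rw [hNapp, if_neg hak, zero_add]
    exact mul_ne_zero hδ0 (mul_ne_zero ha hk)
  have hsum : ∑ x, φ x * u x = 1 := by
    have := congrFun (congrFun (show (g : Matrix ι ι F) * ((g⁻¹ : GL ι F) : Matrix ι ι F) = 1 by
      rw [← Units.val_mul, mul_inv_cancel, Units.val_one]) o) o
    rwa [Matrix.mul_apply, Matrix.one_apply_eq] at this
  obtain ⟨k, hk⟩ : ∃ k, φ k ≠ 0 := by
    by_contra hc
    push Not at hc
    simp [hc] at hsum
  obtain ⟨p, -, hp⟩ := (setup_inv H).exists_ne o o
  obtain ⟨p', hpp, hp'⟩ := (setup_inv H).exists_ne o p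
  have hsu : ∀ l, l ≠ p → l ≠ p' → u l = 0 := fun l hl hl' => by
    by_contra hul
    rcases eq_or_ne k p with rfl | hkp
    · exact hl' (hone k l p' (hoff k l hk hl hul) (hoff k p' hk hpp hp'))
    rcases eq_or_ne k p' with rfl | hkp'
    · exact hl (hone k l p (hoff k l hk hl' hul) (hoff k p hk hpp.symm hp))
    exact hpp (hone k p' p (hoff k p' hk hkp'.symm hp') (hoff k p hk hkp.symm hp))
  have hdiag : ∀ a b, b ≠ a → u b ≠ 0 → φ a * u a = 0 ∨ δ * (φ a * u a) = -(ζ : F) := by
    intro a b hba hb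
    by_cases ha : φ a = 0
    · exact Or.inl (by rw [ha, zero_mul])
    refine Or.inr ?_
    have h' : (N : Matrix ι ι F) a a = 0 := by
      by_contra h'
      exact hba (hone a b a (hoff a b ha hba hb) h')
    rw [hNapp, if_pos rfl] at h'
    linear_combination h'
  rw [Finset.sum_eq_add p p' hpp.symm (fun x _ hx => by rw [hsu x hx.1 hx.2, mul_zero]) (by simp) (by simp)]
    at hsum
  have hδval : δ = δ * (φ p * u p) + δ * (φ p' * u p') := by rw [← mul_add, hsum, mul_one]
  have hz4' : (ζ : F) ^ 4 = -1 := by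
    have hz := ζ.ne_zero
    rcases hdiag p p' hpp hp' with h1 | h1 <;> rcases hdiag p' p hpp.symm hp with h2 | h2
    · rw [h1, h2, mul_zero, add_zero] at hδval; exact absurd hδval hδ0
    · rw [h1, h2, mul_zero, zero_add] at hδval
      simp [δ] at hδval
    · rw [h1, h2, mul_zero, add_zero] at hδval
      simp [δ] at hδval
    · rw [h1, h2] at hδval
      simp [δ] at hδval
      field_simp at hδval
      linear_combination hδval
  refine not_supp_two h4 (setup_inv H) (ζ := ζ) ?_ hpp.symm hsu
  intro h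
  apply hz4
  linear_combination h - ((ζ : F) ^ 8 - (ζ : F) ^ 4 + 1) * hz4' + hz4'

/-- No group lies properly between the monomial group and the special linear group. -/
theorem setup_false [Fintype F] (hq : 7 ≤ Fintype.card F) (h4 : Fintype.card ι = 4) {g : GL ι F}
    (H : Setup M g) : False := by
  classical
  have hno : ∀ a b, (g : Matrix ι ι F) a b ≠ 0 := fun a b h => no_zero hq h4 H h
  set e := Fintype.equivFinOfCardEq h4
  set o := e.symm 0
  set w : ι → Fin 4 → F := fun k l =>
    ((g⁻¹ : GL ι F) : Matrix ι ι F) (e.symm l) k / (g : Matrix ι ι F) (e.symm l) o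
  obtain ⟨d, hd0, hd1, hd2, hdB⟩ := exists_point hq
    (fun l => (g : Matrix ι ι F) o (e.symm l) * (g : Matrix ι ι F) (e.symm l) o)
    (fun l => mul_ne_zero (hno _ _) (hno _ _)) ((Finset.univ.erase o).image w)
    (Finset.card_image_le.trans (by simp [h4]))
  set d' : ι → Fˣ := fun x => Units.mk0 (d (e x)) (hd0 _)
  have hdet : ((Equiv.Perm.sign (1 : Equiv.Perm ι) : ℤˣ) : F) * ∏ x, (d' x : F) = 1 := by
    simp only [Equiv.Perm.sign_one, Units.val_one, Int.cast_one, one_mul, d', Units.val_mk0]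
    rw [Equiv.prod_comp e d, Fin.prod_univ_four, hd1]
  have ht : monGL 1 d' ∈ M := H.mon _ _ (monGL_mem_specialLinear hdet)
  set y := g * monGL 1 d' * g
  have hy : y ∈ M := mul_mem (mul_mem H.mem ht) H.mem
  have hy0 : (y : Matrix ι ι F) o o = 0 := by
    simp only [y, Units.val_mul, mul_assoc, Matrix.mul_apply (M := (g : Matrix ι ι F)), monGL_one_mul_apply,
      d', Units.val_mk0]
    rw [← Equiv.sum_comp e.symm, Fin.sum_univ_four]
    simp only [Equiv.apply_symm_apply]
    linear_combination hd2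
  have hym : IsMon y := by_contra fun h => no_zero hq h4 ⟨H.mon, H.nofix, hy, h⟩ hy0
  obtain ⟨σ, c, hσ⟩ := hym.exists_eq
  have hσo : σ o ≠ o := fun h => by
    rw [hσ] at hy0
    change monMat σ c o o = 0 at hy0
    simp [monMat, h] at hy0
  refine hdB (w (σ o)) (Finset.mem_image_of_mem _ (Finset.mem_erase.2 ⟨hσo, Finset.mem_univ _⟩)) (c o : F) ?_
  have he : monGL 1 d' * g = g⁻¹ * monGL σ c := by rw [← hσ]; simp only [y]; group
  funext l
  have := congrArg (fun A : GL ι F => (A : Matrix ι ι F) (e.symm l) o) he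
  simp only [Units.val_mul, monGL_one_mul_apply, mul_monGL_apply, d', Units.val_mk0,
    Equiv.apply_symm_apply] at this
  simp only [w, Pi.smul_apply, smul_eq_mul]
  have hne := hno (e.symm l) o
  field_simp
  linear_combination this

/-- Frames give maximal subgroups of the special linear group in dimension four. -/
theorem frame_maximal [Fintype F] (hq : 7 ≤ Fintype.card F) (D : Fin 4 → Submodule F (ι → F))
    (hD : IsMDecomposition 1 D) :
    IsMaximalIn (specialLinear ι F) (decompositionStabilizer D ⊓ specialLinear ι F) := by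
  classical
  obtain ⟨b, hb⟩ := ClassicalMax.exists_adapted_basis hD
  have hcard : Fintype.card ι = 1 * 4 := by
    rw [← Module.finrank_fintype_fun_eq_card (R := F), Module.finrank_eq_card_basis b]; simp
  haveI : Nontrivial ι := Fintype.one_lt_card_iff_nontrivial.1 (by omega)
  refine ⟨lt_of_le_not_ge inf_le_right fun hle =>
    MaxSub.not_le_decompositionStabilizer hD (hle.trans inf_le_left), fun M hM hMK => ?_⟩
  by_cases hMW : M ≤ decompositionStabilizer D
  · exact Or.inl (le_antisymm (le_inf hMW hMK) hM)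
  refine Or.inr (le_antisymm hMK ?_)
  set E := inBasis b
  set M' : Subgroup (GL (Fin 1 × Fin 4) F) := M.map E.toMonoidHom
  suffices hS : specialLinear (Fin 1 × Fin 4) F ≤ M' by
    intro g hg
    obtain ⟨y, hy, e⟩ := hS ((inBasis_mem_specialLinear b g).2 hg)
    rwa [← E.injective e]
  have hmon : ∀ π d, monGL π d ∈ specialLinear (Fin 1 × Fin 4) F → monGL π d ∈ M' := fun π d hh => by
    refine ⟨E.symm (monGL π d), hM ⟨mem_stab_of_supp hD hb fun i v hv =>
      ⟨(π (⟨0, hD.pos⟩, i)).2, ?_⟩, ?_⟩, E.apply_symm_apply _⟩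
    · rw [show inBasis b (E.symm (monGL π d)) = monGL π d from E.apply_symm_apply _]
      exact monGL_maps_blocks hD.pos π d
        (fun x y e => by rw [show x = y from Prod.ext (Subsingleton.elim _ _) e]) i v hv
    · show E.symm (monGL π d) ∈ specialLinear ι F
      rw [← inBasis_mem_specialLinear b, show inBasis b (E.symm (monGL π d)) = monGL π d from E.apply_symm_apply _]
      exact hh
  obtain ⟨g, hgM, hgD⟩ := SetLike.not_le_iff_exists.1 hMW
  have hgm : ¬ IsMon (E g) := fun hmn => hgD (mem_stab_of_supp hD hb fun i v hv => by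
    obtain ⟨π, d, e⟩ := hmn.exists_eq
    rw [show inBasis b g = monGL π d from e]
    exact ⟨_, monGL_maps_blocks hD.pos π d
      (fun x y e => by rw [show x = y from Prod.ext (Subsingleton.elim _ _) e]) i v hv⟩)
  have hMK' : M' ≤ specialLinear (Fin 1 × Fin 4) F := by
    rintro _ ⟨y, hy, rfl⟩
    exact (inBasis_mem_specialLinear b y).2 (hMK hy)
  by_contra hno
  exact setup_false hq (by simp) (⟨hmon, fun y hy o hfix => by_contra fun hym =>
    hno (of_fixLine_four hmon (by omega) (by simp) hMK' hy hfix hym), ⟨g, hgM, rfl⟩, hgm⟩ : Setup M' (E g))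

end Cfsg.Agent.MaxSub.SLFour
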