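import Cfsg.Agent.MaxSub.CSix.Key

/-!
Groups containing the products of two quarter turns of a symplectic-type group: the extension by
one quarter turn, and the algebra of signs in dimension four.
-/

set_option autoImplicit false
set_option maxSynthPendingDepth 3

namespace Cfsg.Agent.MaxSub.SLFour.Pair

open CSix

variable {F : Type*} [Field F] {V : Type*} [AddCommGroup V] [Module F V]

/-- The quarter turn of an involution. -/
abbrev qt (i : F) (a : Module.End F V) : Module.End F V := 1 + i • a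

/-- The inverse of the quarter turn. -/
def qt' (i : F) (a : Module.End F V) : Module.End F V := (2 : F)⁻¹ • (1 - i • a)

/-- A group containing `R` and the products of two of its quarter turns. -/
structure PGrp (i : F) (R G : Set (Module.End F V)) : Prop where
  inv_mem : ∀ g ∈ G, ∃ g' ∈ G, g * g' = 1 ∧ g' * g = 1
  mul_mem : ∀ a ∈ G, ∀ b ∈ G, a * b ∈ G
  smul_mem : ∀ c : F, c ≠ 0 → c • (1 : Module.End F V) ∈ G
  sub : R ⊆ G
  tt_mem : ∀ x ∈ R, x * x = 1 → NS x → ∀ y ∈ R, y * y = 1 → NS y → qt i x * qt i y ∈ G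

/-- No quarter turn of a non-scalar involution of `R` is in `G`. -/
def NoTurn (i : F) (R G : Set (Module.End F V)) : Prop :=
  ∀ a ∈ R, a * a = 1 → NS a → qt i a ∉ G

/-- Elements commuting up to a scalar with a non-scalar element of `R` normalise `R`. -/
def CenNrm (R G : Set (Module.End F V)) : Prop :=
  ∀ g ∈ G, ∀ b ∈ R, NS b → PC g b → Nrm R g

variable {i : F} {R G : Set (Module.End F V)}

section Quarter

variable {a s : Module.End F V}

theorem qt_mul_qt' (hD : Data i R) (ha : a * a = 1) : qt i a * qt' i a = 1 := by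
  rw [qt', mul_smul_comm]
  have : qt i a * (1 - i • a) = (2 : F) • (1 : Module.End F V) := by
    simp only [qt, mul_sub, add_mul, one_mul, mul_one, smul_mul_smul_comm, hD.sq_i, ha]
    module
  rw [this, inv_smul_smul₀ hD.two_ne]

theorem qt'_mul_qt (hD : Data i R) (ha : a * a = 1) : qt' i a * qt i a = 1 := by
  rw [qt', smul_mul_assoc]
  have : (1 - i • a) * qt i a = (2 : F) • (1 : Module.End F V) := by
    simp only [qt, mul_add, sub_mul, one_mul, mul_one, smul_mul_smul_comm, hD.sq_i, ha]
    module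
  rw [this, inv_smul_smul₀ hD.two_ne]

theorem qt_sq (hD : Data i R) (ha : a * a = 1) : qt i a * qt i a = (2 * i) • a := by
  simp only [qt, mul_add, add_mul, one_mul, mul_one, smul_mul_smul_comm, hD.sq_i, ha]
  module

theorem qt_comm (h : a * s = s * a) : qt i a * s = s * qt i a := by
  simp only [qt, add_mul, mul_add, one_mul, mul_one, smul_mul_assoc, mul_smul_comm, h]

theorem qt'_comm (h : a * s = s * a) : qt' i a * s = s * qt' i a := by
  simp only [qt', smul_mul_assoc, mul_smul_comm, sub_mul, mul_sub, one_mul, mul_one, h]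

theorem qt_anti (hD : Data i R) (ha : a * a = 1) (h : a * s = -(s * a)) :
    qt i a * s = (i • (a * s)) * qt i a := by
  have h1 : a * s * a = -s := by rw [h, neg_mul, mul_assoc, ha, mul_one]
  simp only [qt, add_mul, mul_add, one_mul, mul_one, smul_mul_assoc, mul_smul_comm, h1, smul_neg,
    smul_smul, hD.sq_i]
  module

theorem qt'_anti (hD : Data i R) (ha : a * a = 1) (h : a * s = -(s * a)) :
    qt' i a * s = (i • (s * a)) * qt' i a := by
  have h1 : s * a * a = s := by rw [mul_assoc, ha, mul_one]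
  simp only [qt', sub_mul, mul_sub, one_mul, mul_one, smul_mul_assoc, mul_smul_comm, smul_sub,
    h1, h, smul_neg, smul_smul]
  match_scalars <;>
    first
    | linear_combination (2 : F)⁻¹ * hD.sq_i
    | linear_combination -((2 : F)⁻¹) * hD.sq_i
    | linear_combination (0 : F) * hD.sq_i
    | linear_combination ((2 : F)⁻¹ * 2) * hD.sq_i
    | linear_combination (-((2 : F)⁻¹) * 2) * hD.sq_i

theorem nrm_qt (hD : Data i R) (haR : a ∈ R) (ha : a * a = 1) : Nrm R (qt i a) := fun s hs => by
  rcases hD.comm_sign a haR s hs with h | h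
  · exact ⟨s, hs, qt_comm h⟩
  · exact ⟨_, hD.i_smul_mem (hD.mul_mem _ haR _ hs), qt_anti hD ha h⟩

theorem qt'_eq_qt_neg : qt' i a = (2 : F)⁻¹ • qt i (-a) := by
  simp [qt, qt', sub_eq_add_neg]

theorem qt_eq (hD : Data i R) (ha : a * a = 1) : qt i a = (2 * i) • (a * qt' i a) := by
  simp only [qt, qt', mul_smul_comm, mul_sub, mul_one, ha, smul_sub, smul_smul]
  match_scalars <;> field_simp [hD.two_ne, hD.i_ne]
  · linear_combination hD.sq_i

end Quarter

namespace PGrp

/-- As a group for the trivial set of involutions. -/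
theorem grp_one (hD : Data i R) (hP : PGrp i R G) : Grp i {(1 : Module.End F V)} G := by
  refine ⟨hP.inv_mem, hP.mul_mem, hP.smul_mem, ?_, ?_⟩
  · rintro x rfl
    simpa using hP.smul_mem 1 one_ne_zero
  · rintro y rfl -
    have h1i : (1 + i : F) ≠ 0 := fun h =>
      hD.two_ne (by linear_combination (1 - i) * h + hD.sq_i)
    have := hP.smul_mem _ h1i
    rwa [add_smul, one_smul] at this

theorem one_mem (hP : PGrp i R G) : (1 : Module.End F V) ∈ G := by
  simpa using hP.smul_mem 1 one_ne_zero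

theorem smul_mem' (hP : PGrp i R G) {c : F} (hc : c ≠ 0) {g : Module.End F V} (hg : g ∈ G) :
    c • g ∈ G := by
  simpa using hP.mul_mem _ (hP.smul_mem c hc) _ hg

theorem isUnit (hP : PGrp i R G) {g : Module.End F V} (hg : g ∈ G) : IsUnit g := by
  obtain ⟨g', -, h1, h2⟩ := hP.inv_mem g hg
  exact ⟨⟨g, g', h1, h2⟩, rfl⟩

theorem inv_mem_of (hP : PGrp i R G) {g g' : Module.End F V} (hg : g ∈ G) (h : g' * g = 1) :
    g' ∈ G := by
  obtain ⟨k, hk, k1, -⟩ := hP.inv_mem g hg
  have : g' = k := by rw [← mul_one g', ← k1, ← mul_assoc, h, one_mul]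
  exact this ▸ hk

/-- Quarter turns of scalars are scalars. -/
theorem qt_scalar [Nontrivial V] (hD : Data i R) (hP : PGrp i R G) {d : F}
    (h : (d • (1 : Module.End F V)) * d • 1 = 1) : qt i (d • (1 : Module.End F V)) ∈ G := by
  rw [smul_mul_smul_comm, mul_one] at h
  have hd : d * d = 1 := smul_one_inj (V := V) (h.trans (one_smul F _).symm)
  have hd0 : (1 + i * d : F) ≠ 0 := fun h0 =>
    hD.two_ne (by linear_combination (1 - i * d) * h0 + (d * d) * hD.sq_i - hd)
  have := hP.smul_mem _ hd0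
  rwa [add_smul, one_smul, mul_smul] at this

/-- If one quarter turn is in `G` then all are. -/
theorem grp_of_turn [Nontrivial V] (hD : Data i R) (hP : PGrp i R G) {a : Module.End F V}
    (haR : a ∈ R) (ha : a * a = 1) (hns : NS a) (ht : qt i a ∈ G) : Grp i R G := by
  refine ⟨hP.inv_mem, hP.mul_mem, hP.smul_mem, hP.sub, fun y hy hyy => ?_⟩
  by_cases hy' : NS y
  swap
  · simp only [NS, not_forall, not_not] at hy'
    obtain ⟨d, rfl⟩ := hy'
    exact hP.qt_scalar hD hyy
  have h := hP.mul_mem _ (hP.inv_mem_of ht (qt'_mul_qt hD ha)) _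
    (hP.tt_mem a haR ha hns y hy hyy hy')
  rwa [← mul_assoc, qt'_mul_qt hD ha, one_mul] at h

end PGrp

/-- The part of `G` that a quarter turn conjugates into `G`. -/
def low (i : F) (G : Set (Module.End F V)) (a : Module.End F V) : Set (Module.End F V) :=
  {g | g ∈ G ∧ qt i a * g * qt' i a ∈ G}

/-- The extension of `low` by the quarter turn. -/
def ext (i : F) (G : Set (Module.End F V)) (a : Module.End F V) : Set (Module.End F V) :=
  {f | f ∈ low i G a ∨ qt' i a * f ∈ low i G a}

section Ext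

variable {a : Module.End F V} (hD : Data i R) (hP : PGrp i R G) (haR : a ∈ R) (ha : a * a = 1)
include hD hP haR ha

theorem low_mul {g h : Module.End F V} (hg : g ∈ low i G a) (hh : h ∈ low i G a) :
    g * h ∈ low i G a := by
  refine ⟨hP.mul_mem _ hg.1 _ hh.1, ?_⟩
  have := hP.mul_mem _ hg.2 _ hh.2
  rwa [conj_mul_conj (qt'_mul_qt hD ha)] at this

theorem low_inv {g g' : Module.End F V} (hg : g ∈ low i G a) (h1 : g * g' = 1) (h2 : g' * g = 1) :
    g' ∈ low i G a := by
  refine ⟨hP.inv_mem_of hg.1 h2, hP.inv_mem_of hg.2 ?_⟩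
  rw [conj_mul_conj (qt'_mul_qt hD ha), h2, mul_one, qt_mul_qt' hD ha]

theorem low_smul {c : F} (hc : c ≠ 0) : c • (1 : Module.End F V) ∈ low i G a := by
  refine ⟨hP.smul_mem c hc, ?_⟩
  rw [mul_smul_comm, mul_one, smul_mul_assoc, qt_mul_qt' hD ha]
  exact hP.smul_mem c hc

theorem low_of_comm {g : Module.End F V} (hg : g ∈ G) (h : a * g = g * a) : g ∈ low i G a := by
  refine ⟨hg, ?_⟩
  rw [qt_comm h, mul_assoc, qt_mul_qt' hD ha, mul_one]
  exact hg

theorem sq_low : qt i a * qt i a ∈ low i G a := by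
  rw [qt_sq hD ha]
  refine low_of_comm hD hP haR ha (hP.smul_mem' (mul_ne_zero hD.two_ne hD.i_ne) (hP.sub haR)) ?_
  rw [mul_smul_comm, smul_mul_assoc]

theorem low_conj {l : Module.End F V} (hl : l ∈ low i G a) :
    qt i a * l * qt' i a ∈ low i G a := by
  have hl1 := hl.1
  refine ⟨hl.2, ?_⟩
  have h2 := hP.mul_mem _ (hP.mul_mem _ (sq_low hD hP haR ha).1 _ hl1) _
    (hP.inv_mem_of (sq_low hD hP haR ha).1
      (show (qt' i a * qt' i a) * (qt i a * qt i a) = 1 by
        rw [mul_assoc, ← mul_assoc (qt' i a) (qt i a), qt'_mul_qt hD ha, one_mul, qt'_mul_qt hD ha]))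
  simpa only [mul_assoc] using h2

theorem low_conj' {l : Module.End F V} (hl : l ∈ low i G a) :
    qt' i a * l * qt i a ∈ low i G a := by
  have hsq := sq_low hD hP haR ha
  have hsq' : qt' i a * qt' i a ∈ low i G a := by
    refine low_inv hD hP haR ha hsq ?_ ?_
    · rw [mul_assoc, ← mul_assoc (qt i a) (qt' i a), qt_mul_qt' hD ha, one_mul, qt_mul_qt' hD ha]
    · rw [mul_assoc, ← mul_assoc (qt' i a) (qt i a), qt'_mul_qt hD ha, one_mul, qt'_mul_qt hD ha]
  have h := low_mul hD hP haR ha (low_mul hD hP haR ha hsq' (low_conj hD hP haR ha hl)) hsq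
  have e : qt' i a * qt' i a * (qt i a * l * qt' i a) * (qt i a * qt i a)
      = qt' i a * l * qt i a := by
    calc _ = qt' i a * (qt' i a * qt i a) * l * (qt' i a * qt i a) * qt i a := by
          simp only [mul_assoc]
      _ = _ := by rw [qt'_mul_qt hD ha, mul_one, mul_one]
  rwa [e] at h

theorem grp_ext [Nontrivial V] (hns : NS a) : Grp i R (ext i G a) := by
  have t1 := qt_mul_qt' hD ha
  have t2 := qt'_mul_qt hD ha
  have hin : ∀ l ∈ low i G a, qt i a * l ∈ ext i G a := fun l hl =>
    Or.inr (by rwa [← mul_assoc, t2, one_mul])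
  have hsplit : ∀ f ∈ ext i G a, f ∈ low i G a ∨ ∃ l ∈ low i G a, f = qt i a * l := fun f hf =>
    hf.imp_right fun h => ⟨_, h, by rw [← mul_assoc, t1, one_mul]⟩
  have hout : ∀ l ∈ low i G a, ∀ m ∈ low i G a, l * (qt i a * m) ∈ ext i G a := fun l hl m hm => by
    have h := hin _ (low_mul hD hP haR ha (low_conj' hD hP haR ha hl) hm)
    rwa [← mul_assoc, ← mul_assoc, ← mul_assoc, t1, one_mul, mul_assoc] at h
  refine ⟨?_, ?_, fun c hc => Or.inl (low_smul hD hP haR ha hc), ?_, ?_⟩
  · intro f hf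
    rcases hsplit f hf with hf | ⟨l, hl, rfl⟩
    · obtain ⟨f', -, h1, h2⟩ := hP.inv_mem f hf.1
      exact ⟨f', Or.inl (low_inv hD hP haR ha hf h1 h2), h1, h2⟩
    · obtain ⟨l', -, h1, h2⟩ := hP.inv_mem l hl.1
      have hl' := low_inv hD hP haR ha hl h1 h2
      refine ⟨l' * qt' i a, ?_, ?_, ?_⟩
      · have hsq' := low_inv hD hP haR ha (sq_low hD hP haR ha)
          (g' := qt' i a * qt' i a)
          (by rw [mul_assoc, ← mul_assoc (qt i a) (qt' i a), t1, one_mul, t1])
          (by rw [mul_assoc, ← mul_assoc (qt' i a) (qt i a), t2, one_mul, t2])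
        have h := hout l' hl' _ hsq'
        rwa [← mul_assoc (qt i a), t1, one_mul] at h
      · rw [mul_assoc, ← mul_assoc l, h1, one_mul, t1]
      · rw [mul_assoc, ← mul_assoc (qt' i a), t2, one_mul, h2]
  · intro f hf g hg
    rcases hsplit f hf with hf | ⟨l, hl, rfl⟩ <;> rcases hsplit g hg with hg | ⟨m, hm, rfl⟩
    · exact Or.inl (low_mul hD hP haR ha hf hg)
    · exact hout f hf m hm
    · rw [mul_assoc]; exact hin _ (low_mul hD hP haR ha hl hg)
    · refine Or.inl ?_
      have h := low_mul hD hP haR ha (low_mul hD hP haR ha (sq_low hD hP haR ha)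
        (low_conj' hD hP haR ha hl)) hm
      have e : qt i a * qt i a * (qt' i a * l * qt i a) * m = qt i a * l * (qt i a * m) := by
        calc _ = qt i a * (qt i a * qt' i a) * l * (qt i a * m) := by simp only [mul_assoc]
          _ = _ := by rw [t1, mul_one]
      rwa [e] at h
  · intro r hr
    refine Or.inl ⟨hP.sub hr, ?_⟩
    rcases hD.comm_sign a haR r hr with h | h
    · rw [qt_comm h, mul_assoc, t1, mul_one]; exact hP.sub hr
    · rw [qt_anti hD ha h, mul_assoc, t1, mul_one]
      exact hP.sub (hD.i_smul_mem (hD.mul_mem _ haR _ hr))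
  · intro y hy hyy
    by_cases hy' : NS y
    swap
    · simp only [NS, not_forall, not_not] at hy'
      obtain ⟨d, rfl⟩ := hy'
      exact Or.inl (low_of_comm hD hP haR ha (hP.qt_scalar hD hyy) (qt_comm
        (by rw [smul_mul_assoc, one_mul, mul_smul_comm, mul_one])).symm)
    have hn : NS (-a) := fun c hc => hns (-c) (by rw [neg_smul, ← hc, neg_neg])
    refine Or.inr ⟨?_, ?_⟩
    · rw [qt'_eq_qt_neg, smul_mul_assoc]
      exact hP.smul_mem' (inv_ne_zero hD.two_ne)
        (hP.tt_mem _ (hD.neg_mem haR) (by simp [ha]) hn y hy hyy hy')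
    · rw [← mul_assoc, t1, one_mul, qt'_eq_qt_neg, mul_smul_comm]
      exact hP.smul_mem' (inv_ne_zero hD.two_ne)
        (hP.tt_mem y hy hyy hy' _ (hD.neg_mem haR) (by simp [ha]) hn)

theorem sq_mem_of_ext {f : Module.End F V} (hf : f ∈ ext i G a) : f * f ∈ G := by
  rcases hf with hf | hf
  · exact hP.mul_mem _ hf.1 _ hf.1
  · have e : qt i a * qt i a * (qt' i a * (qt' i a * f) * qt i a) * (qt' i a * f) = f * f := by
      have t1 := qt_mul_qt' hD ha
      calc _ = qt i a * (qt i a * qt' i a) * qt' i a * f * (qt i a * qt' i a) * f := by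
            simp only [mul_assoc]
        _ = _ := by rw [t1, mul_one, mul_one, t1, one_mul]
    rw [← e]
    exact hP.mul_mem _ (hP.mul_mem _ (sq_low hD hP haR ha).1 _
      (low_conj' hD hP haR ha hf).1) _ hf.1

end Ext

end Cfsg.Agent.MaxSub.SLFour.Pair
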