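import Cfsg.Agent.MaxSub.SLFour.PairEig

/-!
Weak closure of `R` in a group containing the products of two quarter turns.
-/

set_option autoImplicit false
set_option maxSynthPendingDepth 3

namespace Cfsg.Agent.MaxSub.SLFour.Pair

open CSix

variable {F : Type*} [Field F] {V : Type*} [AddCommGroup V] [Module F V]
variable [Nontrivial V] [FiniteDimensional F V] [Finite (Module.End F V)] {i : F}
variable {R G : Set (Module.End F V)}

/-- A pair of distinct commuting involutions of `R` exchanged by `z`. -/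
structure Moved (R : Set (Module.End F V)) (z r v : Module.End F V) : Prop where
  r_mem : r ∈ R
  r_sq : r * r = 1
  v_mem : v ∈ R
  v_sq : v * v = 1
  map_r : z * r = v * z
  map_v : z * v = r * z
  comm : r * v = v * r
  ns : NS (r * v)

omit [Nontrivial V] [FiniteDimensional F V] [Finite (Module.End F V)] in
/-- The image of `r` under `z`, when `z` squares to a scalar. -/
theorem exists_image (hD : Data i R) {z z' : Module.End F V} (h1 : z * z' = 1)
    (h2 : z' * z = 1) (hN : Nrm R z) {μ : F} (hμ : z * z = μ • 1) {r : Module.End F V}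
    (hr : r ∈ R) (hrr : r * r = 1) :
    ∃ v ∈ R, v * v = 1 ∧ z * r = v * z ∧ z * v = r * z := by
  refine ⟨z * r * z', hN.conj_mem h1 hr, by rw [conj_mul_conj h2, hrr, mul_one, h1],
    by rw [mul_assoc (z * r), h2, mul_one], ?_⟩
  have hz : z = μ • z' := by
    calc z = z * z * z' := by rw [mul_assoc, h1, mul_one]
      _ = μ • z' := by rw [hμ, smul_mul_assoc, one_mul]
  calc z * (z * r * z') = μ • (r * z') := by
        rw [← mul_assoc, ← mul_assoc, hμ, smul_mul_assoc, smul_mul_assoc, one_mul]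
    _ = r * z := by conv_rhs => rw [hz, mul_smul_comm]

omit [FiniteDimensional F V] [Finite (Module.End F V)] in
theorem Moved.ns_left (hD : Data i R) {z r v : Module.End F V} (hm : Moved R z r v)
    (hz : z * z = 1) : NS r := by
  intro c hc
  have h : z * r = r * z := by rw [hc, mul_smul_comm, smul_mul_assoc, mul_one, one_mul]
  have hrv : r = v := by
    have := hm.map_r
    rw [h] at this
    calc r = r * z * z := by rw [mul_assoc, hz, mul_one]
      _ = v := by rw [this, mul_assoc, hz, mul_one]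
  exact hm.ns 1 (by rw [← hrv, hm.r_sq, one_smul])

omit [FiniteDimensional F V] [Finite (Module.End F V)] in
theorem Moved.ns_right (hD : Data i R) {z r v : Module.End F V} (hm : Moved R z r v)
    (hz : z * z = 1) : NS v :=
  Moved.ns_left hD (z := z) ⟨hm.v_mem, hm.v_sq, hm.r_mem, hm.r_sq, hm.map_v, hm.map_r, hm.comm.symm,
    hm.comm ▸ hm.ns⟩ hz

omit [FiniteDimensional F V] in
/-- An element not acting on `R` by signs exchanges two commuting involutions. -/
theorem exists_moved_comm (hD : Data i R) (hP : PGrp i R G) (hNo : NoTurn i R G)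
    {z : Module.End F V} (hz : z ∈ G) (hN : Nrm R z) {μ : F} (hμ : z * z = μ • 1)
    (hns : ¬ ∀ s ∈ R, s * s = 1 → Sg z s) : ∃ r v, Moved R z r v := by
  obtain ⟨z', -, h1, h2⟩ := hP.inv_mem z hz
  have mk : ∀ r v, r ∈ R → r * r = 1 → v ∈ R → v * v = 1 → z * r = v * z → z * v = r * z →
      r * v = v * r → ¬ Sg z r → Moved R z r v := by
    intro r v hr hrr hv hvv e1 e2 hc hsg
    refine ⟨hr, hrr, hv, hvv, e1, e2, hc, fun l hl => hsg ?_⟩
    rw [hc] at hl
    have hvr := eq_scalar_mul hrr hl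
    rcases sign_of_sq hrr (hvr ▸ hvv) with rfl | rfl
    · exact Or.inl (by rw [e1, hvr, one_smul])
    · exact Or.inr (by rw [e1, hvr, neg_one_smul, neg_mul])
  by_contra hcon
  push Not at hcon
  have hmv : ∀ r ∈ R, r * r = 1 → ∀ v ∈ R, v * v = 1 → z * r = v * z → z * v = r * z →
      ¬ Sg z r → r * v = -(v * r) := by
    intro r hr hrr v hv hvv e1 e2 hsg
    exact (hD.comm_sign r hr v hv).resolve_left fun hc =>
      hcon r v (mk r v hr hrr hv hvv e1 e2 hc hsg)
  push Not at hns
  obtain ⟨r₀, hr₀, hr₀q, hsg₀⟩ := hns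
  obtain ⟨v₀, hv₀, hv₀q, e1, e2⟩ := exists_image hD h1 h2 hN hμ hr₀ hr₀q
  have hanti₀ := hmv r₀ hr₀ hr₀q v₀ hv₀ hv₀q e1 e2 hsg₀
  obtain ⟨a, ha⟩ : ∃ a, a = i • (r₀ * v₀) := ⟨_, rfl⟩
  have haR : a ∈ R := ha ▸ hD.i_smul_mem (hD.mul_mem _ hr₀ _ hv₀)
  have hrv : r₀ * v₀ = (-i) • a := by
    rw [ha, smul_smul, show -i * i = 1 by linear_combination -hD.sq_i, one_smul]
  have hns : NS a := by
    refine hD.ns_of_anticomm hr₀ haR ?_
    rw [ha, smul_mul_assoc, ca_anti rfl (anti_symm hanti₀), mul_smul_comm, smul_neg]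
  -- the sign relations of an element with `r₀`
  have hconj : ∀ s vs : Module.End F V, z * s = vs * z → ∀ e : F, s * r₀ = e • (r₀ * s) →
      vs * v₀ = e • (v₀ * vs) := by
    intro s vs hvs e he
    refine (hP.isUnit hz).mul_left_inj.1 ?_
    rw [mul_assoc, ← e1, ← mul_assoc, ← hvs, mul_assoc, he, smul_mul_assoc, mul_assoc v₀, ← hvs,
      ← mul_assoc v₀, ← e1, mul_smul_comm, mul_assoc]
  have hfix : ∀ s ∈ R, s * s = 1 → Sg z s → a * s = s * a := by
    intro s hs hss hsg
    obtain ⟨σ, hσ, hzs⟩ := hsg.exists_sign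
    obtain ⟨e, he, hsr⟩ := Sg.exists_sign (f := s) (g := r₀) (hD.comm_sign s hs r₀ hr₀)
    have h := hconj s (σ • s) (by rw [hzs, smul_mul_assoc]) e hsr
    rw [smul_mul_assoc, mul_smul_comm, smul_comm] at h
    have hsv : s * v₀ = e • (v₀ * s) := smul_right_injective _ (left_ne_zero_of_mul_eq_one hσ) h
    have : s * (r₀ * v₀) = r₀ * v₀ * s := by
      rw [← mul_assoc, hsr, smul_mul_assoc, mul_assoc, hsv, mul_smul_comm, smul_smul, he, one_smul,
        mul_assoc]
    rw [ha, smul_mul_assoc, ← this, mul_smul_comm]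
  have hmove : ∀ s ∈ R, s * s = 1 → ¬ Sg z s → ∀ vs ∈ R, z * s = vs * z → z * vs = s * z →
      vs * vs = 1 → a * s = -(s * a) ∧ ∃ σ : F, σ * σ = 1 ∧ vs = σ • (i • (a * s)) := by
    intro s hs hss hsg vs hvsR f1 f2 hvsq
    have hsvs := hmv s hs hss vs hvsR hvsq f1 f2 hsg
    obtain ⟨d, hd, hdr⟩ := Sg.exists_sign (f := vs) (g := r₀) (hD.comm_sign vs hvsR r₀ hr₀)
    have hsv : s * v₀ = d • (v₀ * s) := hconj vs s f2 d hdr
    have hr₀vs : r₀ * vs = d • (vs * r₀) := by rw [hdr, smul_smul, hd, one_smul]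
    have hq1 : s * r₀ * vs = (-d) • (vs * (s * r₀)) := by
      rw [mul_assoc, hr₀vs, mul_smul_comm, ← mul_assoc, hsvs, neg_mul, smul_neg, ← neg_smul,
        mul_assoc]
    have hq2 : s * r₀ * v₀ = (-d) • (v₀ * (s * r₀)) := by
      rw [mul_assoc, hanti₀, mul_neg, ← mul_assoc, hsv, smul_mul_assoc, ← neg_smul, mul_assoc]
    have hqq : (s * r₀) * (vs * v₀) = (vs * v₀) * (s * r₀) := by
      rw [← mul_assoc, hq1, smul_mul_assoc, mul_assoc vs, hq2, mul_smul_comm, smul_smul,
        show -d * -d = 1 by linear_combination hd, one_smul, mul_assoc vs]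
    have hzq : z * (s * r₀) = vs * v₀ * z := by
      rw [← mul_assoc, f1, mul_assoc, e1, mul_assoc]
    have hzq' : z * (vs * v₀) = s * r₀ * z := by
      rw [← mul_assoc, f2, mul_assoc, e2, mul_assoc]
    obtain ⟨e, he, hem, hesq⟩ := hD.exists_sq_one (hD.mul_mem _ hs _ hr₀)
    obtain ⟨w, hw, hwq, g1, g2⟩ := exists_image hD h1 h2 hN hμ hem hesq
    have hwe : w = e • (vs * v₀) := by
      refine (hP.isUnit hz).mul_left_inj.1 ?_
      rw [← g1, mul_smul_comm, hzq, smul_mul_assoc]
    have hsgq : Sg z (s * r₀) := by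
      refine Sg.of_smul_right he (by_contra fun hsq => ?_)
      have := hmv _ hem hesq w hw hwq g1 g2 hsq
      refine not_comm_anti hD (hD.isUnit hem) (hD.isUnit hw).ne_zero ?_ this
      rw [hwe, smul_mul_smul_comm, hqq, smul_mul_smul_comm]
    obtain ⟨σ, hσ, hzσ⟩ := hsgq.exists_sign
    have hq' : vs * v₀ = σ • (s * r₀) := by
      refine (hP.isUnit hz).mul_left_inj.1 ?_
      rw [← hzq, hzσ, smul_mul_assoc]
    have hvs : vs = (σ * -i) • (s * a) := by
      calc vs = vs * v₀ * v₀ := by rw [mul_assoc, hv₀q, mul_one]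
        _ = (σ * -i) • (s * a) := by
          rw [hq', smul_mul_assoc, mul_assoc, hrv, mul_smul_comm, smul_smul]
    have hσi : σ * -i ≠ 0 :=
      mul_ne_zero (left_ne_zero_of_mul_eq_one hσ) (neg_ne_zero.2 hD.i_ne)
    have has : a * s = -(s * a) := by
      refine (hD.comm_sign a haR s hs).resolve_left fun hc => ?_
      refine not_comm_anti hD (hD.isUnit hs) (hD.isUnit hvsR).ne_zero ?_ hsvs
      rw [hvs, mul_smul_comm, smul_mul_assoc, mul_assoc, hc]
    refine ⟨has, σ, hσ, ?_⟩
    rw [hvs, anti_symm has, smul_smul, smul_neg, ← neg_smul]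
    congr 1; ring
  have haq : a * a = 1 := ha ▸ sq_i_mul_of_anti hD hr₀q hv₀q hanti₀
  refine turn_false hD hP hNo haR haq hns hz ?_ ?_
  · intro s hs hss hc
    by_contra hsg
    obtain ⟨vs, hvs, hvsq, f1, f2⟩ := exists_image hD h1 h2 hN hμ hs hss
    exact not_comm_anti hD (hD.isUnit haR) (hD.isUnit hs).ne_zero hc
      (hmove s hs hss hsg vs hvs f1 f2 hvsq).1
  · intro s hs hss han
    obtain ⟨vs, hvs, hvsq, f1, f2⟩ := exists_image hD h1 h2 hN hμ hs hss
    have hsg : ¬ Sg z s := fun h =>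
      not_comm_anti hD (hD.isUnit haR) (hD.isUnit hs).ne_zero (hfix s hs hss h) han
    obtain ⟨-, σ, hσ, e⟩ := hmove s hs hss hsg vs hvs f1 f2 hvsq
    rcases mul_self_eq_one_iff.1 hσ with rfl | rfl
    · exact Or.inl (by rw [f1, e, one_smul])
    · exact Or.inr (by rw [f1, e, neg_one_smul, neg_mul])

/-- A conjugate of an involution of `R` normalising `R` lies in `R`. -/
theorem mem_of_cls (hD : Data i R) (hP : PGrp i R G) (hNo : NoTurn i R G) (hCen : CenNrm R G)
    (hn : Module.finrank F V = 4) {y : Module.End F V} (hy : Cls R G y) (hN : Nrm R y) : y ∈ R := by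
  by_cases hall : ∀ s ∈ R, s * s = 1 → Sg y s
  · obtain ⟨κ, r, hr, e⟩ := hD.exists_eq_smul_of_sign hy.isUnit.ne_zero fun b hb => by
      obtain ⟨e, he, hem, hesq⟩ := hD.exists_sq_one hb
      rcases Sg.of_smul_right he (hall _ hem hesq) with h | h
      · exact Or.inl h.symm
      · exact Or.inr (anti_symm h)
    rw [e]
    exact hD.smul_mem_of_sq hr (by rw [← e]; exact hy.sq)
  have hyG := hP.cls_mem_grp hy
  have hyy := hy.sq
  obtain ⟨r, v, hm⟩ := exists_moved_comm hD hP hNo hyG hN (μ := 1) (by rw [hyy, one_smul]) hall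
  obtain ⟨g, hg, g', hg', h1, h2, x, hxR, hx, hxns, hgx⟩ := hy
  obtain ⟨b, hb⟩ : ∃ b, b = r * v := ⟨_, rfl⟩
  have hbR : b ∈ R := hb ▸ hD.mul_mem _ hm.r_mem _ hm.v_mem
  have hbb : b * b = 1 := hb ▸ sq_mul_of_comm hm.r_sq hm.v_sq hm.comm
  have hbns : NS b := hb ▸ hm.ns
  have hyb : y * b = b * y := by
    rw [hb, ← mul_assoc, hm.map_r, mul_assoc, hm.map_v, ← mul_assoc, ← hm.comm]
  obtain ⟨h, hh⟩ : ∃ h, h = qt i r * qt i v := ⟨_, rfl⟩
  have hhG : h ∈ G := hh ▸ hP.tt_mem r hm.r_mem hm.r_sq (hm.ns_left hD hyy) v hm.v_mem hm.v_sq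
    (hm.ns_right hD hyy)
  have hqq : qt i r * qt i v = qt i v * qt i r := qt_comm (qt_comm hm.comm.symm).symm
  have hyq : ∀ p q : Module.End F V, y * p = q * y → y * qt i p = qt i q * y := fun p q e => by
    simp only [qt, mul_add, add_mul, mul_one, one_mul, mul_smul_comm, smul_mul_assoc, e]
  have hyh : y * h = h * y := by
    rw [hh, ← mul_assoc, hyq r v hm.map_r, mul_assoc, hyq v r hm.map_v, ← mul_assoc, hqq]
  have hhh : h * h = (-4 : F) • b := by
    calc h * h = (qt i r * qt i r) * (qt i v * qt i v) := by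
          rw [hh, mul_assoc, ← mul_assoc (qt i v) (qt i r), ← hqq]; simp only [mul_assoc]
      _ = (-4 : F) • b := by
          rw [qt_sq hD hm.r_sq, qt_sq hD hm.v_sq, smul_mul_smul_comm, hb]
          congr 1
          linear_combination (4 : F) * hD.sq_i
  have hxy : g' * y * g = x := by rw [hgx, conj_conj h2]
  obtain ⟨h', hh', hh1, hh2⟩ := hP.inv_mem h hhG
  have hkk : ∀ t : Module.End F V, g' * t * g * (g' * y * g) = g' * (t * y) * g := fun t => by
    rw [conj_mul_conj h1]
  have hkx : g' * h * g * x = x * (g' * h * g) := by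
    rw [← hxy, conj_mul_conj h1, conj_mul_conj h1, hyh]
  have hkG : g' * h * g ∈ G := hP.mul_mem _ (hP.mul_mem _ hg' _ hhG) _ hg
  have hbns' : b ∈ G := hP.sub hbR
  have hzmap : ∀ z : V, ∀ t : Module.End F V, (g' * t * g) z = g' (t (g z)) := fun z t => rfl
  have hginj : ∀ z : V, g (g' z) = z := fun z => by
    rw [← Module.End.mul_apply, h1, Module.End.one_apply]
  have hginj' : ∀ z : V, g' (g z) = z := fun z => by
    rw [← Module.End.mul_apply, h2, Module.End.one_apply]
  have hE : Eigen R G x (g' * h * g) (g' * h' * g) (g' * b * g) := by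
    refine ⟨hxR, hx, hxns, ?_, ?_, hCen _ hkG x hxR hxns ⟨1, by rw [one_smul, hkx]⟩, hkx,
      hP.mul_mem _ (hP.mul_mem _ hg' _ hbns') _ hg, ?_, ?_, ?_, ?_, ?_⟩
    · rw [conj_mul_conj h1, hh1, mul_one, h2]
    · rw [conj_mul_conj h1, hh2, mul_one, h2]
    · rw [conj_mul_conj h1, hbb, mul_one, h2]
    · rw [← hxy, conj_mul_conj h1, conj_mul_conj h1, hyb]
    · rw [conj_mul_conj h1, hhh, mul_smul_comm, smul_mul_assoc]
    · intro z hz
      have hbz : b (g z) = -(g z) := by
        rw [← hginj (b (g z)), ← hzmap z b, hz, map_neg]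
      rw [hzmap, hh]
      have hvz : v (g z) = -r (g z) := by
        have e : r * b = v := by rw [hb, ← mul_assoc, hm.r_sq, one_mul]
        rw [← e, Module.End.mul_apply, hbz, map_neg]
      have hrr : r (r (g z)) = g z := by
        rw [← Module.End.mul_apply, hm.r_sq, Module.End.one_apply]
      have : (qt i r * qt i v) (g z) = (2 : F) • g z := by
        simp only [qt, Module.End.mul_apply, LinearMap.add_apply, LinearMap.smul_apply,
          Module.End.one_apply, hvz, map_add, map_smul, map_neg, hrr, smul_neg]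
        match_scalars <;>
          first
          | linear_combination (0 : F) * hD.sq_i
          | linear_combination hD.sq_i
          | linear_combination -hD.sq_i
      rw [this, map_smul, hginj']
    · intro e he
      have hee : e * e = 1 := by rcases he with rfl | rfl <;> ring
      set P := (1 - b) * (1 + e • y) with hP'
      have hP0 : P ≠ 0 := by
        intro h0
        have e0 : 1 - b = (-e) • ((1 - b) * y) := by
          rw [hP', mul_add, mul_one, mul_smul_comm, add_eq_zero_iff_eq_neg] at h0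
          exact h0.trans (neg_smul e _).symm
        have hbr : b * r = r * b := by rw [hb, mul_assoc, hm.comm]
        have e1 : (1 - b) * v = (1 - b) * r := by
          refine (hP.isUnit hyG).mul_left_inj.1 ?_
          rw [mul_assoc, ← hm.map_r, ← mul_assoc]
          have : (1 - b) * r * y = r * ((1 - b) * y) := by
            rw [← mul_assoc r, mul_sub r, mul_one, sub_mul 1 b r, one_mul, hbr]
          rw [this]
          refine smul_right_injective _ (show -e ≠ 0 from neg_ne_zero.2
            (left_ne_zero_of_mul_eq_one hee)) ?_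
          show (-e) • ((1 - b) * y * r) = (-e) • (r * ((1 - b) * y))
          rw [← smul_mul_assoc, ← mul_smul_comm (-e) r ((1 - b) * y), ← e0, sub_mul, one_mul, mul_sub, mul_one, hbr]
        have hbv : b * v = r := by rw [hb, mul_assoc, hm.v_sq, mul_one]
        have hbr' : b * r = v := by rw [hbr, hb, ← mul_assoc, hm.r_sq, one_mul]
        rw [sub_mul, one_mul, sub_mul, one_mul, hbv, hbr', sub_eq_sub_iff_add_eq_add,
          ← two_smul F v, ← two_smul F r] at e1
        refine hbns 1 ?_
        rw [hb, smul_right_injective _ hD.two_ne e1, hm.r_sq, one_smul]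
      obtain ⟨w, hw⟩ : ∃ w, P w ≠ 0 := by
        by_contra hcon
        push Not at hcon
        exact hP0 (LinearMap.ext fun w => by simpa using hcon w)
      have e1 : b * P = -P := by
        rw [hP', ← mul_assoc, mul_sub, mul_one, hbb, ← neg_mul, neg_sub]
      have e2 : y * P = e • P := by
        have : y * (1 - b) = (1 - b) * y := by rw [mul_sub, mul_one, sub_mul, one_mul, hyb]
        rw [hP', ← mul_assoc, this, mul_assoc, mul_add, mul_one, mul_smul_comm, hyy, ← mul_smul_comm,
          smul_add, smul_smul, hee, one_smul, add_comm]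
      refine ⟨g' (P w), fun h0 => hw (by rw [← hginj (P w), h0, map_zero]), ?_, ?_⟩
      · rw [hzmap, hginj, ← Module.End.mul_apply b P, e1, LinearMap.neg_apply, map_neg]
      · rw [← hxy, hzmap, hginj, ← Module.End.mul_apply y P, e2, LinearMap.smul_apply, map_smul]
  have hcR := hE.mem hD hP hNo hn
  have hNg := (nrm_of_conj hD hP hCen hg' h2 h1 hbR hbb hbns hcR).inv h2 h1
  rw [hgx]
  exact hNg.conj_mem h1 hxR

/-- A conjugate of an involution of `R` commuting up to a scalar with `b` lies in `R`. -/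
theorem cls_mem' (hD : Data i R) (hP : PGrp i R G) (hNo : NoTurn i R G) (hCen : CenNrm R G)
    (hn : Module.finrank F V = 4) {y b : Module.End F V} (hy : Cls R G y) (hb : b ∈ R)
    (hbns : NS b) (h : PC y b) : y ∈ R :=
  mem_of_cls hD hP hNo hCen hn hy (hCen y (hP.cls_mem_grp hy) b hb hbns h)

end Cfsg.Agent.MaxSub.SLFour.Pair
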