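import Cfsg.Agent.MaxSub.SLFour.PairTools

/-!
An element normalising `R`, commuting with an involution `x` of `R`, whose square is an involution
with both signs of `x` on its negated space and which is scalar there, squares into `R`.
-/

set_option autoImplicit false
set_option maxSynthPendingDepth 3

namespace Cfsg.Agent.MaxSub.SLFour.Pair

open CSix

variable {F : Type*} [Field F] {V : Type*} [AddCommGroup V] [Module F V]
variable [Nontrivial V] [FiniteDimensional F V] {i : F} {R G : Set (Module.End F V)}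

/-- The setting of the main lemma. -/
structure Eigen (R G : Set (Module.End F V)) (x k k' c : Module.End F V) : Prop where
  x_mem : x ∈ R
  x_sq : x * x = 1
  x_ns : NS x
  k_inv : k * k' = 1
  k_inv' : k' * k = 1
  k_nrm : Nrm R k
  k_comm : k * x = x * k
  c_mem : c ∈ G
  c_sq : c * c = 1
  c_comm : c * x = x * c
  k_sq : k * k = (-4 : F) • c
  eig : ∀ z, c z = -z → k z = (2 : F) • z
  ne : ∀ e : F, (e = 1 ∨ e = -1) → ∃ z, z ≠ 0 ∧ c z = -z ∧ x z = e • z

namespace Eigen

variable {x k k' c : Module.End F V}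

omit [FiniteDimensional F V] in
theorem no_flip (hD : Data i R) (hE : Eigen R G x k k' c) {u : Module.End F V} (hu : IsUnit u)
    {z : V} (hz0 : z ≠ 0) (hz : k (u z) = -((2 : F) • u z)) : False := by
  have h4 := four_ne hD
  have h1 : k (k (u z)) = (4 : F) • u z := by
    rw [hz, map_neg, map_smul, hz, smul_neg, neg_neg, smul_smul]
    norm_num
  have h2 : k (k (u z)) = (-4 : F) • c (u z) := by
    rw [← Module.End.mul_apply, hE.k_sq, LinearMap.smul_apply]
  have hc : c (u z) = -u z := by
    refine smul_right_injective V h4 ?_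
    show (4 : F) • c (u z) = (4 : F) • -u z
    have := h2.symm.trans h1
    rw [smul_neg, ← this, neg_smul, neg_neg]
  have h3 := hE.eig _ hc
  rw [hz, neg_eq_iff_add_eq_zero, ← add_smul] at h3
  have huz : u z = 0 := (smul_eq_zero.1 h3).resolve_left (by
    rw [show (2 : F) + 2 = 4 by norm_num]; exact h4)
  obtain ⟨v, hv⟩ := hu.exists_left_inv
  exact hz0 (by rw [← Module.End.one_apply (R := F) z, ← hv, Module.End.mul_apply, huz, map_zero])

omit [FiniteDimensional F V] in
theorem not_anti (hD : Data i R) (hE : Eigen R G x k k' c) {u : Module.End F V} (hu : IsUnit u)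
    (h : k * u = -(u * k)) : False := by
  obtain ⟨z, hz0, hcz, -⟩ := hE.ne 1 (Or.inl rfl)
  refine hE.no_flip hD hu hz0 ?_
  rw [← Module.End.mul_apply, h, LinearMap.neg_apply, Module.End.mul_apply, hE.eig z hcz,
    map_smul]

omit [FiniteDimensional F V] in
theorem not_times_x (hD : Data i R) (hE : Eigen R G x k k' c) {u : Module.End F V} (hu : IsUnit u)
    (hux : x * u = u * x) {t : F} (ht : t = 1 ∨ t = -1) (h : k * u = t • (x * u * k)) : False := by
  obtain ⟨z, hz0, hcz, hxz⟩ := hE.ne (-t) (by rcases ht with rfl | rfl <;> simp)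
  refine hE.no_flip hD hu hz0 ?_
  rw [← Module.End.mul_apply, h, LinearMap.smul_apply, Module.End.mul_apply, hE.eig z hcz,
    map_smul, hux, Module.End.mul_apply, hxz, map_smul, smul_smul, smul_smul, ← neg_smul]
  congr 1
  rcases ht with rfl | rfl <;> ring

omit [FiniteDimensional F V] [Nontrivial V] in
theorem conj_c (hD : Data i R) (hE : Eigen R G x k k' c) (t : Module.End F V) :
    c * t = k * (k * t * k') * k' * c := by
  refine smul_right_injective _ (show (-4 : F) ≠ 0 from neg_ne_zero.2 (four_ne hD)) ?_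
  show (-4 : F) • (c * t) = (-4 : F) • (k * (k * t * k') * k' * c)
  rw [← smul_mul_assoc, ← hE.k_sq, ← mul_smul_comm, ← hE.k_sq]
  symm
  calc k * (k * t * k') * k' * (k * k) = k * k * t * (k' * (k' * k) * k) := by
        simp only [mul_assoc]
    _ = k * k * t := by rw [hE.k_inv', mul_one, hE.k_inv', mul_one]

/-- The square root `c` commutes up to sign with the centraliser of `x`. -/
theorem sgn_cent (hD : Data i R) (hn : Module.finrank F V = 4) (hE : Eigen R G x k k' c)
    {s : Module.End F V} (hs : s ∈ R) (hss : s * s = 1) (hxs : x * s = s * x) : Sg c s := by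
  have h1 := hE.k_inv
  have h2 := hE.k_inv'
  by_cases hns : NS s
  swap
  · simp only [NS, not_forall, not_not] at hns
    obtain ⟨l, rfl⟩ := hns
    exact Or.inl (by rw [mul_smul_comm, mul_one, smul_mul_assoc, one_mul])
  by_cases hxsns : NS (x * s)
  swap
  · simp only [NS, not_forall, not_not] at hxsns
    obtain ⟨l, hl⟩ := hxsns
    have : s = l • x := by
      rw [← one_mul s, ← hE.x_sq, mul_assoc, hl, mul_smul_comm, mul_one]
    rw [this]
    exact Or.inl (by rw [mul_smul_comm, hE.c_comm, smul_mul_assoc])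
  have hT : Two R x s := ⟨hE.x_mem, hE.x_sq, hE.x_ns, hs, hss, hns, hxs, hxsns⟩
  have hxk : ∀ t : Module.End F V, x * t = t * x → x * (k * t * k') = k * t * k' * x := fun t ht => by
    have hx' : k' * x = x * k' := by
      calc k' * x = k' * (x * k) * k' := by rw [mul_assoc, mul_assoc, h1, mul_one]
        _ = x * k' := by rw [← hE.k_comm, ← mul_assoc, h2, one_mul]
    calc x * (k * t * k') = k * (x * t) * k' := by
          rw [← mul_assoc, ← mul_assoc, ← hE.k_comm]; simp only [mul_assoc]
      _ = k * t * k' * x := by rw [ht]; simp only [mul_assoc, hx']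
  obtain ⟨s1, hs1⟩ : ∃ s1, s1 = k * s * k' := ⟨_, rfl⟩
  have hs1R : s1 ∈ R := hs1 ▸ hE.k_nrm.conj_mem h1 hs
  have hs1sq : s1 * s1 = 1 := by rw [hs1, conj_mul_conj h2, hss, mul_one, h1]
  have hks : k * s = s1 * k := by rw [hs1, mul_assoc (k * s), h2, mul_one]
  rcases hD.comm_sign s hs s1 hs1R with h | h
  · -- `s` is moved to one of `1, x, s, xs`
    obtain ⟨l, e | e | e | e⟩ := hT.mem_four hD hn hs1R (hs1 ▸ hxk s hxs) h
    · exact absurd (by rw [← conj_conj h2 s, ← hs1, e, mul_smul_comm, mul_one, smul_mul_assoc, h2])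
        (hns l)
    · have hs : s = l • x := by
        rw [← conj_conj h2 s, ← hs1, e, mul_smul_comm, smul_mul_assoc, mul_assoc, ← hE.k_comm,
          ← mul_assoc, h2, one_mul]
      exact absurd (by rw [hs, mul_smul_comm, hE.x_sq]) (hxsns l)
    · rcases sign_of_sq hss (e ▸ hs1sq) with rfl | rfl
      · left
        rw [one_smul] at e
        rw [hE.conj_c hD s, ← hs1, e, ← hs1, e]
      · exact (hE.not_anti hD (hD.isUnit hs) (by rw [hks, e, neg_one_smul, neg_mul])).elim
    · have := sign_of_sq (sq_mul_of_comm hE.x_sq hss hxs) (e ▸ hs1sq)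
      exact (hE.not_times_x hD (hD.isUnit hs) hxs this
        (by rw [hks, e, smul_mul_assoc])).elim
  · obtain ⟨s2, hs2⟩ : ∃ s2, s2 = k * s1 * k' := ⟨_, rfl⟩
    have hs2R : s2 ∈ R := hs2 ▸ hE.k_nrm.conj_mem h1 hs1R
    have hs2sq : s2 * s2 = 1 := by rw [hs2, conj_mul_conj h2, hs1sq, mul_one, h1]
    have hcs : c * s = s2 * c := by rw [hs2, hs1]; exact hE.conj_c hD s
    have hks1 : k * s1 = s2 * k := by rw [hs2, mul_assoc (k * s1), h2, mul_one]
    have hx1 : x * s1 = s1 * x := hs1 ▸ hxk s hxs
    have hx2 : x * s2 = s2 * x := hs2 ▸ hxk s1 hx1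
    rcases hD.comm_sign s hs s2 hs2R with h' | h'
    · obtain ⟨l, e | e | e | e⟩ := hT.mem_four hD hn hs2R hx2 h'
      · have : s1 = l • 1 := by
          rw [← conj_conj h2 s1, ← hs2, e, mul_smul_comm, mul_one, smul_mul_assoc, h2]
        exact (not_comm_anti hD (hD.isUnit hs) (hD.isUnit hs1R).ne_zero
          (by rw [this, mul_smul_comm, mul_one, smul_mul_assoc, one_mul]) h).elim
      · have : s1 = l • x := by
          rw [← conj_conj h2 s1, ← hs2, e, mul_smul_comm, smul_mul_assoc, mul_assoc, ← hE.k_comm,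
            ← mul_assoc, h2, one_mul]
        exact (not_comm_anti hD (hD.isUnit hs) (hD.isUnit hs1R).ne_zero
          (by rw [this, mul_smul_comm, hxs.symm, smul_mul_assoc]) h).elim
      · rcases sign_of_sq hss (e ▸ hs2sq) with rfl | rfl
        · exact Or.inl (by rw [hcs, e, one_smul])
        · exact Or.inr (by rw [hcs, e, neg_one_smul, neg_mul])
      · have hl := sign_of_sq (sq_mul_of_comm hE.x_sq hss hxs) (e ▸ hs2sq)
        have hxq : x * (s * s1) = s * s1 * x := by
          rw [← mul_assoc, hxs, mul_assoc, hx1, mul_assoc]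
        refine (hE.not_times_x hD ((hD.isUnit hs).mul (hD.isUnit hs1R)) hxq (t := -l)
          (by rcases hl with rfl | rfl <;> simp) ?_).elim
        have hq : k * (s * s1) = s1 * s2 * k := by
          rw [← mul_assoc, hks, mul_assoc, hks1, mul_assoc]
        rw [hq, e, mul_smul_comm, ← mul_assoc s1, ← hx1, mul_assoc x, anti_symm h, mul_neg,
          smul_neg, neg_mul, neg_smul, smul_mul_assoc]
    · -- a third anticommuting element closes a cycle of length three
      exfalso
      obtain ⟨q, hq⟩ : ∃ q, q = i • (s * s1) := ⟨_, rfl⟩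
      have hqR : q ∈ R := hq ▸ hD.i_smul_mem (hD.mul_mem _ hs _ hs1R)
      have hqsq : q * q = 1 := hq ▸ sq_i_mul_of_anti hD hss hs1sq h
      have hqs : q * s = -(s * q) := by
        rw [hq, smul_mul_assoc, ca_anti rfl (anti_symm h), mul_smul_comm, smul_neg]
      have hxq : x * q = q * x := by
        rw [hq, mul_smul_comm, ← mul_assoc, hxs, mul_assoc, hx1, smul_mul_assoc, mul_assoc]
      have hT' : Two R x q := ⟨hE.x_mem, hE.x_sq, hE.x_ns, hqR, hqsq,
        hD.ns_of_anticomm hs hqR hqs, hxq, hD.ns_of_anticomm hs (hD.mul_mem _ hE.x_mem _ hqR)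
          (ca_anti hxs hqs)⟩
      have h12 : s1 * s2 = -(s2 * s1) := by
        rw [hs2, hs1, conj_mul_conj h2, conj_mul_conj h2, ← hs1, h, mul_neg, neg_mul]
      have hq2 : q * s2 = s2 * q := by
        rw [hq, smul_mul_assoc, aa_comm h' h12, mul_smul_comm]
      have h21 : k * s2 * k' = s := by
        obtain ⟨l, e | e | e | e⟩ := hT'.mem_four hD hn hs2R hx2 hq2
        · exact (not_comm_anti hD (hD.isUnit hs) (hD.isUnit hs2R).ne_zero
            (by rw [e, mul_smul_comm, mul_one, smul_mul_assoc, one_mul]) h').elim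
        · exact (not_comm_anti hD (hD.isUnit hs) (hD.isUnit hs2R).ne_zero
            (by rw [e, mul_smul_comm, hxs.symm, smul_mul_assoc]) h').elim
        · rcases sign_of_sq hqsq (e ▸ hs2sq) with hl | hl <;>
            · have e' : s2 = (l * i) • (s * s1) := by rw [e, hq, smul_smul]
              have : k * s2 * k' = (l * i) • (s1 * s2) := by
                rw [e', mul_smul_comm, smul_mul_assoc, ← conj_mul_conj h2, ← hs1, ← hs2, ← e']
              rw [this, e', mul_smul_comm, smul_smul, ← mul_assoc s1 s s1, anti_symm h, neg_mul, mul_assoc s s1 s1,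
                hs1sq, mul_one, smul_neg, ← neg_smul]
              rw [show -(l * i * (l * i)) = 1 by rw [hl]; linear_combination -hD.sq_i, one_smul]
        · rcases sign_of_sq (sq_mul_of_comm hE.x_sq hqsq hxq) (e ▸ hs2sq) with hl | hl <;>
            · have e' : s2 = (l * i) • (x * (s * s1)) := by
                rw [e, hq, mul_smul_comm, smul_smul]
              have hkx : k * x * k' = x := by rw [hE.k_comm, mul_assoc, h1, mul_one]
              have : k * s2 * k' = (l * i) • (x * (s1 * s2)) := by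
                rw [e', mul_smul_comm, smul_mul_assoc, ← conj_mul_conj h2, hkx, ← conj_mul_conj h2,
                  ← hs1, ← hs2, ← e']
              rw [this, e', mul_smul_comm, mul_smul_comm, smul_smul, ← mul_assoc s1 x, ← hx1,
                mul_assoc x s1, ← mul_assoc x x, hE.x_sq, one_mul, ← mul_assoc s1 s s1, anti_symm h,
                neg_mul, mul_assoc s s1 s1, hs1sq, mul_one, smul_neg, ← neg_smul]
              rw [show -(l * i * (l * i)) = 1 by rw [hl]; linear_combination -hD.sq_i, one_smul]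
      have hc1 : c * s1 = s * c := by
        rw [hE.conj_c hD s1, ← hs2, h21]
      have e1 : s1 = c * s * c := by rw [mul_assoc, ← hc1, ← mul_assoc, hE.c_sq, one_mul]
      have e2 : s2 = c * s * c := by rw [hcs, mul_assoc, hE.c_sq, mul_one]
      exact not_comm_anti hD (hD.isUnit hs1R) (hD.isUnit hs2R).ne_zero (by rw [e2, ← e1]) h12

/-- The square lies in `R`. -/
theorem mem [Finite (Module.End F V)] (hD : Data i R) (hP : PGrp i R G) (hNo : NoTurn i R G)
    (hn : Module.finrank F V = 4) (hE : Eigen R G x k k' c) : c ∈ R := by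
  have hxR := hE.x_mem
  have hcx := hE.c_comm
  -- the elements anticommuting with `x`
  have hanti : ∀ a ∈ R, a * a = 1 → x * a = -(a * x) →
      Sg c a ∨ (c * a = (i • (x * a)) * c ∨ c * a = -((i • (x * a)) * c)) := by
    intro a ha haa hxa
    set a2 := c * a * c with ha2
    have hca : c * a = a2 * c := by rw [ha2, mul_assoc, hE.c_sq, mul_one]
    have ha2R : a2 ∈ R := by
      have h := hE.k_nrm.conj_mem hE.k_inv (hE.k_nrm.conj_mem hE.k_inv ha)
      rwa [show k * (k * a * k') * k' = a2 by
        rw [ha2, hE.conj_c hD a, mul_assoc _ c c, hE.c_sq, mul_one]] at h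
    have ha2sq : a2 * a2 = 1 := by rw [ha2, conj_mul_conj hE.c_sq, haa, mul_one, hE.c_sq]
    have hxa2 : x * a2 = -(a2 * x) := by
      calc x * a2 = c * (x * a) * c := by rw [ha2, ← mul_assoc, ← mul_assoc, ← hcx]; simp only [mul_assoc]
        _ = -(a2 * x) := by
          rw [hxa, mul_neg, neg_mul, ha2]; simp only [mul_assoc, hcx]
    have hxw : x * (a * a2) = a * a2 * x :=
      (aa_comm (anti_symm hxa) (anti_symm hxa2)).symm
    have hw : ∀ q ∈ R, q * q = 1 → x * q = q * x → q * (a * a2) = a * a2 * q := by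
      intro q hq hqq hxq
      obtain ⟨σ, hσ, hcq⟩ := (hE.sgn_cent hD hn hq hqq hxq).exists_sign
      obtain ⟨ε, hε, haq⟩ := Sg.exists_sign (f := a) (g := q) (hD.comm_sign a ha q hq)
      have hqc : q * c = σ • (c * q) := by rw [hcq, smul_smul, hσ, one_smul]
      have : a2 * q = ε • (q * a2) := by
        calc a2 * q = c * a * (σ • (q * c)) := by rw [ha2, mul_assoc, hcq]
          _ = σ • (c * (a * q) * c) := by rw [mul_smul_comm]; simp only [mul_assoc]
          _ = (σ * ε) • (c * q * a * c) := by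
            rw [haq, mul_smul_comm, smul_mul_assoc, smul_smul]; simp only [mul_assoc]
          _ = (σ * ε * σ) • (q * a2) := by
            rw [hcq, smul_mul_assoc, smul_mul_assoc, smul_smul, ha2]; simp only [mul_assoc]
          _ = ε • (q * a2) := by rw [mul_comm σ ε, mul_assoc, hσ, mul_one]
      rw [mul_assoc a, this, mul_smul_comm, ← mul_assoc a q, haq, smul_mul_assoc, smul_smul, hε,
        one_smul, mul_assoc]
    obtain ⟨f₁, hf₁, f₂, hf₂, hx₁, hx₂, h12⟩ := hD.exists_pair (by omega) hxR hE.x_sq hE.x_ns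
    obtain ⟨e₁, he₁, hq₁, hq₁q⟩ := hD.exists_sq_one hf₁
    obtain ⟨e₂, he₂, hq₂, hq₂q⟩ := hD.exists_sq_one hf₂
    have hx₁' : x * (e₁ • f₁) = e₁ • f₁ * x := by rw [mul_smul_comm, hx₁, smul_mul_assoc]
    have hx₂' : x * (e₂ • f₂) = e₂ • f₂ * x := by rw [mul_smul_comm, hx₂, smul_mul_assoc]
    have h12' : e₁ • f₁ * (e₂ • f₂) = -(e₂ • f₂ * (e₁ • f₁)) := by
      rw [smul_mul_smul_comm, h12, smul_mul_smul_comm, mul_comm, smul_neg]
    set q₁ := e₁ • f₁
    set q₂ := e₂ • f₂
    have hq₁ns : NS q₁ := hD.ns_of_anticomm hq₂ hq₁ h12'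
    have hT : Two R x q₁ := ⟨hxR, hE.x_sq, hE.x_ns, hq₁, hq₁q, hq₁ns, hx₁',
      hD.ns_of_anticomm hq₂ (hD.mul_mem _ hxR _ hq₁) (ca_anti hx₂' h12')⟩
    have hwR := hD.mul_mem _ ha _ ha2R
    have haw : a * (a * a2) = a2 := by rw [← mul_assoc, haa, one_mul]
    have hbad : ∀ t : Module.End F V, t * q₂ = -(q₂ * t) → IsUnit t → ∀ l : F, a * a2 = l • t →
        False := by
      intro t ht htu l e
      have hl : l ≠ 0 := fun h0 => (hD.isUnit hwR).ne_zero (by rw [e, h0, zero_smul])
      have h' := hw q₂ hq₂ hq₂q hx₂'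
      rw [e, mul_smul_comm, smul_mul_assoc] at h'
      exact not_comm_anti hD htu (hD.isUnit hq₂).ne_zero (smul_right_injective _ hl h').symm ht
    obtain ⟨l, e | e | e | e⟩ := hT.mem_four hD hn hwR hxw (hw q₁ hq₁ hq₁q hx₁')
    · left
      have e' : a2 = l • a := by rw [← haw, e, mul_smul_comm, mul_one]
      rcases sign_of_sq haa (e' ▸ ha2sq) with rfl | rfl
      · exact Or.inl (by rw [hca, e', one_smul])
      · exact Or.inr (by rw [hca, e', neg_one_smul, neg_mul])
    · right
      have hiu : i • (x * a) * (i • (x * a)) = 1 := sq_i_mul_of_anti hD hE.x_sq haa hxa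
      have e' : a2 = (i * l) • (i • (x * a)) := by
        rw [← haw, e, mul_smul_comm, anti_symm hxa, smul_neg, smul_smul,
          show i * l * i = -l by linear_combination l * hD.sq_i, neg_smul]
      rcases sign_of_sq hiu (e' ▸ ha2sq) with hl | hl
      · exact Or.inl (by rw [hca, e', hl, one_smul])
      · exact Or.inr (by rw [hca, e', hl, neg_one_smul, neg_mul])
    · exact (hbad q₁ h12' (hD.isUnit hq₁) l e).elim
    · exact (hbad (x * q₁) (ca_anti hx₂' h12') ((hD.isUnit hxR).mul (hD.isUnit hq₁)) l e).elim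
  by_cases hall : ∀ a ∈ R, a * a = 1 → x * a = -(a * x) → Sg c a
  · obtain ⟨κ, r, hr, hcr⟩ := hD.exists_eq_smul_of_sign (hP.isUnit hE.c_mem).ne_zero fun b hb => by
      obtain ⟨e, he, hem, hesq⟩ := hD.exists_sq_one hb
      have hsg : Sg c (e • b) := by
        rcases hD.comm_sign x hxR _ hem with h | h
        · exact hE.sgn_cent hD hn hem hesq h
        · exact hall _ hem hesq h
      rcases Sg.of_smul_right he hsg with h | h
      · exact Or.inl h.symm
      · exact Or.inr (anti_symm h)
    rw [hcr]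
    exact hD.smul_mem_of_sq hr (by rw [← hcr]; exact hE.c_sq)
  exfalso
  push Not at hall
  obtain ⟨a₀, ha₀, ha₀q, hxa₀, hbad⟩ := hall
  have h0 := (hanti a₀ ha₀ ha₀q hxa₀).resolve_left hbad
  obtain ⟨τ, hτ, hca₀⟩ : ∃ τ : F, τ * τ = 1 ∧ c * a₀ = τ • (i • (x * a₀) * c) := by
    rcases h0 with h | h
    · exact ⟨1, one_mul 1, by rw [h, one_smul]⟩
    · exact ⟨-1, by ring, by rw [h, neg_one_smul]⟩
  refine turn_false hD hP hNo hxR hE.x_sq hE.x_ns hE.c_mem
    (fun s hs hss h => hE.sgn_cent hD hn hs hss h) fun a ha haa hxa => ?_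
  obtain ⟨e, he, hem, hesq⟩ := hD.exists_sq_one (hD.mul_mem _ ha _ ha₀)
  have hxq : x * (e • (a * a₀)) = e • (a * a₀) * x := by
    rw [mul_smul_comm, smul_mul_assoc, (aa_comm (anti_symm hxa) (anti_symm hxa₀)).symm]
  obtain ⟨σ, hσ, hcq⟩ :=
    (Sg.of_smul_right he (hE.sgn_cent hD hn hem hesq hxq)).exists_sign
  have key : c * a = (σ * τ) • (i • (x * a) * c) := by
    calc c * a = c * (a * a₀) * a₀ := by
          rw [mul_assoc, mul_assoc a, ha₀q, mul_one]
      _ = σ • (a * a₀ * (c * a₀)) := by rw [hcq, smul_mul_assoc]; simp only [mul_assoc]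
      _ = (σ * τ) • (i • (a * a₀ * (x * a₀)) * c) := by
          rw [hca₀, mul_smul_comm, smul_smul, smul_mul_assoc, smul_mul_assoc, mul_smul_comm]
          simp only [mul_assoc]
      _ = (σ * τ) • (i • (x * a) * c) := by
          rw [show a * a₀ * (x * a₀) = x * a by
            rw [hxa₀, mul_neg, mul_assoc, ← mul_assoc a₀ a₀, ha₀q, one_mul, hxa]]
  rcases mul_self_eq_one_iff.1 (show σ * τ * (σ * τ) = 1 by
    linear_combination (τ * τ) * hσ + hτ) with h | h
  · exact Or.inl (by rw [key, h, one_smul])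
  · exact Or.inr (by rw [key, h, neg_one_smul])

end Eigen

end Cfsg.Agent.MaxSub.SLFour.Pair
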