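import Cfsg.Agent.MaxSub.SLFour.PairClosure

/-!
A group containing `R` and the products of two of its quarter turns normalises `R` or contains
what the dichotomy for groups with all quarter turns gives.
-/

set_option autoImplicit false
set_option maxSynthPendingDepth 3

namespace Cfsg.Agent.MaxSub.SLFour.Pair

open CSix

variable {F : Type*} [Field F] {V : Type*} [AddCommGroup V] [Module F V]
variable [Nontrivial V] [FiniteDimensional F V] [Finite (Module.End F V)] {i : F}
variable {R G : Set (Module.End F V)}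

omit [Nontrivial V] [FiniteDimensional F V] [Finite (Module.End F V)] in
theorem anti_of_mul (hD : Data i R) {r p : Module.End F V} (h : r * p = -(p * r)) :
    r * qt i p = ((2 : F) • qt' i p) * r := by
  rw [qt', smul_inv_smul₀ hD.two_ne]
  simp only [qt, mul_add, mul_one, mul_smul_comm, h, sub_mul, one_mul, smul_mul_assoc, smul_neg]
  abel

omit [Nontrivial V] [FiniteDimensional F V] [Finite (Module.End F V)] in
theorem qt'_pair_comm {p q : Module.End F V} (h : p * q = q * p) :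
    qt i q * qt' i p = qt' i p * qt i q :=
  qt_comm (qt'_comm h).symm

/-- An element exchanging two commuting involutions commutes and anticommutes with elements of
`R`. -/
theorem exists_signs (hD : Data i R) (hP : PGrp i R G) (hNo : NoTurn i R G)
    (hn : Module.finrank F V = 4) {z : Module.End F V} (hz : z ∈ G) (hN : Nrm R z) {μ : F}
    (hμ : z * z = μ • 1) (hns : ¬ ∀ s ∈ R, s * s = 1 → Sg z s) :
    ∃ b₀ ∈ R, b₀ * b₀ = 1 ∧ NS b₀ ∧ z * b₀ = b₀ * z ∧
      ∃ b₁ ∈ R, b₁ * b₁ = 1 ∧ z * b₁ = -(b₁ * z) := by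
  obtain ⟨z', -, h1, h2⟩ := hP.inv_mem z hz
  obtain ⟨r, v, hm⟩ := exists_moved_comm hD hP hNo hz hN hμ hns
  obtain ⟨p, hp⟩ : ∃ p, p = r * v := ⟨_, rfl⟩
  have hpR : p ∈ R := hp ▸ hD.mul_mem _ hm.r_mem _ hm.v_mem
  have hpp : p * p = 1 := hp ▸ sq_mul_of_comm hm.r_sq hm.v_sq hm.comm
  have hpns : NS p := hp ▸ hm.ns
  have hzp : z * p = p * z := by
    rw [hp, ← mul_assoc, hm.map_r, mul_assoc, hm.map_v, ← mul_assoc, ← hm.comm]
  refine ⟨p, hpR, hpp, hpns, hzp, ?_⟩
  by_contra hb1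
  push Not at hb1
  obtain ⟨s, hs, hss, hps⟩ := hD.exists_anticomm hpR hpns
  obtain ⟨w, hw, hww, f1, f2⟩ := exists_image hD h1 h2 hN hμ hs hss
  have hsw : s * w = w * s := by
    refine (hD.comm_sign s hs w hw).resolve_right fun h => hb1 _
      (hD.i_smul_mem (hD.mul_mem _ hs _ hw)) (sq_i_mul_of_anti hD hss hww h) ?_
    rw [mul_smul_comm, ← mul_assoc, f1, mul_assoc, f2, ← mul_assoc, anti_symm h, neg_mul,
      smul_neg, smul_mul_assoc]
  have hwp : w * p = -(p * w) := by
    refine (hP.isUnit hz).mul_left_inj.1 ?_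
    calc w * p * z = z * (s * p) := by
          rw [mul_assoc, ← hzp, ← mul_assoc, ← f1, mul_assoc]
      _ = -(p * w) * z := by
          rw [anti_symm hps, mul_neg, ← mul_assoc, hzp, mul_assoc, f1, ← mul_assoc, neg_mul]
  obtain ⟨q, hq⟩ : ∃ q, q = s * w := ⟨_, rfl⟩
  have hqR : q ∈ R := hq ▸ hD.mul_mem _ hs _ hw
  have hqq : q * q = 1 := hq ▸ sq_mul_of_comm hss hww hsw
  have hzq : z * q = q * z := by
    rw [hq, ← mul_assoc, f1, mul_assoc, f2, ← mul_assoc, hsw]
  have hqs : q * s = s * q := by rw [hq, mul_assoc, ← hsw]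
  have hqns : NS q := by
    intro l hl
    have e : s = l • w := eq_scalar_mul hww (hq ▸ hl)
    have hl1 := sign_of_sq hww (e ▸ hss)
    have hsw' : w = l • s := by
      rw [e, smul_smul, show l * l = 1 by rcases hl1 with rfl | rfl <;> ring, one_smul]
    -- then `s` is fixed up to a sign and commutes with `p`
    have hconj : ∀ ε : F, s * r = ε • (r * s) → w * v = ε • (v * w) := by
      intro ε he
      refine (hP.isUnit hz).mul_left_inj.1 ?_
      rw [mul_assoc, ← hm.map_r, ← mul_assoc, ← f1, mul_assoc, he, smul_mul_assoc, mul_assoc v,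
        ← f1, ← mul_assoc v, ← hm.map_r, mul_smul_comm, mul_assoc]
    obtain ⟨ε, hε, hsr⟩ := Sg.exists_sign (f := s) (g := r) (hD.comm_sign s hs r hm.r_mem)
    have h3 := hconj ε hsr
    rw [hsw', smul_mul_assoc, mul_smul_comm, smul_comm] at h3
    have hsv : s * v = ε • (v * s) := smul_right_injective _
      (show l ≠ 0 by rcases hl1 with rfl | rfl <;> simp) h3
    refine not_comm_anti hD (hD.isUnit hpR) (hD.isUnit hs).ne_zero ?_ hps
    rw [hp, ← mul_assoc, hsr, smul_mul_assoc, mul_assoc, mul_assoc r s v, hsv, mul_smul_comm,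
      smul_smul, hε, one_smul]
  have hqp : q * p = p * q := by rw [hq]; exact aa_comm (anti_symm hps) hwp
  have hpqns : NS (p * q) := by
    intro l hl
    have e : q = l • p := by
      rw [← one_mul q, ← hpp, mul_assoc, hl, mul_smul_comm, mul_one]
    have hl0 : l ≠ 0 := fun h0 => (hD.isUnit hqR).ne_zero (by rw [e, h0, zero_smul])
    rw [e, smul_mul_assoc, mul_smul_comm] at hqs
    exact not_comm_anti hD (hD.isUnit hpR) (hD.isUnit hs).ne_zero
      (smul_right_injective _ hl0 hqs) hps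
  have hT : Two R p q := ⟨hpR, hpp, hpns, hqR, hqq, hqns, hqp.symm, hpqns⟩
  obtain ⟨a, b, c, d, e⟩ := hT.span_four hD hn hzp.symm hzq.symm
  obtain ⟨t0, t1, t2, t3, t4, t5⟩ := hT.mul_table
  have hzz : z * z = (a * a + b * b + c * c + d * d) • (1 : Module.End F V)
      + (2 * (a * b + c * d)) • p + (2 * (a * c + b * d)) • q + (2 * (a * d + b * c)) • (p * q) := by
    rw [e]
    simp only [add_mul, mul_add, smul_mul_assoc, mul_smul_comm, smul_smul, one_mul, mul_one, hpp,
      hqq, t0, t1, t2, t3, t4, t5]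
    module
  rw [hμ] at hzz
  obtain ⟨-, hab, hac, had⟩ := hT.coeff_zero hD hn
    (a := a * a + b * b + c * c + d * d - μ) (b := 2 * (a * b + c * d))
    (c := 2 * (a * c + b * d)) (d := 2 * (a * d + b * c)) (by
      rw [sub_smul, hzz]; abel)
  have hab' := (mul_eq_zero.1 hab).resolve_left hD.two_ne
  have hac' := (mul_eq_zero.1 hac).resolve_left hD.two_ne
  have had' := (mul_eq_zero.1 had).resolve_left hD.two_ne
  have single : ∀ (κ : F) (t : Module.End F V), t ∈ R → z = κ • t → False := fun κ t ht ez =>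
    hns fun s' hs' _ => ez ▸ (Sg.smul_left (f := t) (g := s') (hD.comm_sign t ht s' hs') κ)
  have hpqR := hD.mul_mem _ hpR _ hqR
  rcases eq_or_ne a 0 with ha | ha
  · subst ha
    simp only [zero_mul, zero_add] at hab' hac' had'
    rcases mul_eq_zero.1 hab' with hc | hd
    · subst hc
      rcases mul_eq_zero.1 hac' with hb | hd
      · exact single d _ hpqR (by rw [e, hb]; simp)
      · exact single b _ hpR (by rw [e, hd]; simp)
    · subst hd
      rcases mul_eq_zero.1 had' with hb | hc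
      · exact single c _ hqR (by rw [e, hb]; simp)
      · exact single b _ hpR (by rw [e, hc]; simp)
  rcases eq_or_ne b 0 with hb | hb
  · have hc : c = 0 := (mul_eq_zero.1 (show a * c = 0 by
      rw [hb] at hac'; linear_combination hac')).resolve_left ha
    have hd : d = 0 := (mul_eq_zero.1 (show a * d = 0 by
      rw [hb] at had'; linear_combination had')).resolve_left ha
    exact single a 1 hD.one_mem (by rw [e, hb, hc, hd]; simp)
  have hc : c ≠ 0 := fun h0 => by
    rw [h0] at hab'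
    exact mul_ne_zero ha hb (by linear_combination hab')
  have hd : d ≠ 0 := fun h0 => by
    rw [h0] at hab'
    exact mul_ne_zero ha hb (by linear_combination hab')
  have hbb : b * b = a * a := by
    refine mul_left_cancel₀ (mul_ne_zero hc hd) ?_
    linear_combination (a * d) * (hac') * (-1) + (b * d) * had'
  have hcc : c * c = a * a := by
    refine mul_left_cancel₀ (mul_ne_zero hb hd) ?_
    linear_combination (a * d) * (hab') * (-1) + (c * d) * had'
  obtain ⟨β, hβ⟩ : ∃ β, β = b / a := ⟨_, rfl⟩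
  obtain ⟨γ, hγ⟩ : ∃ γ, γ = c / a := ⟨_, rfl⟩
  have hβ2 : β * β = 1 := by rw [hβ, div_mul_div_comm, hbb, div_self (mul_ne_zero ha ha)]
  have hγ2 : γ * γ = 1 := by rw [hγ, div_mul_div_comm, hcc, div_self (mul_ne_zero ha ha)]
  have hp'2 : ((-β) • p) * ((-β) • p) = 1 := by
    rw [smul_mul_smul_comm, neg_mul_neg, hβ2, hpp, one_smul]
  have hq'2 : ((-γ) • q) * ((-γ) • q) = 1 := by
    rw [smul_mul_smul_comm, neg_mul_neg, hγ2, hqq, one_smul]
  have hp'R : (-β) • p ∈ R := hD.smul_mem_of_sq hpR hp'2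
  have hq'R : (-γ) • q ∈ R := hD.smul_mem_of_sq hqR hq'2
  have h1i : (1 - i : F) ≠ 0 := fun h =>
    hD.two_ne (by linear_combination (1 + i) * h + hD.sq_i)
  have hW := hP.tt_mem _ hp'R hp'2
    (hpns.smul (neg_ne_zero.2 (left_ne_zero_of_mul_eq_one hβ2))) _ hq'R hq'2
    (hqns.smul (neg_ne_zero.2 (left_ne_zero_of_mul_eq_one hγ2)))
  obtain ⟨W', hW', -, w2⟩ := hP.inv_mem _ hW
  have hprod : (-β) • p * ((-γ) • q) = (β * γ) • (p * q) := by
    rw [smul_mul_smul_comm, neg_mul_neg]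
  have hkey : qt i ((-β) • p) * qt i ((-γ) • q) * qt i ((β * γ) • (p * q))
      = ((1 - i) * a⁻¹) • z := by
    rw [e]
    simp only [qt, add_mul, mul_add, one_mul, mul_one, smul_mul_assoc, mul_smul_comm, smul_smul,
      hpp, hqq, t0, t1, t2, t3, t4, t5, smul_add]
    have eb : b = β * a := by rw [hβ, div_mul_cancel₀ _ ha]
    have ec : c = γ * a := by rw [hγ, div_mul_cancel₀ _ ha]
    have ed : d = -(β * γ) * a := by
      refine mul_left_cancel₀ ha ?_
      rw [eb, ec] at had'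
      linear_combination had'
    rw [eb, ec, ed]
    have haa : a⁻¹ * a = 1 := inv_mul_cancel₀ ha
    match_scalars <;> grind [hD.sq_i]
  refine hNo _ (hD.smul_mem_of_sq hpqR (c := β * γ) ?_) ?_ ?_ ?_
  · rw [smul_mul_smul_comm, t5, mul_mul_mul_comm, hβ2, hγ2, mul_one, one_smul]
  · rw [smul_mul_smul_comm, t5, mul_mul_mul_comm, hβ2, hγ2, mul_one, one_smul]
  · exact hpqns.smul (mul_ne_zero (left_ne_zero_of_mul_eq_one hβ2) (left_ne_zero_of_mul_eq_one hγ2))
  · rw [← one_mul (qt i ((β * γ) • (p * q))), ← w2, mul_assoc, hkey]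
    exact hP.mul_mem _ hW' _ (hP.smul_mem' (mul_ne_zero h1i (inv_ne_zero ha)) hz)

/-- The centralisers of the other involutions of the normaliser normalise `R`. -/
theorem nrm_of_centralises (hD : Data i R) (hP : PGrp i R G) (hNo : NoTurn i R G)
    (hCen : CenNrm R G) (hn : Module.finrank F V = 4) {z : Module.End F V} (hzu : IsUnit z)
    {b₀ b₁ : Module.End F V} (hb₀R : b₀ ∈ R) (hb₀ : b₀ * b₀ = 1) (hb₀ns : NS b₀)
    (hzb₀ : z * b₀ = b₀ * z) (hb₁R : b₁ ∈ R) (hb₁ : b₁ * b₁ = 1) (hzb₁ : z * b₁ = -(b₁ * z))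
    {w : Module.End F V} (hw : w ∈ G) (hwz : PC w z) : Nrm R w := by
  obtain ⟨w', hw', w1, w2⟩ := hP.inv_mem w hw
  obtain ⟨ν, hν⟩ := hwz
  have hν0 : ν ≠ 0 := fun h0 =>
    ((hP.isUnit hw).mul hzu).ne_zero (by rw [hν, h0, zero_smul])
  have hwu := hP.isUnit hw
  obtain ⟨y, hy⟩ : ∃ y, y = w * b₀ * w' := ⟨_, rfl⟩
  have hyc : Cls R G y := hy ▸ hP.cls_conj (hP.cls_of_mem hb₀R hb₀ hb₀ns) hw hw' w1 w2
  have hzy : z * y = y * z := by
    refine hwu.mul_left_inj.1 ?_
    have hyw : y * w = w * b₀ := by rw [hy, mul_assoc (w * b₀), w2, mul_one]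
    have hzw : z * w = ν⁻¹ • (w * z) := by rw [hν, inv_smul_smul₀ hν0]
    rw [mul_assoc, hyw, ← mul_assoc, hzw, smul_mul_assoc, mul_assoc, hzb₀, mul_assoc y, hzw,
      mul_smul_comm, ← mul_assoc y, hyw, mul_assoc]
  have hb₁ns : NS b₁ := by
    intro l hl
    exact not_comm_anti hD hzu (hD.isUnit hb₁R).ne_zero
      (by rw [hl, mul_smul_comm, smul_mul_assoc, mul_one, one_mul]) hzb₁
  have hyG := hP.cls_mem_grp hyc
  rcases CSix.dihedral (hP.grp_one hD) (hP.sub hb₁R) hyG hb₁ one_ne_zero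
      (by rw [hyc.sq, one_smul]) with
    ⟨s, hs, s', hs', s1, s2, ⟨d, hd, hds⟩, hpc⟩ |
    ⟨u, hu, huns, -, hxu, hyu, k, hk, k', hk', k1, k2, d, hd, hz⟩
  · exfalso
    obtain ⟨ρ, hρ⟩ := hpc z ⟨-1, by rw [hzb₁, neg_one_smul]⟩ ⟨1, by rw [hzy, one_smul]⟩
    have hye : y = d • (s * b₁ * s') := by
      rw [← smul_mul_assoc, ← hds, mul_assoc, s1, mul_one]
    have hzs' : ρ • (z * s') = s' * z := by
      calc ρ • (z * s') = s' * (ρ • (s * z)) * s' := by
            rw [mul_smul_comm, smul_mul_assoc, ← mul_assoc s' s z, s2, one_mul]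
        _ = s' * z := by rw [← hρ, mul_assoc, mul_assoc, s1, mul_one]
    refine not_comm_anti hD hzu hyc.isUnit.ne_zero hzy ?_
    rw [hye, mul_smul_comm, ← mul_assoc z (s * b₁), ← mul_assoc z s, hρ, smul_mul_assoc,
      smul_mul_assoc, mul_assoc s z, hzb₁, mul_neg, neg_mul, smul_neg, smul_neg, smul_mul_assoc]
    congr 2
    rw [mul_assoc (s * b₁), ← hzs', mul_smul_comm]
    simp only [mul_assoc]
  · obtain ⟨zc, hzc, hz⟩ : ∃ zc, Cls R G zc ∧ u * b₁ = d • zc := by
      rcases hz with hz | hz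
      · exact ⟨_, hP.cls_conj (hP.cls_of_mem hb₁R hb₁ hb₁ns) hk hk' k1 k2, hz⟩
      · exact ⟨_, hP.cls_conj hyc hk hk' k1 k2, hz⟩
    have hzR : zc ∈ R := by
      refine cls_mem' hD hP hNo hCen hn hzc hb₁R hb₁ns (PC.symm (hD.isUnit hb₁R) hzc.isUnit ?_)
      have := (hxu.mul_right (PC.refl b₁)).smul_right d⁻¹
      rwa [hz, inv_smul_smul₀ hd] at this
    have hue : u = d • (zc * b₁) := by
      rw [← mul_one u, ← hb₁, ← mul_assoc, hz, smul_mul_assoc]
    have hyR : y ∈ R := by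
      refine cls_mem' hD hP hNo hCen hn hyc (hD.mul_mem _ hzR _ hb₁R)
        (fun c hc => huns (d * c) (by rw [hue, hc, smul_smul])) ?_
      have := hyu.smul_right d⁻¹
      rwa [hue, inv_smul_smul₀ hd] at this
    exact nrm_of_conj hD hP hCen hw w1 w2 hb₀R hb₀ hb₀ns (hy ▸ hyR)

/-- Without quarter turns and with small centralisers `G` normalises `R`. -/
theorem normalises (hD : Data i R) (hP : PGrp i R G) (hNo : NoTurn i R G) (hCen : CenNrm R G)
    (hn : Module.finrank F V = 4) {g : Module.End F V} (hg : g ∈ G) : Nrm R g := by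
  obtain ⟨g', hg', h1, h2⟩ := hP.inv_mem g hg
  -- an element of the normaliser outside `R`
  obtain ⟨p₀, hp₀, hp₀ns⟩ : ∃ a ∈ R, NS a := by
    by_contra hcon
    push Not at hcon
    have hle : Submodule.span F R ≤ F ∙ (1 : Module.End F V) := Submodule.span_le.2 fun a ha => by
      by_contra h
      exact hcon a ha fun c hc =>
        h (hc ▸ Submodule.smul_mem _ c (Submodule.mem_span_singleton_self _))
    rw [hD.span_eq] at hle
    have h1 : Module.finrank F (⊤ : Submodule F (Module.End F V)) ≤ 1 :=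
      (Submodule.finrank_mono hle).trans (finrank_span_singleton one_ne_zero).le
    rw [finrank_top, Module.finrank_linearMap, hn] at h1
    omega
  obtain ⟨p, hpR, hpp, hpns⟩ : ∃ p ∈ R, p * p = 1 ∧ NS p := by
    obtain ⟨e, he, hpR, hpp⟩ := hD.exists_sq_one hp₀
    exact ⟨_, hpR, hpp, hp₀ns.smul he⟩
  obtain ⟨f₁, hf₁, f₂, hf₂, hx₁, hx₂, h12⟩ := hD.exists_pair (by omega) hpR hpp hpns
  obtain ⟨q, hqR, hqq, hpq, hqns, h13⟩ : ∃ q ∈ R, q * q = 1 ∧ p * q = q * p ∧ NS q ∧
      q * f₂ = -(f₂ * q) := by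
    obtain ⟨e₁, he₁, hqR, hqq⟩ := hD.exists_sq_one hf₁
    exact ⟨_, hqR, hqq, by rw [mul_smul_comm, hx₁, smul_mul_assoc],
      (hD.ns_of_anticomm hf₂ hf₁ h12).smul he₁,
      by rw [smul_mul_assoc, h12, smul_neg, mul_smul_comm]⟩
  obtain ⟨r, hrR, hrr, hpr, hqr⟩ := exists_anti_both hD hpR hpns hqR hqns
  obtain ⟨z, hz⟩ : ∃ z, z = qt i p * qt i q * r := ⟨_, rfl⟩
  have hzG : z ∈ G := hz ▸ hP.mul_mem _ (hP.tt_mem p hpR hpp hpns q hqR hqq hqns) _ (hP.sub hrR)
  have hzN : Nrm R z := hz ▸ ((nrm_qt hD hpR hpp).mul (nrm_qt hD hqR hqq)).mul (nrm_of_mem hD hrR)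
  have hrpq : r * (qt i p * qt i q) = (4 : F) • (qt' i p * qt' i q) * r := by
    rw [← mul_assoc, anti_of_mul hD (anti_symm hpr), mul_assoc,
      anti_of_mul hD (anti_symm hqr), ← mul_assoc, smul_mul_smul_comm,
      show (2 : F) * 2 = 4 by norm_num]
  have hzz : z * z = (4 : F) • 1 := by
    calc z * z = qt i p * qt i q * (r * (qt i p * qt i q)) * r := by
          rw [hz]; simp only [mul_assoc]
      _ = (4 : F) • (qt i p * (qt i q * qt' i p) * qt' i q * (r * r)) := by
          rw [hrpq, smul_mul_assoc, mul_smul_comm, smul_mul_assoc]; simp only [mul_assoc]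
      _ = (4 : F) • 1 := by
          rw [qt'_pair_comm hpq, hrr, mul_one, ← mul_assoc (qt i p), qt_mul_qt' hD hpp, one_mul,
            qt_mul_qt' hD hqq]
  have hqpp : qt i q * p = p * qt i q := qt_comm hpq.symm
  have hzp : z * p = -(p * z) := by
    calc z * p = qt i p * (qt i q * (r * p)) := by rw [hz]; simp only [mul_assoc]
      _ = -(qt i p * (qt i q * p) * r) := by
          rw [anti_symm hpr, mul_neg, mul_neg]; simp only [mul_assoc]
      _ = -(p * z) := by
          rw [hqpp, ← mul_assoc (qt i p), qt_comm (a := p) (s := p) rfl, hz]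
          simp only [mul_assoc]
  have hzns : ¬ ∀ s ∈ R, s * s = 1 → Sg z s := by
    intro hall
    have hzr : z * r = qt i p * qt i q := by rw [hz, mul_assoc, hrr, mul_one]
    have hrz : r * z = (4 : F) • (qt' i p * qt' i q) := by
      rw [hz, ← mul_assoc, hrpq, mul_assoc, hrr, mul_one]
    have e4 : (4 : F) • (qt' i p * qt' i q)
        = 1 - i • p - i • q + (i * i) • (p * q) := by
      simp only [qt', smul_mul_smul_comm, sub_mul, mul_sub, one_mul, mul_one, smul_smul]
      rw [show (4 : F) * ((2 : F)⁻¹ * (2 : F)⁻¹) = 1 by field_simp [hD.two_ne]; norm_num, one_smul]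
      abel
    have e1 : qt i p * qt i q = 1 + i • p + i • q + (i * i) • (p * q) := by
      simp only [qt, add_mul, mul_add, one_mul, mul_one, smul_mul_smul_comm]
      abel
    have hbad : ∀ ε : F, q ≠ ε • p := fun ε hqp => by
      exact not_comm_anti hD (hD.isUnit hqR) (hD.isUnit hf₂).ne_zero
        (by rw [hqp, smul_mul_assoc, hx₂, mul_smul_comm]) h13
    rcases hall r hrR hrr with h | h <;> rw [hzr, hrz, e1, e4, hD.sq_i] at h
    · have h' : (2 * i) • (p + q) = 0 := by
        linear_combination (norm := module) h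
      refine hbad (-1) ?_
      rw [neg_one_smul]
      exact eq_neg_of_add_eq_zero_right
        ((smul_eq_zero.1 h').resolve_left (mul_ne_zero hD.two_ne hD.i_ne))
    · have h' : (2 : F) • ((1 : Module.End F V) - p * q) = 0 := by
        linear_combination (norm := module) h
      have hpq1 : p * q = 1 := (sub_eq_zero.1 ((smul_eq_zero.1 h').resolve_left hD.two_ne)).symm
      refine hbad 1 ?_
      rw [one_smul, ← one_mul q, ← hpp, mul_assoc, hpq1, mul_one]
  obtain ⟨y, hy⟩ : ∃ y, y = g * z * g' := ⟨_, rfl⟩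
  have hyG : y ∈ G := hy ▸ hP.mul_mem _ (hP.mul_mem _ hg _ hzG) _ hg'
  have hyy : y * y = (4 : F) • 1 := by
    rw [hy, conj_mul_conj h2, hzz, mul_smul_comm, mul_one, smul_mul_assoc, h1]
  have hscal : ∀ {u : Module.End F V}, IsUnit u → (∀ s ∈ R, s * s = 1 → Sg u s) →
      ∃ κ : F, κ ≠ 0 ∧ ∃ t ∈ R, t * t = 1 ∧ u = κ • t := by
    intro u hu hall
    obtain ⟨κ, t, ht, e⟩ := hD.exists_eq_smul_of_sign hu.ne_zero fun b hb => by
      obtain ⟨e, he, hem, hesq⟩ := hD.exists_sq_one hb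
      rcases Sg.of_smul_right he (hall _ hem hesq) with h | h
      · exact Or.inl h.symm
      · exact Or.inr (anti_symm h)
    obtain ⟨e', he', htm, htsq⟩ := hD.exists_sq_one ht
    exact ⟨κ * e'⁻¹, mul_ne_zero (fun h0 => hu.ne_zero (by rw [e, h0, zero_smul]))
      (inv_ne_zero he'), _, htm, htsq, by rw [e, smul_smul, mul_assoc, inv_mul_cancel₀ he', mul_one]⟩
  rcases CSix.dihedral (hP.grp_one hD) (hP.sub hpR) hyG hpp (four_ne hD) hyy with
    ⟨s, hs, s', hs', s1, s2, ⟨d, hd, hds⟩, -⟩ |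
    ⟨u, hu, huns, ⟨cu, hcu, huu⟩, hpu, hyu, -⟩
  · exfalso
    have hye : y = d • (s * p * s') := by rw [← smul_mul_assoc, ← hds, mul_assoc, s1, mul_one]
    have hY : Cls R G (g' * (s * p * s') * g) :=
      hP.cls_conj (hP.cls_conj (hP.cls_of_mem hpR hpp hpns) hs hs' s1 s2) hg' hg h2 h1
    have hzY : z = d • (g' * (s * p * s') * g) := by
      rw [← conj_conj h2 z, ← hy, hye, mul_smul_comm, smul_mul_assoc]
    have hYR := mem_of_cls hD hP hNo hCen hn hY (by
      have := hzN.smul d⁻¹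
      rwa [hzY, inv_smul_smul₀ hd] at this)
    exact hzns fun t ht _ => hzY ▸ Sg.smul_left (hD.comm_sign _ hYR t ht) d
  have huN : Nrm R u :=
    hCen u hu p hpR hpns (PC.symm (hD.isUnit hpR) (hP.isUnit hu) hpu)
  obtain ⟨v, hv⟩ : ∃ v, v = g' * u * g := ⟨_, rfl⟩
  have hvG : v ∈ G := hv ▸ hP.mul_mem _ (hP.mul_mem _ hg' _ hu) _ hg
  have hvv : v * v = cu • 1 := by
    rw [hv, conj_mul_conj h1, huu, mul_smul_comm, mul_one, smul_mul_assoc, h2]
  have huv : u = g * v * g' := by rw [hv, conj_conj h1]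
  have hvz : PC v z := by
    have := (PC.symm (hP.isUnit hyG) (hP.isUnit hu) hyu).conj (k := g') (k' := g) h1
    rwa [hy, conj_conj h2, ← hv] at this
  have hzb : z * (p * q) = p * q * z := by
    rw [hz, mul_assoc _ r, aa_comm (u := p) (v := q) hpr hqr |>.symm, ← mul_assoc,
      mul_assoc (qt i p) (qt i q), ← mul_assoc (qt i q) p, hqpp, mul_assoc p (qt i q) q,
      qt_comm (a := q) (s := q) rfl, ← mul_assoc p q, ← mul_assoc (qt i p),
      qt_comm (a := p) (s := p * q) (by rw [mul_assoc, ← hpq])]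
    simp only [mul_assoc]
  have hpqns : NS (p * q) := fun l hl => by
    have hqp : q = l • p := by
      rw [← one_mul q, ← hpp, mul_assoc, hl, mul_smul_comm, mul_one]
    exact not_comm_anti hD (hD.isUnit hqR) (hD.isUnit hf₂).ne_zero
      (by rw [hqp, smul_mul_assoc, hx₂, mul_smul_comm]) h13
  have hvN : Nrm R v := nrm_of_centralises hD hP hNo hCen hn (hP.isUnit hzG)
    (hD.mul_mem _ hpR _ hqR) (sq_mul_of_comm hpp hqq hpq) hpqns hzb hpR hpp hzp hvG hvz
  by_cases hua : ∀ s ∈ R, s * s = 1 → Sg u s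
  · obtain ⟨κ, hκ, t, ht, htt, e⟩ := hscal (hP.isUnit hu) hua
    have htns : NS t := fun l hl => huns (κ * l) (by rw [e, hl, smul_smul])
    have hY := hP.cls_conj (hP.cls_of_mem ht htt htns) hg' hg h2 h1
    have hYN : Nrm R (g' * t * g) := by
      have := hvN.smul κ⁻¹
      rwa [hv, e, mul_smul_comm, smul_mul_assoc, inv_smul_smul₀ hκ] at this
    exact (nrm_of_conj hD hP hCen hg' h2 h1 ht htt htns
      (mem_of_cls hD hP hNo hCen hn hY hYN)).inv h2 h1
  by_cases hva : ∀ s ∈ R, s * s = 1 → Sg v s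
  · obtain ⟨κ, hκ, t, ht, htt, e⟩ := hscal (hP.isUnit hvG) hva
    have htns : NS t := fun l hl => huns (κ * l) (by
      rw [huv, e, hl, smul_smul, mul_smul_comm, mul_one, smul_mul_assoc, h1])
    have hY := hP.cls_conj (hP.cls_of_mem ht htt htns) hg hg' h1 h2
    have hYN : Nrm R (g * t * g') := by
      have := huN.smul κ⁻¹
      rwa [huv, e, mul_smul_comm, smul_mul_assoc, inv_smul_smul₀ hκ] at this
    exact nrm_of_conj hD hP hCen hg h1 h2 ht htt htns (mem_of_cls hD hP hNo hCen hn hY hYN)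
  obtain ⟨b, hb, hbb, hbns, hub, -⟩ := exists_signs hD hP hNo hn hu huN huu hua
  obtain ⟨c₀, hc₀, hc₀q, hc₀ns, hvc₀, c₁, hc₁, hc₁q, hvc₁⟩ :=
    exists_signs hD hP hNo hn hvG hvN hvv hva
  have hW := hP.cls_conj (hP.cls_of_mem hb hbb hbns) hg' hg h2 h1
  have hWv : PC (g' * b * g) v :=
    ⟨1, by rw [one_smul, hv, conj_mul_conj h1, conj_mul_conj h1, hub]⟩
  have hWN : Nrm R (g' * b * g) := nrm_of_centralises hD hP hNo hCen hn (hP.isUnit hvG)
    hc₀ hc₀q hc₀ns hvc₀ hc₁ hc₁q hvc₁ (hP.cls_mem_grp hW) hWv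
  exact (nrm_of_conj hD hP hCen hg' h2 h1 hb hbb hbns
    (mem_of_cls hD hP hNo hCen hn hW hWN)).inv h2 h1

/-- The reduction to groups with all quarter turns. -/
theorem normalises_or_dich (hD : Data i R) (hP : PGrp i R G) (hn : Module.finrank F V = 4)
    (P : Set (Module.End F V) → Prop)
    (hdich : ∀ G₁ : Set (Module.End F V), Grp i R G₁ → (∀ g ∈ G₁, Nrm R g) ∨ P G₁) :
    (∀ g ∈ G, Nrm R g) ∨ P G ∨ ∃ a ∈ R, a * a = 1 ∧ NS a ∧ P (ext i G a) := by
  by_cases hturn : ∃ a ∈ R, a * a = 1 ∧ NS a ∧ qt i a ∈ G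
  · obtain ⟨a, haR, ha, hns, ht⟩ := hturn
    exact (hdich G (hP.grp_of_turn hD haR ha hns ht)).imp_right Or.inl
  by_cases hext : ∃ a ∈ R, a * a = 1 ∧ NS a ∧ P (ext i G a)
  · exact Or.inr (Or.inr hext)
  left
  push Not at hturn hext
  refine fun g hg => normalises hD hP hturn (fun f hf b hb hbns hfb => ?_) hn hg
  -- elements commuting up to a scalar with `b`
  obtain ⟨t, ht, htm, htsq⟩ := hD.exists_sq_one hb
  have hfb' := hfb.smul_right t
  have hcen : ∀ h ∈ G, h * (t • b) = t • b * h → Nrm R h := fun h hh e =>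
    ((hdich _ (grp_ext hD hP htm htsq (hbns.smul ht))).resolve_right
      (hext _ htm htsq (hbns.smul ht))) h
      (Or.inl (low_of_comm hD hP htm htsq hh e.symm))
  obtain ⟨c, hc⟩ := hfb'
  have hfu := hP.isUnit hf
  have hc2 : c * c = 1 := by
    have e : f * (t • b * (t • b)) = (c * c) • (t • b * (t • b) * f) := by
      rw [← mul_assoc, hc, smul_mul_assoc, mul_assoc, hc, mul_smul_comm, smul_smul, ← mul_assoc]
    rw [htsq, mul_one, one_mul] at e
    exact (smul_left_injective F hfu.ne_zero (show (1 : F) • f = (c * c) • f by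
      rw [one_smul]; exact e)).symm
  rcases mul_self_eq_one_iff.1 hc2 with rfl | rfl
  · exact hcen f hf (by rw [hc, one_smul])
  obtain ⟨r, hr, hrr, hbr⟩ := hD.exists_anticomm htm (hbns.smul ht)
  have e : f * r * (t • b) = t • b * (f * r) := by
    rw [mul_assoc, anti_symm hbr, mul_neg, ← mul_assoc, hc, neg_one_smul, neg_mul, neg_neg,
      mul_assoc]
  have h := (hcen _ (hP.mul_mem _ hf _ (hP.sub hr)) e).mul (nrm_of_mem hD hr)
  rwa [mul_assoc, hrr, mul_one] at h

end Cfsg.Agent.MaxSub.SLFour.Pair
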