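import Cfsg.Agent.MaxSub.SLFour.PairBase

/-!
Traces and commutants in a symplectic-type group of degree four.
-/

set_option autoImplicit false
set_option maxSynthPendingDepth 3

namespace Cfsg.Agent.MaxSub.SLFour.Pair

open CSix

variable {F : Type*} [Field F] {V : Type*} [AddCommGroup V] [Module F V]
variable [Nontrivial V] [FiniteDimensional F V] {i : F} {R : Set (Module.End F V)}

/-- Commuting or anticommuting. -/
def Sg (f g : Module.End F V) : Prop := f * g = g * f ∨ f * g = -(g * f)

omit [Nontrivial V] [FiniteDimensional F V] in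
theorem Sg.smul_left {f g : Module.End F V} (h : Sg f g) (c : F) : Sg (c • f) g := by
  rcases h with h | h
  · exact Or.inl (by rw [smul_mul_assoc, h, mul_smul_comm])
  · exact Or.inr (by rw [smul_mul_assoc, h, mul_smul_comm, smul_neg])

omit [Nontrivial V] [FiniteDimensional F V] in
theorem Sg.of_smul_right {f g : Module.End F V} {c : F} (hc : c ≠ 0) (h : Sg f (c • g)) :
    Sg f g := by
  rcases h with h | h
  · refine Or.inl (smul_right_injective _ hc ?_)
    simpa only [mul_smul_comm, smul_mul_assoc] using h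
  · refine Or.inr (smul_right_injective _ hc ?_)
    simpa only [mul_smul_comm, smul_mul_assoc, smul_neg] using h

omit [Nontrivial V] [FiniteDimensional F V] in
theorem not_comm_anti (hD : Data i R) {f g : Module.End F V} (hf : IsUnit f) (hg : g ≠ 0)
    (h1 : f * g = g * f) (h2 : f * g = -(g * f)) : False := by
  rw [← h1, eq_neg_iff_add_eq_zero, ← two_smul F] at h2
  exact hg (hf.mul_right_eq_zero.1 ((smul_eq_zero.1 h2).resolve_left hD.two_ne))

omit [Nontrivial V] [FiniteDimensional F V] in
theorem aa_comm {u v w : Module.End F V} (h1 : u * w = -(w * u)) (h2 : v * w = -(w * v)) :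
    (u * v) * w = w * (u * v) := by
  rw [mul_assoc, h2, mul_neg, ← mul_assoc, h1, neg_mul, neg_neg, mul_assoc]

omit [Nontrivial V] [FiniteDimensional F V] in
theorem ca_anti {u v w : Module.End F V} (h1 : u * w = w * u) (h2 : v * w = -(w * v)) :
    (u * v) * w = -(w * (u * v)) := by
  rw [mul_assoc, h2, mul_neg, ← mul_assoc, h1, mul_assoc]

omit [Nontrivial V] [FiniteDimensional F V] in
theorem ac_anti {u v w : Module.End F V} (h1 : u * w = -(w * u)) (h2 : v * w = w * v) :
    (u * v) * w = -(w * (u * v)) := by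
  rw [mul_assoc, h2, ← mul_assoc, h1, neg_mul, mul_assoc]

omit [Nontrivial V] [FiniteDimensional F V] in
theorem anti_symm {u v : Module.End F V} (h : u * v = -(v * u)) : v * u = -(u * v) := by
  rw [h, neg_neg]

omit [Nontrivial V] [FiniteDimensional F V] in
theorem sq_mul_of_comm {u v : Module.End F V} (hu : u * u = 1) (hv : v * v = 1)
    (h : u * v = v * u) : (u * v) * (u * v) = 1 := by
  calc (u * v) * (u * v) = u * (v * u) * v := by simp only [mul_assoc]
    _ = (u * u) * (v * v) := by rw [← h]; simp only [mul_assoc]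
    _ = 1 := by rw [hu, hv, mul_one]

omit [Nontrivial V] [FiniteDimensional F V] in
theorem sq_i_mul_of_anti (hD : Data i R) {u v : Module.End F V} (hu : u * u = 1) (hv : v * v = 1)
    (h : u * v = -(v * u)) : (i • (u * v)) * (i • (u * v)) = 1 := by
  rw [hD.i_smul_sq]
  calc -((u * v) * (u * v)) = -(u * (v * u) * v) := by simp only [mul_assoc]
    _ = (u * u) * (v * v) := by rw [anti_symm h]; simp only [mul_neg, neg_mul, neg_neg, mul_assoc]
    _ = 1 := by rw [hu, hv, mul_one]

omit [FiniteDimensional F V] in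
theorem sign_of_sq {q : Module.End F V} (hq : q * q = 1) {c : F} (h : (c • q) * (c • q) = 1) :
    c = 1 ∨ c = -1 := by
  rw [smul_mul_smul_comm, hq] at h
  exact mul_self_eq_one_iff.1 (smul_one_inj (V := V) (h.trans (one_smul F _).symm))

omit [Nontrivial V] [FiniteDimensional F V] in
theorem eq_scalar_mul {x q : Module.End F V} (hq : q * q = 1) {c : F}
    (h : x * q = c • (1 : Module.End F V)) : x = c • q := by
  rw [← mul_one x, ← hq, ← mul_assoc, h, smul_mul_assoc, one_mul]

/-- Non-scalar elements of `R` have trace zero. -/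
theorem trace_zero (hD : Data i R) {r : Module.End F V} (hr : r ∈ R) (hns : NS r) :
    LinearMap.trace F V r = 0 := by
  obtain ⟨b, -, hb, hanti⟩ := hD.exists_anticomm hr hns
  have h1 : LinearMap.trace F V (b * (r * b)) = LinearMap.trace F V r := by
    rw [LinearMap.trace_mul_comm, mul_assoc, hb, mul_one]
  rw [hanti, mul_neg, ← mul_assoc, hb, one_mul, map_neg] at h1
  have : (2 : F) * LinearMap.trace F V r = 0 := by linear_combination -h1
  exact (mul_eq_zero.1 this).resolve_left hD.two_ne

omit [Nontrivial V] [FiniteDimensional F V] in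
theorem four_ne (hD : Data i R) : (4 : F) ≠ 0 := by
  rw [show (4 : F) = 2 * 2 by norm_num]
  exact mul_ne_zero hD.two_ne hD.two_ne

omit [Nontrivial V] in
theorem trace_one_four (hn : Module.finrank F V = 4) :
    LinearMap.trace F V (1 : Module.End F V) = 4 := by
  rw [LinearMap.trace_one, hn]
  norm_num

/-- Two commuting independent involutions of `R`. -/
structure Two (R : Set (Module.End F V)) (x s : Module.End F V) : Prop where
  x_mem : x ∈ R
  x_sq : x * x = 1
  x_ns : NS x
  s_mem : s ∈ R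
  s_sq : s * s = 1
  s_ns : NS s
  comm : x * s = s * x
  xs_ns : NS (x * s)

namespace Two

variable {x s : Module.End F V}

theorem neg_left (hD : Data i R) (h : Two R x s) : Two R (-x) s := by
  have e1 : ∀ f : Module.End F V, NS f → NS (-f) := fun f hf c hc =>
    hf (-c) (by rw [neg_smul, ← hc, neg_neg])
  exact ⟨hD.neg_mem h.x_mem, by simp [h.x_sq], e1 _ h.x_ns, h.s_mem, h.s_sq, h.s_ns,
    by rw [neg_mul, h.comm, mul_neg], by rw [neg_mul]; exact e1 _ h.xs_ns⟩

theorem swap (h : Two R x s) : Two R s x :=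
  ⟨h.s_mem, h.s_sq, h.s_ns, h.x_mem, h.x_sq, h.x_ns, h.comm.symm, h.comm ▸ h.xs_ns⟩

theorem neg_right (hD : Data i R) (h : Two R x s) : Two R x (-s) := (h.swap.neg_left hD).swap

/-- An element commuting with both is a scalar on the joint fixed space. -/
theorem joint (hD : Data i R) (hn : Module.finrank F V = 4) (h : Two R x s) {w : Module.End F V}
    (hwx : x * w = w * x) (hws : s * w = w * s) :
    ∃ l : F, w * ((1 + x) * (1 + s)) = l • ((1 + x) * (1 + s)) := by
  haveI := nontrivial_eig hD h.x_mem h.x_sq h.x_ns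
  have h2 := finrank_eig_of_mem hD h.x_mem h.x_sq h.x_ns
  set φ := resEl x s h.comm with hφ
  have hφns : NS φ := by
    intro c hc
    have hu : ∀ v, s (v + x v) = c • (v + x v) := fun v => by
      have hm : v + x v ∈ Eig x := by
        rw [mem_eig, map_add, show x (x v) = v by
          simpa using congrArg (fun g : Module.End F V => g v) h.x_sq, add_comm]
      simpa [hφ] using congrArg (fun g : Module.End F (Eig x) => ((g ⟨_, hm⟩ : Eig x) : V)) hc
    have e : s + s * x = c • (1 : Module.End F V) + c • x := LinearMap.ext fun v => by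
      simpa [smul_add] using hu v
    have e2 := congrArg (fun g => LinearMap.trace F V (s * g)) e
    simp only [mul_add, ← mul_assoc, h.s_sq, one_mul, mul_smul_comm, mul_one, map_add, map_smul,
      trace_one_four hn, trace_zero hD h.x_mem h.x_ns, trace_zero hD h.s_mem h.s_ns,
      ← h.comm, trace_zero hD (hD.mul_mem _ h.x_mem _ h.s_mem) h.xs_ns, smul_zero, add_zero] at e2
    rw [mul_assoc x s s, h.s_sq, mul_one, trace_zero hD h.x_mem h.x_ns, add_zero] at e2
    exact four_ne hD e2
  have hd := finrank_eig_of_mem (hD.res h.x_mem h.x_sq) (resEl_mem h.s_mem h.comm)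
    (LinearMap.ext fun u => Subtype.ext (by
      simpa using congrArg (fun g : Module.End F V => g (u : V)) h.s_sq)) hφns
  have hd1 : Module.finrank F (Eig φ) = 1 := by
    rw [← hφ] at hd; omega
  obtain ⟨u₀, hu₀, hspan⟩ := finrank_eq_one_iff'.1 hd1
  have hjoint : ∀ v : V, x v = v → s v = v → ∃ c : F, v = c • ((u₀ : Eig x) : V) := fun v hxv hsv => by
    obtain ⟨c, hc⟩ := hspan ⟨⟨v, mem_eig.2 hxv⟩, mem_eig.2 (Subtype.ext (by simpa [hφ] using hsv))⟩
    exact ⟨c, (congrArg (fun z : Eig φ => (((z : Eig x)) : V)) hc).symm⟩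
  set v₀ : V := ((u₀ : Eig x) : V) with hv₀
  have hx0 : x v₀ = v₀ := mem_eig.1 (u₀ : Eig x).2
  have hs0 : s v₀ = v₀ := by
    have := congrArg (fun z : Eig x => (z : V)) (mem_eig.1 u₀.2)
    simpa [hφ] using this
  obtain ⟨l, hl⟩ := hjoint (w v₀)
    (by rw [← Module.End.mul_apply, hwx, Module.End.mul_apply, hx0])
    (by rw [← Module.End.mul_apply, hws, Module.End.mul_apply, hs0])
  refine ⟨l, LinearMap.ext fun v => ?_⟩
  have hxP : x * ((1 + x) * (1 + s)) = (1 + x) * (1 + s) := by
    rw [← mul_assoc, show x * (1 + x) = 1 + x by rw [mul_add, mul_one, h.x_sq, add_comm]]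
  have hsP : s * ((1 + x) * (1 + s)) = (1 + x) * (1 + s) := by
    have e : s * (1 + x) = (1 + x) * s := by rw [mul_add, mul_one, add_mul, one_mul, h.comm]
    rw [← mul_assoc, e, mul_assoc, show s * (1 + s) = 1 + s by rw [mul_add, mul_one, h.s_sq, add_comm]]
  obtain ⟨c, hc⟩ := hjoint (((1 + x) * (1 + s) : Module.End F V) v)
    (by rw [← Module.End.mul_apply, hxP]) (by rw [← Module.End.mul_apply, hsP])
  rw [Module.End.mul_apply, LinearMap.smul_apply, hc, map_smul, hl, smul_comm]

/-- The commutant of two independent involutions. -/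
theorem span_four (hD : Data i R) (hn : Module.finrank F V = 4) (h : Two R x s)
    {w : Module.End F V} (hwx : x * w = w * x) (hws : s * w = w * s) :
    ∃ a b c d : F, w = a • 1 + b • x + c • s + d • (x * s) := by
  have hnx : (-x) * w = w * (-x) := by rw [neg_mul, hwx, mul_neg]
  have hns : (-s) * w = w * (-s) := by rw [neg_mul, hws, mul_neg]
  obtain ⟨l₁, h₁⟩ := h.joint hD hn hwx hws
  obtain ⟨l₂, h₂⟩ := (h.neg_left hD).joint hD hn hnx hws
  obtain ⟨l₃, h₃⟩ := (h.neg_right hD).joint hD hn hwx hns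
  obtain ⟨l₄, h₄⟩ := ((h.neg_left hD).neg_right hD).joint hD hn hnx hns
  refine ⟨(4 : F)⁻¹ * (l₁ + l₂ + l₃ + l₄), (4 : F)⁻¹ * (l₁ - l₂ + l₃ - l₄),
    (4 : F)⁻¹ * (l₁ + l₂ - l₃ - l₄), (4 : F)⁻¹ * (l₁ - l₂ - l₃ + l₄), ?_⟩
  have e : (4 : F) • w = w * ((1 + x) * (1 + s)) + w * ((1 + -x) * (1 + s))
      + w * ((1 + x) * (1 + -s)) + w * ((1 + -x) * (1 + -s)) := by
    simp only [mul_add, add_mul, one_mul, mul_one, neg_mul, mul_neg, neg_neg]
    module
  rw [h₁, h₂, h₃, h₄] at e
  rw [← inv_smul_smul₀ (four_ne hD) w, e]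
  simp only [mul_add, add_mul, one_mul, mul_one, neg_mul, mul_neg, neg_neg]
  module

/-- Traces of combinations of `1, x, s, xs`. -/
theorem trace_comb (hD : Data i R) (hn : Module.finrank F V = 4) (h : Two R x s) (a b c d : F) :
    LinearMap.trace F V (a • 1 + b • x + c • s + d • (x * s)) = 4 * a := by
  simp only [map_add, map_smul, trace_one_four hn, trace_zero hD h.x_mem h.x_ns,
    trace_zero hD h.s_mem h.s_ns, trace_zero hD (hD.mul_mem _ h.x_mem _ h.s_mem) h.xs_ns,
    smul_eq_mul, mul_zero, add_zero]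
  ring

theorem mul_table (h : Two R x s) :
    s * x = x * s ∧ x * (x * s) = s ∧ s * (x * s) = x ∧ (x * s) * x = s ∧ (x * s) * s = x
      ∧ (x * s) * (x * s) = 1 := by
  refine ⟨h.comm.symm, ?_, ?_, ?_, ?_, sq_mul_of_comm h.x_sq h.s_sq h.comm⟩
  · rw [← mul_assoc, h.x_sq, one_mul]
  · rw [← mul_assoc, ← h.comm, mul_assoc, h.s_sq, mul_one]
  · rw [h.comm, mul_assoc, h.x_sq, mul_one]
  · rw [mul_assoc, h.s_sq, mul_one]

/-- Uniqueness of the coefficients. -/
theorem coeff_zero (hD : Data i R) (hn : Module.finrank F V = 4) (h : Two R x s) {a b c d : F}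
    (e : a • (1 : Module.End F V) + b • x + c • s + d • (x * s) = 0) :
    a = 0 ∧ b = 0 ∧ c = 0 ∧ d = 0 := by
  obtain ⟨t0, t1, t2, t3, t4, t5⟩ := h.mul_table
  have key : ∀ a' b' c' d' : F,
      a' • (1 : Module.End F V) + b' • x + c' • s + d' • (x * s) = 0 → a' = 0 := fun a' b' c' d' e' => by
    have := h.trace_comb hD hn a' b' c' d'
    rw [e', map_zero] at this
    exact (mul_eq_zero.1 this.symm).resolve_left (four_ne hD)
  refine ⟨key a b c d e, key b a d c ?_, key c d a b ?_, key d c b a ?_⟩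
  · have e' := congrArg (fun g => g * x) e
    simp only [add_mul, smul_mul_assoc, one_mul, h.x_sq, t0, t3, zero_mul] at e'
    rw [← e']; abel
  · have e' := congrArg (fun g => g * s) e
    simp only [add_mul, smul_mul_assoc, one_mul, h.s_sq, t4, zero_mul] at e'
    rw [← e']; abel
  · have e' := congrArg (fun g => g * (x * s)) e
    simp only [add_mul, smul_mul_assoc, one_mul, t1, t2, t5, zero_mul] at e'
    rw [← e']; abel

/-- The elements of `R` commuting with both. -/
theorem mem_four (hD : Data i R) (hn : Module.finrank F V = 4) (h : Two R x s)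
    {w : Module.End F V} (hw : w ∈ R) (hwx : x * w = w * x) (hws : s * w = w * s) :
    ∃ c : F, w = c • (1 : Module.End F V) ∨ w = c • x ∨ w = c • s ∨ w = c • (x * s) := by
  obtain ⟨t0, t1, t2, t3, t4, t5⟩ := h.mul_table
  obtain ⟨a, b, c, d, e⟩ := h.span_four hD hn hwx hws
  by_contra hcon
  push Not at hcon
  have key : ∀ q ∈ R, q * q = 1 → (∀ t : F, w ≠ t • q) → LinearMap.trace F V (w * q) = 0 :=
    fun q hq hqq hne => trace_zero hD (hD.mul_mem _ hw _ hq) fun t ht =>
      hne t (eq_scalar_mul hqq ht)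
  have h0 := key 1 hD.one_mem (one_mul 1) fun t => (hcon t).1
  have h1 := key x h.x_mem h.x_sq fun t => (hcon t).2.1
  have h2 := key s h.s_mem h.s_sq fun t => (hcon t).2.2.1
  have h3 := key (x * s) (hD.mul_mem _ h.x_mem _ h.s_mem) t5 fun t => (hcon t).2.2.2
  have hzero : ∀ t : F, (4 : F) * t = 0 → t = 0 := fun t ht =>
    (mul_eq_zero.1 ht).resolve_left (four_ne hD)
  rw [mul_one, e, h.trace_comb hD hn] at h0
  have e1 : w * x = b • 1 + a • x + d • s + c • (x * s) := by
    rw [e]; simp only [add_mul, smul_mul_assoc, one_mul, h.x_sq, t0, t3]; abel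
  have e2 : w * s = c • 1 + d • x + a • s + b • (x * s) := by
    rw [e]; simp only [add_mul, smul_mul_assoc, one_mul, h.s_sq, t4]; abel
  have e3 : w * (x * s) = d • 1 + c • x + b • s + a • (x * s) := by
    rw [e]; simp only [add_mul, smul_mul_assoc, one_mul, t1, t2, t5]; abel
  rw [e1, h.trace_comb hD hn] at h1
  rw [e2, h.trace_comb hD hn] at h2
  rw [e3, h.trace_comb hD hn] at h3
  refine (hD.isUnit hw).ne_zero ?_
  rw [e, hzero _ h0, hzero _ h1, hzero _ h2, hzero _ h3]
  simp

end Two

omit [FiniteDimensional F V] in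
/-- A non-scalar involution anticommuting with two given ones. -/
theorem exists_anti_both (hD : Data i R) {b c : Module.End F V} (hb : b ∈ R) (hbns : NS b)
    (hc : c ∈ R) (hcns : NS c) :
    ∃ u ∈ R, u * u = 1 ∧ b * u = -(u * b) ∧ c * u = -(u * c) := by
  obtain ⟨u, hu, huu, hbu⟩ := hD.exists_anticomm hb hbns
  rcases hD.comm_sign c hc u hu with hcu | hcu
  swap
  · exact ⟨u, hu, huu, hbu, hcu⟩
  obtain ⟨v, hv, hvv, hcv⟩ := hD.exists_anticomm hc hcns
  rcases hD.comm_sign b hb v hv with hbv | hbv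
  swap
  · exact ⟨v, hv, hvv, hbv, hcv⟩
  have h1 : b * (u * v) = -((u * v) * b) := by
    rw [← mul_assoc, hbu, neg_mul, mul_assoc, hbv, ← mul_assoc]
  have h2 : c * (u * v) = -((u * v) * c) := by
    rw [← mul_assoc, hcu, mul_assoc, hcv, mul_neg, ← mul_assoc]
  obtain ⟨e, he, hem, hesq⟩ := hD.exists_sq_one (hD.mul_mem _ hu _ hv)
  exact ⟨_, hem, hesq, by rw [mul_smul_comm, h1, smul_neg, smul_mul_assoc],
    by rw [mul_smul_comm, h2, smul_neg, smul_mul_assoc]⟩

end Cfsg.Agent.MaxSub.SLFour.Pair
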