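import Cfsg.Agent.MaxSub.SLFour.PairSign

/-!
Conjugations inside `R` by products of two quarter turns, and the exclusion of transvections.
-/

set_option autoImplicit false
set_option maxSynthPendingDepth 3

namespace Cfsg.Agent.MaxSub.SLFour.Pair

open CSix

variable {F : Type*} [Field F] {V : Type*} [AddCommGroup V] [Module F V]
variable [Nontrivial V] [FiniteDimensional F V] {i : F} {R G : Set (Module.End F V)}

omit [Nontrivial V] [FiniteDimensional F V] in
theorem Sg.exists_sign {f g : Module.End F V} (h : Sg f g) :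
    ∃ e : F, e * e = 1 ∧ f * g = e • (g * f) := by
  rcases h with h | h
  · exact ⟨1, one_mul 1, by rw [h, one_smul]⟩
  · exact ⟨-1, by ring, by rw [h, neg_one_smul]⟩

omit [Nontrivial V] [FiniteDimensional F V] in
theorem Sg.of_sign {f g : Module.End F V} {e : F} (he : e * e = 1) (h : f * g = e • (g * f)) :
    Sg f g := by
  rcases mul_self_eq_one_iff.1 he with rfl | rfl
  · exact Or.inl (by rw [h, one_smul])
  · exact Or.inr (by rw [h, neg_one_smul])

namespace PGrp

omit [Nontrivial V] [FiniteDimensional F V] in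
theorem cls_of_mem (hP : PGrp i R G) {x : Module.End F V} (hxR : x ∈ R) (hx : x * x = 1)
    (hns : NS x) : Cls R G x :=
  ⟨1, hP.one_mem, 1, hP.one_mem, one_mul 1, one_mul 1, x, hxR, hx, hns, by simp⟩

omit [Nontrivial V] [FiniteDimensional F V] in
theorem cls_conj (hP : PGrp i R G) {y k k' : Module.End F V} (h : Cls R G y) (hk : k ∈ G)
    (hk' : k' ∈ G) (h1 : k * k' = 1) (h2 : k' * k = 1) : Cls R G (k * y * k') := by
  obtain ⟨g, hg, g', hg', e1, e2, x, hxR, hx, hns, rfl⟩ := h
  exact ⟨k * g, hP.mul_mem _ hk _ hg, g' * k', hP.mul_mem _ hg' _ hk', inv_mul_mul e1 h1,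
    inv_mul_mul h2 e2, x, hxR, hx, hns, by simp only [mul_assoc]⟩

omit [Nontrivial V] [FiniteDimensional F V] in
theorem cls_mem_grp (hP : PGrp i R G) {y : Module.End F V} (h : Cls R G y) : y ∈ G := by
  obtain ⟨g, hg, g', hg', -, -, x, hxR, -, -, rfl⟩ := h
  exact hP.mul_mem _ (hP.mul_mem _ hg _ (hP.sub hxR)) _ hg'

end PGrp

section Conj

variable (hD : Data i R) (hP : PGrp i R G)
include hD hP

omit [FiniteDimensional F V] in
/-- Two anticommuting involutions are conjugate by a product of two quarter turns. -/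
theorem exists_conj_anti {b c : Module.End F V} (hbR : b ∈ R) (hb : b * b = 1) (hcR : c ∈ R)
    (hc : c * c = 1) (h : b * c = -(c * b)) :
    ∃ m ∈ G, Nrm R m ∧ m * b = c * m := by
  refine ⟨_, hP.tt_mem b hbR hb (hD.ns_of_anticomm hcR hbR h) c hcR hc
    (hD.ns_of_anticomm hbR hcR (anti_symm h)), (nrm_qt hD hbR hb).mul (nrm_qt hD hcR hc), ?_⟩
  have e : b * (c * b) = -c := by rw [← mul_assoc, h, neg_mul, mul_assoc, hb, mul_one]
  have h' : b * (c * b) = -((c * b) * b) := by rw [e, mul_assoc, hb, mul_one]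
  calc qt i b * qt i c * b = qt i b * ((i • (c * b)) * qt i c) := by
        rw [mul_assoc, qt_anti hD hc (anti_symm h)]
    _ = i • (qt i b * (c * b) * qt i c) := by
        rw [smul_mul_assoc, mul_smul_comm]; simp only [mul_assoc]
    _ = c * (qt i b * qt i c) := by
        rw [qt_anti hD hb h', e, smul_neg, neg_mul, neg_mul, smul_neg, smul_mul_assoc,
          smul_mul_assoc, smul_smul, hD.sq_i, neg_one_smul, neg_neg, mul_assoc]

omit [FiniteDimensional F V] in
/-- The non-scalar involutions of `R` are conjugate up to scalars in `G`. -/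
theorem exists_conj {b c : Module.End F V} (hbR : b ∈ R) (hb : b * b = 1) (hbns : NS b)
    (hcR : c ∈ R) (hc : c * c = 1) (hcns : NS c) :
    ∃ m ∈ G, Nrm R m ∧ ∃ l : F, m * b = l • (c * m) := by
  rcases hD.comm_sign b hbR c hcR with h | h
  swap
  · obtain ⟨m, hm, hN, e⟩ := exists_conj_anti hD hP hbR hb hcR hc h
    exact ⟨m, hm, hN, 1, by rw [e, one_smul]⟩
  by_cases hbc : NS (b * c)
  · obtain ⟨u, huR, hu, hbu, hcu⟩ := exists_anti_both hD hbR hbns hcR hcns
    obtain ⟨m, hm, hN, e⟩ := exists_conj_anti hD hP hbR hb huR hu hbu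
    obtain ⟨m', hm', hN', e'⟩ := exists_conj_anti hD hP huR hu hcR hc (anti_symm hcu)
    exact ⟨m' * m, hP.mul_mem _ hm' _ hm, hN'.mul hN, 1,
      by rw [one_smul, mul_assoc, e, ← mul_assoc, e', mul_assoc]⟩
  · simp only [NS, not_forall, not_not] at hbc
    obtain ⟨l, hl⟩ := hbc
    exact ⟨1, hP.one_mem, fun a ha => ⟨a, ha, by simp⟩, l,
      by rw [one_mul, mul_one, eq_scalar_mul hc hl]⟩

omit [FiniteDimensional F V] in
/-- An element moving a non-scalar involution of `R` into `R` normalises `R`. -/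
theorem nrm_of_conj [Finite (Module.End F V)] (hCen : CenNrm R G) {g g' c : Module.End F V}
    (hg : g ∈ G) (h1 : g * g' = 1) (h2 : g' * g = 1) (hcR : c ∈ R) (hc : c * c = 1)
    (hcns : NS c) (hgc : g * c * g' ∈ R) : Nrm R g := by
  set b := g * c * g' with hb
  have hb2 : b * b = 1 := by rw [hb, conj_mul_conj h2, hc, mul_one, h1]
  have hbns : NS b := fun l hl => hcns l (by
    rw [← conj_conj h2 c, ← hb, hl, mul_smul_comm, mul_one, smul_mul_assoc, h2])
  obtain ⟨m, hm, hN, l, hml⟩ := exists_conj hD hP hgc hb2 hbns hcR hc hcns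
  obtain ⟨m', -, m1, m2⟩ := hP.inv_mem m hm
  have hPC : PC (g * m) b := by
    refine ⟨l, ?_⟩
    calc g * m * b = l • (g * (c * m)) := by rw [mul_assoc, hml, mul_smul_comm]
      _ = l • (g * c * g' * (g * m)) := by
          rw [show g * c * g' * (g * m) = g * c * (g' * g) * m by simp only [mul_assoc], h2,
            mul_one, mul_assoc]
      _ = l • (b * (g * m)) := by rw [hb]
  have := (hCen _ (hP.mul_mem _ hg _ hm) b hgc hbns hPC).mul (hN.inv m1 m2)
  rwa [mul_assoc, m1, mul_one] at this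

omit [FiniteDimensional F V] in
/-- No element of `G` acts on `R` as the quarter turn of `a`. -/
theorem turn_false [Finite (Module.End F V)] (hNo : NoTurn i R G) {a c : Module.End F V}
    (haR : a ∈ R) (ha : a * a = 1) (hns : NS a) (hc : c ∈ G)
    (hcomm : ∀ s ∈ R, s * s = 1 → a * s = s * a → Sg c s)
    (hanti : ∀ s ∈ R, s * s = 1 → a * s = -(s * a) →
      c * s = (i • (a * s)) * c ∨ c * s = -((i • (a * s)) * c)) : False := by
  obtain ⟨c', hc', c1, c2⟩ := hP.inv_mem c hc
  set f := qt' i a * c with hf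
  have hfu : IsUnit f := by
    refine IsUnit.mul ⟨⟨qt' i a, qt i a, qt'_mul_qt hD ha, qt_mul_qt' hD ha⟩, rfl⟩ (hP.isUnit hc)
  have key : ∀ s ∈ R, s * s = 1 → Sg f s := by
    intro s hs hss
    rcases hD.comm_sign a haR s hs with h | h
    · rcases hcomm s hs hss h with e | e
      · exact Or.inl (by rw [hf, mul_assoc, e, ← mul_assoc, qt'_comm h, mul_assoc])
      · exact Or.inr (by rw [hf, mul_assoc, e, mul_neg, ← mul_assoc, qt'_comm h, mul_assoc])
    · have h1 : qt' i a * (i • (a * s)) = s * qt' i a := by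
        have hasa : a * (s * a) = -s := by
          rw [← mul_assoc, h, neg_mul, mul_assoc, ha, mul_one]
        rw [mul_smul_comm, ← mul_assoc, qt'_comm (a := a) (s := a) rfl, mul_assoc,
          qt'_anti hD ha h, smul_mul_assoc, mul_smul_comm, ← mul_assoc, hasa, smul_smul, hD.sq_i,
          neg_one_smul, neg_mul, neg_neg]
      rcases hanti s hs hss h with e | e
      · exact Or.inl (by rw [hf, mul_assoc, e, ← mul_assoc, h1, mul_assoc])
      · exact Or.inr (by rw [hf, mul_assoc, e, mul_neg, ← mul_assoc, h1, mul_assoc])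
  obtain ⟨κ, r, hr, hfr⟩ := hD.exists_eq_smul_of_sign hfu.ne_zero fun b hb => by
    obtain ⟨e, he, hem, hesq⟩ := hD.exists_sq_one hb
    rcases Sg.of_smul_right he (key _ hem hesq) with h | h
    · exact Or.inl h.symm
    · exact Or.inr (anti_symm h)
  have hκ : κ ≠ 0 := fun h0 => hfu.ne_zero (by rw [hfr, h0, zero_smul])
  have hq : qt' i a ∈ G := by
    have : qt' i a = κ • r * c' := by rw [← hfr, hf, mul_assoc, c1, mul_one]
    rw [this]
    exact hP.mul_mem _ (hP.smul_mem' hκ (hP.sub hr)) _ hc'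
  exact hNo a haR ha hns (hP.inv_mem_of hq (qt_mul_qt' hD ha))

end Conj

end Cfsg.Agent.MaxSub.SLFour.Pair
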