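import Cfsg.Agent.DecompMax.LinearMat

/-!
Stabilisers of a decomposition of a four-dimensional space into two planes are maximal in the
special linear group, over fields with at least four elements.
-/

set_option autoImplicit false
set_option linter.style.haveILetI false
set_option linter.unusedSectionVars false

namespace Cfsg.Agent.MaxSub.SLFour

open Matrix Cfsg.Geo Cfsg.Agent.MaxSub.SubfieldMax Cfsg.Agent.DecompMax Cfsg.Agent.DecompMax.Lin Module
open scoped MatrixGroups Matrix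

variable {F : Type*} [Field F]

theorem exists_zeta [Fintype F] (hq : 4 ≤ Fintype.card F) : ∃ ζ : F, ζ ≠ 0 ∧ ζ * ζ ≠ 1 := by
  classical
  obtain ⟨z, -, hz⟩ := Finset.exists_mem_notMem_of_card_lt_card (s := ({0, 1, -1} : Finset F))
    (t := Finset.univ) (by rw [Finset.card_univ]; exact Finset.card_le_three.trans_lt hq)
  simp only [Finset.mem_insert, Finset.mem_singleton, not_or] at hz
  exact ⟨z, hz.1, fun e => (mul_self_eq_one_iff.1 e).elim hz.2.1 hz.2.2⟩

/-- Two blocks of size two. -/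
theorem of_two_two {M : Subgroup (GL (Fin 2 × Fin 2) F)} (H : Hyp M) (hζ : ∃ ζ : F, ζ ≠ 0 ∧ ζ * ζ ≠ 1)
    {u a : Fin 2 × Fin 2 → F} (h : Root M u a) (hu : TwoBlocks u) (ha : a ≠ 0) :
    specialLinear (Fin 2 × Fin 2) F ≤ M := by
  classical
  by_contra hno
  obtain ⟨y₁, y₂, h12, h1, h2⟩ := hu
  have hb : ∀ {u a : Fin 2 × Fin 2 → F}, Root M u a → u y₁ ≠ 0 → u y₂ ≠ 0 → a ≠ 0 → Bad u a :=
    fun h h1 h2 ha => (H.bad_or h ⟨_, _, h12, h1, h2⟩ ha).resolve_left hno
  have b0 := hb h h1 h2 ha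
  obtain ⟨u₁, a₁, hr, ho, e1, e1', ea⟩ := H.normalise h h1
  have ha1 : a₁ ≠ 0 := fun e => (b0 y₁).2.1 h1 (by rw [← ea, e]; rfl)
  have hu12 : u₁ y₂ ≠ 0 := (ho y₂ h12.symm).1 ▸ h2
  have b1 := hb hr (e1 ▸ h1) hu12 ha1
  obtain ⟨u₂, a₂, hr₂, ho₂, e2, e2', ea₂⟩ := H.normalise hr hu12
  set z₁ := mate y₁ with hz₁
  set z₂ := mate y₂ with hz₂
  have hu21 : u₂ y₁ ≠ 0 := (ho₂ y₁ h12).1 ▸ e1 ▸ h1
  have hu2z : u₂ z₁ = 0 := (ho₂ z₁ h12).1 ▸ e1'
  have hz1 : a₂ z₁ ≠ 0 := (ho₂ z₁ h12).2 ▸ (b1 y₁).2.1 (e1 ▸ h1)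
  have b2 := hb hr₂ hu21 (e2 ▸ hu12) (fun e => hz1 (congrFun e _))
  have hz2 : a₂ z₂ ≠ 0 := (b2 y₂).2.1 (e2 ▸ hu12)
  have hy1 : a₂ y₁ = 0 := by
    have := (b2 y₁).2.2
    rw [hu2z, mul_zero, add_zero] at this
    exact (mul_eq_zero.1 this).resolve_right hu21
  have hy2 : a₂ y₂ = 0 := by
    have := (b2 y₂).2.2
    rw [e2', mul_zero, add_zero] at this
    exact (mul_eq_zero.1 this).resolve_right (e2 ▸ hu12)
  obtain ⟨ζ, hζ0, hζ1⟩ := hζ
  have hz12 : z₁ ≠ z₂ := fun e => h12 (show z₁.2 = z₂.2 from e ▸ rfl)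
  let d : Fin 2 × Fin 2 → Fˣ := Function.update (Function.update (fun _ => 1) z₁ (Units.mk0 ζ hζ0)) z₂
    (Units.mk0 ζ hζ0)⁻¹
  have hd : ∀ x, x ≠ z₁ → x ≠ z₂ → d x = 1 := fun x hx hx' => by
    simp [d, Function.update_of_ne hx, Function.update_of_ne hx']
  have hdz1 : d z₁ = Units.mk0 ζ hζ0 := by simp [d, Function.update_of_ne hz12]
  have hdz2 : d z₂ = (Units.mk0 ζ hζ0)⁻¹ := by simp [d]
  have hdet : ((Equiv.Perm.sign (1 : Equiv.Perm (Fin 2 × Fin 2)) : ℤˣ) : F) * ∏ i, (d i : F) = 1 := by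
    rw [← Units.coe_prod, Finset.prod_eq_mul z₁ z₂ hz12 (fun c _ hc => hd c hc.1 hc.2) (by simp) (by simp),
      hdz1, hdz2]
    simp
  have hg := hr₂.conj (H.mon 1 d (fun x y e => e) (monGL_mem_specialLinear hdet))
  have hfix : ((monGL 1 d : GL (Fin 2 × Fin 2) F) : Matrix (Fin 2 × Fin 2) (Fin 2 × Fin 2) F) *ᵥ u₂ = u₂ := by
    funext x
    have hx' := monGL_mulVec 1 d u₂ x
    rw [Equiv.Perm.one_apply] at hx'
    rw [hx']
    by_cases hx : x = z₁
    · rw [hx, hu2z, mul_zero]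
    by_cases hx2 : x = z₂
    · rw [hx2, e2', mul_zero]
    · rw [hd x hx hx2, Units.val_one, one_mul]
  rw [hfix] at hg
  set b := a₂ - ζ • (a₂ ᵥ* ((monGL 1 d)⁻¹ : GL (Fin 2 × Fin 2) F).1)
  have hb' : ∀ x, b x = a₂ x - ζ * (a₂ x * (((d x)⁻¹ : Fˣ) : F)) := fun x => by
    have := vecMul_inv_monGL 1 d a₂ x
    rw [Equiv.Perm.one_apply] at this
    simp only [b, Pi.sub_apply, Pi.smul_apply, smul_eq_mul, this]
  have hb1 : b z₁ = 0 := by
    rw [hb', hdz1]; simp; field_simp; ring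
  have hb2 : b z₂ ≠ 0 := by
    rw [hb', hdz2, inv_inv]
    simp only [Units.val_mk0]
    rw [show a₂ z₂ - ζ * (a₂ z₂ * ζ) = a₂ z₂ * (1 - ζ * ζ) by ring]
    exact mul_ne_zero hz2 (sub_ne_zero.2 fun e => hζ1 e.symm)
  have hbs : Supp y₂.2 b := fun x hx => by
    have hx1 : x.2 = y₁.2 := by
      have := hx; revert h12; revert this
      generalize x.2 = p; generalize y₁.2 = q; generalize y₂.2 = r
      revert p q r; decide
    rcases eq_or_mate hx1 with rfl | rfl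
    · rw [hb', hy1]; ring
    · exact hb1
  exact hno (H.single_axis (hr₂.sub_right (hg.smul_right ζ))
    ⟨y₁, y₂, h12, hu21, e2 ▸ hu12⟩ hbs (fun e => hb2 (congrFun e z₂)))

variable {ι : Type} [Fintype ι] [DecidableEq ι]

/-- Decompositions into two planes give maximal subgroups of the special linear group. -/
theorem planes_maximal [Fintype F] (hq : 4 ≤ Fintype.card F) (D : Fin 2 → Submodule F (ι → F))
    (hD : IsMDecomposition 2 D) :
    IsMaximalIn (specialLinear ι F) (decompositionStabilizer D ⊓ specialLinear ι F) := by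
  classical
  obtain ⟨b, hb⟩ := ClassicalMax.exists_adapted_basis hD
  have hcard : Fintype.card ι = 2 * 2 := by
    rw [← Module.finrank_fintype_fun_eq_card (R := F), Module.finrank_eq_card_basis b]; simp
  haveI : Nontrivial ι := Fintype.one_lt_card_iff_nontrivial.1 (by omega)
  refine ⟨lt_of_le_not_ge inf_le_right fun hle =>
    MaxSub.not_le_decompositionStabilizer hD (hle.trans inf_le_left), fun M hM hMK => ?_⟩
  by_cases hMW : M ≤ decompositionStabilizer D
  · exact Or.inl (le_antisymm (le_inf hMW hMK) hM)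
  refine Or.inr (le_antisymm hMK ?_)
  set E := inBasis b
  set M' : Subgroup (GL (Fin 2 × Fin 2) F) := M.map E.toMonoidHom
  suffices hS : specialLinear (Fin 2 × Fin 2) F ≤ M' by
    intro g hg
    obtain ⟨y, hy, e⟩ := hS ((inBasis_mem_specialLinear b g).2 hg)
    rwa [← E.injective e]
  have hlift : ∀ h : GL (Fin 2 × Fin 2) F, h ∈ specialLinear _ F →
      (∀ i v, Supp i v → ∃ j, Supp j ((h : Matrix (Fin 2 × Fin 2) (Fin 2 × Fin 2) F) *ᵥ v)) → h ∈ M' :=
    fun h hh hst => by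
      refine ⟨E.symm h, hM ⟨mem_stab_of_supp hD hb ?_, ?_⟩, E.apply_symm_apply h⟩
      · rw [show inBasis b (E.symm h) = h from E.apply_symm_apply h]; exact hst
      · show E.symm h ∈ specialLinear ι F
        rw [← inBasis_mem_specialLinear b, show inBasis b (E.symm h) = h from E.apply_symm_apply h]
        exact hh
  have hmon : ∀ π d, (∀ x y : Fin 2 × Fin 2, x.2 = y.2 → (π x).2 = (π y).2) →
      monGL π d ∈ specialLinear (Fin 2 × Fin 2) F → monGL π d ∈ M' := fun π d hπ hh =>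
    hlift _ hh fun i v hv => ⟨_, monGL_maps_blocks hD.pos π d hπ i v hv⟩
  obtain ⟨g, hgM, hgD⟩ := SetLike.not_le_iff_exists.1 hMW
  have hg' : E g ∈ M' := ⟨g, hgM, rfl⟩
  have H : Hyp M' :=
    { two := le_rfl
      mon := hmon
      block := fun i u a hu ha h0 => ⟨h0, fun c => by
        have hc : a ⬝ᵥ (c • u) = 0 := by rw [dotProduct_smul, h0, smul_zero]
        refine ⟨vmvGL (c • u) a hc, hlift _ ?_ fun j v hv => ⟨j, ?_⟩, rfl⟩
        · rw [GeoClasses.mem_specialLinear_iff]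
          show (1 + vecMulVec (c • u) a).det = 1
          rw [det_one_add_vmv, hc, add_zero]
        · show Supp j ((1 + vecMulVec (c • u) a) *ᵥ v)
          rw [Matrix.add_mulVec, Matrix.one_mulVec, Matrix.vecMulVec_mulVec]
          intro x hx
          by_cases hji : j = i
          · simp [hv x hx, hu x (hji ▸ hx)]
          · have h0 : a ⬝ᵥ v = 0 := Finset.sum_eq_zero fun z _ => by
              by_cases hz : z.2 = i
              · rw [hv z (fun e => hji (e.symm.trans hz)), mul_zero]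
              · rw [ha z hz, zero_mul]
            simp [hv x hx, h0]⟩ }
  obtain ⟨i, x, hx, hxall⟩ : ∃ i, ∃ x ∈ D i, ∀ j, (g : Matrix ι ι F) *ᵥ x ∉ D j := by
    by_contra hc
    push Not at hc
    exact hgD (mem_stabilizer_of_forall_mem hD hc)
  set x' := b.equivFun x
  set u := ((E g : GL (Fin 2 × Fin 2) F) : Matrix (Fin 2 × Fin 2) (Fin 2 × Fin 2) F) *ᵥ x' with hu
  have hu0 : u ≠ 0 := fun e => hxall i (by
    rw [hu, inBasis_mulVec, LinearEquiv.map_eq_zero_iff] at e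
    rw [e]; exact zero_mem _)
  have hu2 : TwoBlocks u := (supp_or_twoBlocks u hu0).resolve_left fun ⟨j, hj⟩ =>
    hxall j ((mem_iff_supp hb).2 (by rwa [hu, inBasis_mulVec] at hj))
  obtain ⟨y', hy'⟩ := H.exists_other ((0 : Fin 2), i)
  set y : Fin 2 × Fin 2 := (0, i) with hy
  obtain ⟨a, ha, hax, ha0⟩ : ∃ a, Supp i a ∧ a ⬝ᵥ x' = 0 ∧ a ≠ 0 := by
    by_cases hxy : x' y = 0
    · exact ⟨ev F y, supp_ev y, by rw [ev_dot, hxy], fun e => by simpa [ev] using congrFun e y⟩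
    · refine ⟨x' y' • ev F y - x' y • ev F y', fun z hz => ?_, ?_, fun e => hxy ?_⟩
      · simp [supp_ev y z hz, supp_ev y' z (hy'.2 ▸ hz)]
      · simp [sub_dotProduct, ev_dot, mul_comm]
      · have := congrFun e y'
        simpa [ev, Pi.single_eq_of_ne hy'.1] using this
  have hr := (H.block i x' a ((mem_iff_supp hb).1 hx) ha hax).conj hg'
  have hne : a ᵥ* ((E g)⁻¹ : GL (Fin 2 × Fin 2) F).1 ≠ 0 := fun e => ha0 (by
    have := congrArg (· ᵥ* ((E g : GL (Fin 2 × Fin 2) F) : Matrix (Fin 2 × Fin 2) (Fin 2 × Fin 2) F)) e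
    simpa [Matrix.vecMul_vecMul, ← Units.val_mul] using this)
  exact of_two_two H (exists_zeta hq) hr hu2 hne

end Cfsg.Agent.MaxSub.SLFour
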