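import Cfsg.Agent.GeoClasses.OrthSimMax

/-!
The similarity group of a quadratic form is maximal in the special linear group of a
four-dimensional space, in odd characteristic.
-/

set_option autoImplicit false
set_option linter.unusedSectionVars false

namespace Cfsg.Agent.MaxSub.SLFour

open QuadraticMap Module Cfsg.Agent.Classical Cfsg.Agent.GeoClasses Cfsg.Geo
open scoped Matrix

universe u

variable {F : Type u} [Field F] [Finite F] {ι : Type} [Fintype ι] [DecidableEq ι]

/-- An element of `SL` given by finitely many rank one updates. -/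
theorem exists_update {n : ℕ} (φ : Fin n → ((ι → F) →ₗ[F] F)) (a : Fin n → ι → F)
    (h : (1 + Matrix.of fun i j => φ i (a j) : Matrix (Fin n) (Fin n) F).det = 1) :
    ∃ g ∈ specialLinear ι F, ∀ z, ((g : GL ι F) : Matrix ι ι F) *ᵥ z = z + ∑ k, φ k z • a k := by
  classical
  set A : Matrix ι (Fin n) F := Matrix.of fun i k => a k i
  set B : Matrix (Fin n) ι F := Matrix.of fun k i => φ k (Pi.single i 1)
  have hφ : ∀ k z, φ k z = ∑ i, z i * φ k (Pi.single i 1) := fun k z => by
    conv_lhs => rw [pi_eq_sum_univ' z, map_sum]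
    simp
  have hBA : B * A = Matrix.of fun i j => φ i (a j) := by
    ext i j
    rw [Matrix.mul_apply, Matrix.of_apply, hφ i (a j)]
    exact Finset.sum_congr rfl fun x _ => mul_comm _ _
  have hdet : (1 + A * B).det = 1 := by rw [Matrix.det_one_add_mul_comm, hBA, h]
  refine ⟨Matrix.GeneralLinearGroup.mkOfDetNeZero (1 + A * B) (by rw [hdet]; exact one_ne_zero),
    (mem_specialLinear_iff).2 hdet, fun z => ?_⟩
  show (1 + A * B) *ᵥ z = _
  rw [Matrix.add_mulVec, Matrix.one_mulVec]
  congr 1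
  rw [← Matrix.mulVec_mulVec]
  funext i
  simp only [Matrix.mulVec, dotProduct, A, B, Matrix.of_apply, Finset.sum_apply,
    Pi.smul_apply, smul_eq_mul]
  refine Finset.sum_congr rfl fun k _ => ?_
  rw [hφ k z, mul_comm]
  congr 1
  exact Finset.sum_congr rfl fun x _ => mul_comm _ _

variable {Qf : QuadraticForm F (ι → F)}

/-- A group containing the similarities of determinant one. -/
structure QCtx (Qf : QuadraticForm F (ι → F)) (M : Subgroup (GL ι F)) : Prop where
  hB : BNondeg Qf
  h2 : (2 : F) ≠ 0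
  h4 : Fintype.card ι = 4
  sim : ∀ g ∈ specialLinear ι F, ∀ c : F, c ≠ 0 →
    (∀ z, Qf ((g : Matrix ι ι F) *ᵥ z) = c * Qf z) → g ∈ M

theorem qFun_rescale {M : Subgroup (GL ι F)} {v w : ι → F} {c : F} (hc : c ≠ 0)
    (h : w ∈ qFun Qf M (c • v)) : c • w ∈ qFun Qf M v := by
  obtain ⟨h, hm⟩ := h
  have h' : polarBilin Qf w v = 0 := by
    rw [map_smul, smul_eq_mul] at h
    exact (mul_eq_zero.1 h).resolve_left hc
  refine ⟨by rw [map_smul, LinearMap.smul_apply, h', smul_zero], ?_⟩
  convert hm using 1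
  refine gl_ext_mulVec fun z => ?_
  simp only [transv_mulVec, map_smul, LinearMap.smul_apply, smul_eq_mul]
  module

variable {M : Subgroup (GL ι F)} (K : QCtx Qf M)
include K

theorem QCtx.self (x : ι → F) : polar Qf x x = 2 * Qf x := by
  rw [polar_self, nsmul_eq_mul]; norm_num

theorem QCtx.finrank_eq : finrank F (ι → F) = 4 := by rw [finrank_pi, K.h4]

theorem QCtx.siegel_mem {u x : ι → F} (hu : Qf u = 0) (hx : polar Qf u x = 0) :
    oqToGL Qf (siegel Qf hu hx) ∈ M := by
  refine K.sim _ ?_ 1 one_ne_zero fun z => by rw [oqToGL_mulVec, OQ_map_app, one_mul]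
  have huu : polar Qf u u = 0 := by rw [K.self, hu, mul_zero]
  have h1 : polarBilin Qf u x = 0 := hx
  have h2 : (-(polarBilin Qf x) + Qf x • polarBilin Qf u) u = 0 := by
    simp [polar_comm Qf x u, hx, huu]
  have e : oqToGL Qf (siegel Qf hu hx) = transv _ u h2 * transv _ x h1 := by
    refine gl_ext_mulVec fun z => ?_
    simp only [Units.val_mul, ← Matrix.mulVec_mulVec, oqToGL_mulVec, siegel_apply, transv_mulVec,
      LinearMap.add_apply, LinearMap.neg_apply, LinearMap.smul_apply, polarBilin_apply_apply,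
      polar_add_right, polar_smul_right, K.self, hx, smul_eq_mul]
    module
  rw [e]
  exact mul_mem (transv_mem_specialLinear _ _ _) (transv_mem_specialLinear _ _ _)

theorem QCtx.exists_perp_ne {v w : ι → F} (hw : w ∉ F ∙ v) :
    ∃ y, polar Qf v y = 0 ∧ polar Qf y w ≠ 0 := by
  by_contra hcon
  push Not at hcon
  apply hw
  rw [← LinearMap.BilinForm.orthogonal_orthogonal (polarBilin_nondeg K.hB) (polarBilin_refl Qf) (F ∙ v)]
  exact fun y hy => hcon y (hy v (Submodule.mem_span_singleton_self v))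

/-- A functional outside the line of a singular centre gives the whole line. -/
theorem QCtx.line_of_outside {v w : ι → F} (hv : Qf v = 0) (hw : w ∈ qFun Qf M v) (hwv : w ∉ F ∙ v)
    (c : F) : c • v ∈ qFun Qf M v := by
  obtain ⟨y, hy, hyw⟩ := K.exists_perp_ne hwv
  have hvv : polar Qf v v = 0 := by rw [K.self, hv, mul_zero]
  have hvw : polar Qf v w = 0 := (polar_comm Qf v w).trans hw.choose
  have ht : polar Qf v ((c / polar Qf y w) • y) = 0 := by rw [polar_smul_right, hy, smul_zero]
  have hm := qFun_map hw (K.siegel_mem hv ht)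
  rw [siegel_fix Qf hv ht hvv (by rw [polar_smul_left, polar_comm Qf y v, hy, smul_zero])] at hm
  have := qFun_neg (qFun_add hm (qFun_neg hw))
  convert this using 1
  rw [siegel_apply, hvw, polar_smul_left, smul_eq_mul, div_mul_cancel₀ _ hyw, mul_zero, zero_smul,
    zero_smul]
  module

/-- The torus of a hyperbolic pair. -/
theorem QCtx.torus_mem {p f : ι → F} (hp : Qf p = 0) (hf : Qf f = 0) (hpf : polar Qf p f = 1) {a : F}
    (ha : a ≠ 0) : ∃ k : OQ Qf, oqToGL Qf k ∈ M ∧ k.1 p = a • p := by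
  have hfp : polar Qf f p = 1 := by rw [polar_comm, hpf]
  have hpp : polar Qf p p = 0 := by rw [K.self, hp, mul_zero]
  have hff : polar Qf f f = 0 := by rw [K.self, hf, mul_zero]
  obtain ⟨g, hgS, hg⟩ := exists_update ![polarBilin Qf f, polarBilin Qf p]
    ![(a - 1) • p, (a⁻¹ - 1) • f] (by
      simp [Matrix.det_fin_two, hpf, hfp, hpp, hff, mul_inv_cancel₀ ha])
  simp only [Fin.sum_univ_two, Matrix.cons_val_zero, Matrix.cons_val_one, polarBilin_apply_apply] at hg
  have hQ : ∀ z, Qf ((g : Matrix ι ι F) *ᵥ z) = Qf z := fun z => by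
    rw [hg, ← add_assoc, qf_add, qf_add, polar_add_left, polar_smul_right, polar_smul_right,
      polar_smul_right, polar_smul_right, polar_smul_right, polar_smul_right, polar_smul_left, polar_smul_left]
    simp only [QuadraticMap.map_smul, hp, hf, hpf, smul_eq_mul, polar_comm Qf z]
    field_simp
    ring
  have hinv : ∀ z, Qf (((g⁻¹ : GL ι F) : Matrix ι ι F) *ᵥ z) = Qf z := fun z => by
    rw [← hQ, mulVec_inv_cancel]
  let e : (ι → F) ≃ₗ[F] (ι → F) :=
    LinearEquiv.ofLinearMap (Matrix.toLin' (g : Matrix ι ι F)) (Matrix.toLin' ((g⁻¹ : GL ι F) : Matrix ι ι F))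
      (by rw [← Matrix.toLin'_mul, ← Units.val_mul, mul_inv_cancel, Units.val_one, Matrix.toLin'_one])
      (by rw [← Matrix.toLin'_mul, ← Units.val_mul, inv_mul_cancel, Units.val_one, Matrix.toLin'_one])
  have he : ∀ z, e z = (g : Matrix ι ι F) *ᵥ z := fun z => Matrix.toLin'_apply _ _
  let k : OQ Qf := ⟨e, fun z => by rw [he, hQ]⟩
  have hk : oqToGL Qf k = g := gl_ext_mulVec fun z => by rw [oqToGL_mulVec]; exact he z
  refine ⟨k, hk ▸ K.sim g hgS 1 one_ne_zero fun z => by rw [hQ, one_mul], ?_⟩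
  show e p = _
  rw [he, hg, hfp, hpp]
  module

/-- A nonzero multiple of a singular centre gives the whole line. -/
theorem QCtx.line_of_self {p : ι → F} (hp0 : p ≠ 0) (hp : Qf p = 0) {γ : F} (hγ : γ ≠ 0)
    (h : γ • p ∈ qFun Qf M p) (c : F) : c • p ∈ qFun Qf M p := by
  obtain ⟨f, hf, hpf⟩ := Forms.exists_singular_partner K.hB hp hp0
  have hsq : ∀ a : F, (γ * (a * a)) • p ∈ qFun Qf M p := by
    intro a
    rcases eq_or_ne a 0 with rfl | ha
    · rw [mul_zero, mul_zero, zero_smul]; exact qFun_zero M p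
    obtain ⟨k, hk, hkp⟩ := K.torus_mem hp hf hpf ha
    have := qFun_map h hk
    rw [map_smul, hkp] at this
    have := qFun_rescale ha this
    rwa [smul_smul, smul_smul, show a * γ * a = γ * (a * a) by ring] at this
  have := qFun_add (hsq ((c / γ + 1) / 2)) (qFun_neg (hsq ((c / γ - 1) / 2)))
  convert this using 1
  rw [← neg_smul, ← add_smul]
  congr 1
  have := K.h2
  field_simp
  ring

/-- Conjugating a non-similarity into one respecting a singular vector. -/
theorem QCtx.exists_fix_singular {g : GL ι F} (hg : g ∈ M)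
    (hns : ¬ ∃ c : Fˣ, ∀ a, Qf ((g : Matrix ι ι F) *ᵥ a) = (c : F) * Qf a) :
    ∃ h ∈ M, (¬ ∃ c : Fˣ, ∀ a, Qf ((h : Matrix ι ι F) *ᵥ a) = (c : F) * Qf a) ∧
      ∃ p, p ≠ 0 ∧ Qf p = 0 ∧ Qf (((h⁻¹ : GL ι F) : Matrix ι ι F) *ᵥ p) = 0 := by
  set Gi : Matrix ι ι F := ((g⁻¹ : GL ι F) : Matrix ι ι F) with hGi
  have hcancel : ∀ x, Gi *ᵥ ((g : Matrix ι ι F) *ᵥ x) = x := fun x => by
    rw [hGi, Matrix.mulVec_mulVec, ← Units.val_mul, inv_mul_cancel, Units.val_one, Matrix.one_mulVec]
  obtain ⟨p₀, -, hp₀0, hp₀⟩ := Forms.exists_singular_vector_of_three_le Qf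
    (S := (⊤ : Submodule F (ι → F))) (by rw [finrank_top, K.finrank_eq]; norm_num)
  set a := (g : Matrix ι ι F) *ᵥ p₀ with ha
  have ha0 : a ≠ 0 := fun h => hp₀0 (by rw [← hcancel p₀, ← ha, h, Matrix.mulVec_zero])
  by_cases haQ : Qf a = 0
  · exact ⟨g, hg, hns, a, ha0, haQ, by rw [← hGi, ha, hcancel]; exact hp₀⟩
  by_contra hcon
  push Not at hcon
  have hkey : ∀ k : OQ Qf, oqToGL Qf k ∈ M → k.1 a = a →
      ∃ c : F, ∀ z, Qf (Gi *ᵥ k.1 z) = c * Qf (Gi *ᵥ z) := by
    intro k hk hka
    set h := g⁻¹ * oqToGL Qf k * g with hh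
    have hval : ∀ z, (h : Matrix ι ι F) *ᵥ z = Gi *ᵥ k.1 ((g : Matrix ι ι F) *ᵥ z) := fun z => by
      simp only [hh, Units.val_mul, ← Matrix.mulVec_mulVec, oqToGL_mulVec, hGi]
    have hsim : ∃ c : Fˣ, ∀ z, Qf ((h : Matrix ι ι F) *ᵥ z) = (c : F) * Qf z := by
      by_contra hns'
      push Not at hns'
      refine hcon h (mul_mem (mul_mem (inv_mem hg) hk) hg) hns' p₀ hp₀0 hp₀ ?_
      have hfix : (h : Matrix ι ι F) *ᵥ p₀ = p₀ := by rw [hval, ← ha, hka, ha, hcancel]
      conv_lhs => rw [← hfix]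
      rw [Matrix.mulVec_mulVec, ← Units.val_mul, inv_mul_cancel, Units.val_one, Matrix.one_mulVec]
      exact hp₀
    obtain ⟨c, hc⟩ := hsim
    refine ⟨(c : F), fun z => ?_⟩
    have := hc (Gi *ᵥ z)
    rwa [hval, mulVec_inv_cancel] at this
  have haa : polar Qf a a ≠ 0 := by rw [K.self]; exact mul_ne_zero K.h2 haQ
  set S := OrthGen.perpSub Qf (F ∙ a) with hS
  have hSmem : ∀ {x}, x ∈ S → polar Qf a x = 0 := fun {x} h => h a (Submodule.mem_span_singleton_self a)
  have hmemS : ∀ {x}, polar Qf a x = 0 → x ∈ S := fun {x} h y hy => by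
    obtain ⟨c, rfl⟩ := Submodule.mem_span_singleton.1 hy
    show polar Qf (c • a) x = 0
    rw [polar_smul_left, h, smul_zero]
  have hS3 : finrank F S = 3 := by
    rw [hS, OrthGen.finrank_orthogonal_polar K.hB, finrank_span_singleton ha0, K.finrank_eq]
  have hdec : ∀ y, y - (polar Qf a y / polar Qf a a) • a ∈ S := fun y => hmemS (by
    rw [polar_sub_right, polar_smul_right, smul_eq_mul, div_mul_cancel₀ _ haa, sub_self])
  have hpair : ∀ u ∈ S, Qf u = 0 → u ≠ 0 → ∃ y ∈ S, polar Qf u y ≠ 0 := by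
    intro u hu huQ hu0
    obtain ⟨f, -, huf⟩ := Forms.exists_singular_partner K.hB huQ hu0
    refine ⟨_, hdec f, ?_⟩
    rw [polar_sub_right, polar_smul_right, polar_comm Qf u a, hSmem hu, smul_zero, sub_zero, huf]
    exact one_ne_zero
  have hperp : ∀ u ∈ S, Qf u = 0 → polar Qf (Gi *ᵥ u) (Gi *ᵥ a) = 0 := by
    intro u hu huQ
    rcases eq_or_ne u 0 with rfl | hu0
    · rw [Matrix.mulVec_zero, polar_zero_left]
    obtain ⟨y, hy, huy⟩ := hpair u hu huQ hu0
    obtain ⟨y₁, hy₁S, hy₁⟩ : ∃ z ∈ S, polar Qf u z = 1 :=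
      ⟨(polar Qf u y)⁻¹ • y, S.smul_mem _ hy, by rw [polar_smul_right, smul_eq_mul, inv_mul_cancel₀ huy]⟩
    -- an anisotropic vector orthogonal to `u` and `a`
    obtain ⟨x, hxS, hxu, hxQ⟩ : ∃ x ∈ S, polar Qf u x = 0 ∧ Qf x ≠ 0 := by
      by_contra hc
      push Not at hc
      set T := S ⊓ LinearMap.ker (polarBilin Qf u) with hT
      have h1 : 2 ≤ finrank F T := by
        have := finrank_inf_ker_ge (polarBilin Qf u) S
        rw [← hT] at this; omega
      obtain ⟨t, ht, htu⟩ : ∃ t ∈ T, t ∉ F ∙ u := by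
        by_contra hc'
        push Not at hc'
        have := Submodule.finrank_mono (show T ≤ F ∙ u from hc')
        rw [finrank_span_singleton hu0] at this
        omega
      set t' := t - polar Qf y₁ t • u
      have ht'S : t' ∈ S := S.sub_mem ht.1 (S.smul_mem _ hu)
      have huu : polar Qf u u = 0 := by rw [K.self, huQ, mul_zero]
      have ht'T : t' ∈ T := ⟨ht'S, by
        show polar Qf u t' = 0
        rw [polar_sub_right, show polar Qf u t = 0 from ht.2, polar_smul_right, huu, smul_zero, sub_zero]⟩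
      have ht'y : polar Qf y₁ t' = 0 := by
        rw [polar_sub_right, polar_smul_right, polar_comm Qf y₁ u, hy₁, smul_eq_mul, mul_one, sub_self]
      refine htu ?_
      have : t' = 0 := K.hB _ fun z => by
        have hz := hdec z
        set z' := z - (polar Qf a z / polar Qf a a) • a
        have hz'T : z' - polar Qf u z' • y₁ ∈ T := ⟨S.sub_mem hz (S.smul_mem _ hy₁S), by
          show polar Qf u _ = 0
          rw [polar_sub_right, polar_smul_right, hy₁, smul_eq_mul, mul_one, sub_self]⟩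
        have e1 : polar Qf t' (z' - polar Qf u z' • y₁) = 0 := by
          have hsum := hc _ (T.add_mem ht'T hz'T).1 (T.add_mem ht'T hz'T).2
          rw [qf_add, hc _ ht'S ht'T.2, hc _ hz'T.1 hz'T.2] at hsum
          simpa using hsum
        rw [polar_sub_right, polar_smul_right, polar_comm Qf t' y₁, ht'y, smul_zero, sub_zero,
          polar_sub_right, polar_smul_right, polar_comm Qf t' a, hSmem ht'S, smul_zero, sub_zero] at e1
        exact e1
      exact Submodule.mem_span_singleton.2 ⟨polar Qf y₁ t, (sub_eq_zero.1 this).symm⟩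
    have hxa : polar Qf x a = 0 := (polar_comm Qf x a).trans (hSmem hxS)
    have hua : polar Qf u a = 0 := (polar_comm Qf u a).trans (hSmem hu)
    have hka : (siegel Qf huQ hxu).1 a = a := siegel_fix Qf huQ hxu hua hxa
    have hku : (siegel Qf huQ hxu).1 u = u := siegel_fix Qf huQ hxu
      (by rw [K.self, huQ, mul_zero]) ((polar_comm Qf x u).trans hxu)
    obtain ⟨c, hc⟩ := hkey _ (K.siegel_mem huQ hxu) hka
    have hpol : ∀ z w, polar Qf (Gi *ᵥ (siegel Qf huQ hxu).1 z) (Gi *ᵥ (siegel Qf huQ hxu).1 w) =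
        c * polar Qf (Gi *ᵥ z) (Gi *ᵥ w) := fun z w => by
      simp only [polar, ← Matrix.mulVec_add, ← map_add, hc]
      ring
    have e1 := hpol u a
    rw [hka, hku] at e1
    by_contra hne
    have hc1 : c = 1 := (mul_eq_right₀ hne).1 e1.symm
    have hkx : (siegel Qf huQ hxu).1 x = x - (2 * Qf x) • u := by
      rw [siegel_apply, hxu, K.self]; module
    have e2 := hpol x a
    rw [hka, hkx, hc1, one_mul, Matrix.mulVec_sub, Matrix.mulVec_smul, polar_sub_left, polar_smul_left,
      smul_eq_mul, sub_eq_self] at e2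
    exact hne ((mul_eq_zero.1 e2).resolve_left (mul_ne_zero K.h2 hxQ))
  obtain ⟨e, heS, he0, he⟩ := Forms.exists_singular_vector_of_three_le Qf (S := S) (by omega)
  have hspan := le_span_singular heS he (hpair e heS he he0)
  have hSperp : ∀ z ∈ S, polar Qf (Gi *ᵥ z) (Gi *ᵥ a) = 0 := by
    intro z hz
    have hz' := hspan hz
    clear hz
    induction hz' using Submodule.span_induction with
    | mem s hs => exact hperp s hs.1 hs.2
    | zero => rw [Matrix.mulVec_zero, polar_zero_left]
    | add s t _ _ hs ht => rw [Matrix.mulVec_add, polar_add_left, hs, ht, add_zero]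
    | smul l s _ hs => rw [Matrix.mulVec_smul, polar_smul_left, hs, smul_zero]
  apply hp₀0
  refine K.hB _ fun y => ?_
  have h1 := hSperp _ (hdec ((g : Matrix ι ι F) *ᵥ y))
  rw [Matrix.mulVec_sub, Matrix.mulVec_smul, polar_sub_left, polar_smul_left, hcancel, ha, hcancel,
    K.self p₀, hp₀, mul_zero, smul_zero, sub_zero] at h1
  rw [polar_comm]; exact h1

/-- A transvection with singular centre. -/
theorem QCtx.exists_transvection {g : GL ι F} (hg : g ∈ M) (hgS : g ∈ specialLinear ι F)
    (hns : ¬ ∃ c : Fˣ, ∀ a, Qf ((g : Matrix ι ι F) *ᵥ a) = (c : F) * Qf a) {p : ι → F} (hp0 : p ≠ 0)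
    (hp : Qf p = 0) (hpu : Qf (((g⁻¹ : GL ι F) : Matrix ι ι F) *ᵥ p) = 0) :
    ∃ v w : ι → F, v ≠ 0 ∧ Qf v = 0 ∧ w ≠ 0 ∧ w ∈ qFun Qf M v := by
  set G : Matrix ι ι F := (g : Matrix ι ι F) with hG
  set Gi : Matrix ι ι F := ((g⁻¹ : GL ι F) : Matrix ι ι F) with hGi
  have hcancel : ∀ x, Gi *ᵥ (G *ᵥ x) = x := fun x => by
    rw [hG, hGi, Matrix.mulVec_mulVec, ← Units.val_mul, inv_mul_cancel, Units.val_one,
      Matrix.one_mulVec]
  have hcancel' : ∀ x, G *ᵥ (Gi *ᵥ x) = x := fun x => mulVec_inv_cancel g x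
  have hdual : ∀ χ : (ι → F) →ₗ[F] F, ∃ y, ∀ x, polar Qf y x = χ x := fun χ =>
    ⟨(LinearMap.BilinForm.toDual (polarBilin Qf) (polarBilin_nondeg K.hB)).symm χ, fun x =>
      LinearMap.BilinForm.apply_toDual_symm_apply (hB := polarBilin_nondeg K.hB) _ x⟩
  by_contra hcon
  push Not at hcon
  have hstar : ∀ p, p ≠ 0 → Qf p = 0 → Qf (Gi *ᵥ p) = 0 → ∃ l : F, l ≠ 0 ∧
      (∀ z, polar Qf (Gi *ᵥ p) (Gi *ᵥ z) = l * polar Qf p z) ∧
      ∀ x y, polar Qf p x = 0 → polar Qf p y = 0 →
        polar Qf (Gi *ᵥ x) (Gi *ᵥ y) = l * polar Qf x y := by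
    intro p hp0 hp hu
    set u := Gi *ᵥ p with hu'
    obtain ⟨p', hp'⟩ := hdual ((polarBilin Qf u) ∘ₗ Matrix.toLin' Gi)
    have hp'a : ∀ z, polar Qf p' z = polar Qf u (Gi *ᵥ z) := fun z => by
      rw [hp', LinearMap.comp_apply, Matrix.toLin'_apply, polarBilin_apply_apply]
    have hpp : polar Qf p p = 0 := by rw [K.self, hp, mul_zero]
    have huu : polar Qf u u = 0 := by rw [K.self, hu, mul_zero]
    have hGu : G *ᵥ u = p := hcancel' p
    have e2 : ∀ (y : ι → F) (hy : polar Qf u (Gi *ᵥ y) = 0) z,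
        (((g * oqToGL Qf (siegel Qf hu hy) * g⁻¹ : GL ι F)) : Matrix ι ι F) *ᵥ z =
          z + polar Qf u (Gi *ᵥ z) • y
          - (polar Qf (Gi *ᵥ y) (Gi *ᵥ z) + Qf (Gi *ᵥ y) * polar Qf u (Gi *ᵥ z)) • p := fun y hy z => by
      rw [Units.val_mul, Units.val_mul, ← Matrix.mulVec_mulVec, ← Matrix.mulVec_mulVec,
        oqToGL_mulVec, siegel_apply, ← hG, ← hGi, Matrix.mulVec_sub, Matrix.mulVec_sub,
        Matrix.mulVec_add, Matrix.mulVec_smul, Matrix.mulVec_smul, Matrix.mulVec_smul, hcancel',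
        hcancel', hGu]
      module
    have e1 : ∀ (x : ι → F) (hx : polar Qf p x = 0) z, (oqToGL Qf (siegel Qf hp hx) : Matrix ι ι F) *ᵥ z =
        z + polar Qf p z • x - (polar Qf x z + Qf x * polar Qf p z) • p := fun x hx z => by
      rw [oqToGL_mulVec, siegel_apply]; module
    have m2 : ∀ (y : ι → F) (hy : polar Qf u (Gi *ᵥ y) = 0),
        g * oqToGL Qf (siegel Qf hu hy) * g⁻¹ ∈ M := fun y hy =>
      mul_mem (mul_mem hg (K.siegel_mem hu hy)) (inv_mem hg)
    have hzero : ∀ x y, polar Qf p x = 0 → polar Qf p y = 0 → polar Qf u (Gi *ᵥ x) = 0 →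
        polar Qf u (Gi *ᵥ y) = 0 →
        polar Qf (Gi *ᵥ x) (Gi *ᵥ y) • p - polar Qf x y • p' = 0 := by
      intro x y hx hy hx' hy'
      by_contra hne
      set w := polar Qf (Gi *ᵥ x) (Gi *ᵥ y) • p - polar Qf x y • p' with hw
      have hwz : ∀ z, polar Qf w z = polar Qf (Gi *ᵥ x) (Gi *ᵥ y) * polar Qf p z
          - polar Qf x y * polar Qf u (Gi *ᵥ z) := fun z => by
        rw [hw, polar_sub_left, polar_smul_left, polar_smul_left, hp'a, smul_eq_mul, smul_eq_mul]
      refine hcon p w hp0 hp hne ⟨by rw [polarBilin_apply_apply, hwz, hpp, huu]; ring, ?_⟩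
      obtain ⟨n₁, hn₁⟩ : ∃ k, k = oqToGL Qf (siegel Qf hp hx) := ⟨_, rfl⟩
      obtain ⟨n₂, hn₂⟩ : ∃ k, k = g * oqToGL Qf (siegel Qf hu hy') * g⁻¹ := ⟨_, rfl⟩
      have k1 : n₁ ∈ M := hn₁ ▸ K.siegel_mem hp hx
      have k2 : n₂ ∈ M := hn₂ ▸ m2 y hy'
      convert mul_mem (mul_mem k1 k2) (inv_mem (mul_mem k2 k1)) using 1
      rw [eq_mul_inv_iff_mul_eq]
      refine gl_ext_mulVec fun z => ?_
      rw [Units.val_mul, Units.val_mul, Units.val_mul, ← Matrix.mulVec_mulVec,
        ← Matrix.mulVec_mulVec, ← Matrix.mulVec_mulVec, transv_mulVec]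
      simp only [hn₁, hn₂, e1, e2, polarBilin_apply_apply, hwz, Matrix.mulVec_add, Matrix.mulVec_sub,
        Matrix.mulVec_smul, polar_add_right, polar_sub_right, polar_smul_right, ← hu', hx, hy, hx',
        hy', hpp, huu, smul_eq_mul, mul_zero, add_zero, sub_zero, (polar_comm Qf x p).trans hx,
        (polar_comm Qf (Gi *ᵥ y) u).trans hy', polar_comm Qf (Gi *ᵥ y) (Gi *ᵥ x)]
      module
    have hlin : p' ∈ F ∙ p := by
      by_contra hne
      set W := LinearMap.ker (polarBilin Qf p) ⊓
        LinearMap.ker ((polarBilin Qf u) ∘ₗ Matrix.toLin' Gi) with hW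
      have hWB : ∀ b ∈ W, ∀ a ∈ W, polar Qf b a = 0 ∧ polar Qf (Gi *ᵥ b) (Gi *ᵥ a) = 0 := by
        intro b hb a ha
        have h := hzero b a hb.1 ha.1 hb.2 ha.2
        have h0 : polar Qf b a = 0 := by
          by_contra hba
          refine hne (Submodule.mem_span_singleton.2
            ⟨(polar Qf b a)⁻¹ * polar Qf (Gi *ᵥ b) (Gi *ᵥ a), ?_⟩)
          rw [sub_eq_zero] at h
          rw [mul_smul, h, inv_smul_smul₀ hba]
        refine ⟨h0, ?_⟩
        rw [h0, zero_smul, sub_zero] at h
        exact (smul_eq_zero.1 h).resolve_right hp0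
      have hWdim : 2 ≤ finrank F W := by
        have h3 := finrank_inf_ker_ge ((polarBilin Qf u) ∘ₗ Matrix.toLin' Gi)
          (LinearMap.ker (polarBilin Qf p))
        have h5 := finrank_inf_ker_ge (polarBilin Qf p) (⊤ : Submodule F (ι → F))
        rw [top_inf_eq, finrank_top, K.finrank_eq] at h5
        rw [← hW] at h3
        omega
      have hWperp : W = OrthGen.perpSub Qf W := by
        refine Submodule.eq_of_le_of_finrank_le (fun a ha b hb => (hWB b hb a ha).1) ?_
        rw [OrthGen.finrank_orthogonal_polar K.hB, K.finrank_eq]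
        omega
      obtain ⟨x, hx, hx'⟩ := K.exists_perp_ne hne
      rw [polar_comm, hp'a] at hx'
      obtain ⟨y, hyW, hxy⟩ : ∃ y ∈ W, polar Qf x y ≠ 0 := by
        by_contra hc
        push Not at hc
        have : x ∈ W := by
          rw [hWperp]; exact fun b hb => (polar_comm Qf b x).trans (hc b hb)
        exact hx' this.2
      have hy : polar Qf p y = 0 := hyW.1
      have hy' : polar Qf u (Gi *ᵥ y) = 0 := hyW.2
      have hyy : polar Qf y y = 0 := (hWB y hyW y hyW).1
      have hyy' : polar Qf (Gi *ᵥ y) (Gi *ᵥ y) = 0 := (hWB y hyW y hyW).2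
      have hyQ : Qf y = 0 := by
        rw [K.self, mul_eq_zero] at hyy; exact hyy.resolve_left K.h2
      have hyQ' : Qf (Gi *ᵥ y) = 0 := by
        rw [K.self, mul_eq_zero] at hyy'; exact hyy'.resolve_left K.h2
      have hpW : p ∈ W := ⟨hpp, huu⟩
      have hyp' : polar Qf (Gi *ᵥ y) u = 0 := by rw [polar_comm]; exact hy'
      set a := polar Qf u (Gi *ᵥ x) with ha
      set b := polar Qf x y with hb
      set a' := polar Qf (Gi *ᵥ y) (Gi *ᵥ x) with ha'
      have hay : polar Qf p (a • y) = 0 := by rw [polar_smul_right, hy, smul_zero]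
      set w := (b * a + a') • p - b • p' - a • y with hw
      have hwz : ∀ z, polar Qf w z = (b * a + a') * polar Qf p z - b * polar Qf u (Gi *ᵥ z)
          - a * polar Qf y z := fun z => by
        rw [hw, polar_sub_left, polar_sub_left, polar_smul_left, polar_smul_left, polar_smul_left, hp'a,
          smul_eq_mul, smul_eq_mul, smul_eq_mul]
      have hw0 : w ≠ 0 := by
        intro h
        have := hwz x
        rw [h, polar_zero_left, hx, polar_comm Qf y x, ← hb, ← ha] at this
        exact mul_ne_zero K.h2 (mul_ne_zero hxy hx') (by linear_combination this)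
      refine hcon p w hp0 hp hw0 ⟨by
        rw [polarBilin_apply_apply, hwz, hpp, huu, (polar_comm Qf y p).trans hy]; ring, ?_⟩
      obtain ⟨n₁, hn₁⟩ : ∃ k, k = oqToGL Qf (siegel Qf hp hx) := ⟨_, rfl⟩
      obtain ⟨n₂, hn₂⟩ : ∃ k, k = g * oqToGL Qf (siegel Qf hu hy') * g⁻¹ := ⟨_, rfl⟩
      obtain ⟨n₃, hn₃⟩ : ∃ k, k = oqToGL Qf (siegel Qf hp hay) := ⟨_, rfl⟩
      have k1 : n₁ ∈ M := hn₁ ▸ K.siegel_mem hp hx
      have k2 : n₂ ∈ M := hn₂ ▸ m2 y hy'
      have k3 : n₃ ∈ M := hn₃ ▸ K.siegel_mem hp hay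
      have f1 := fun z => (congrArg (fun k : GL ι F => (k : Matrix ι ι F) *ᵥ z) hn₁).trans (e1 x hx z)
      have f2 := fun z => (congrArg (fun k : GL ι F => (k : Matrix ι ι F) *ᵥ z) hn₂).trans (e2 y hy' z)
      have f3 := fun z => (congrArg (fun k : GL ι F => (k : Matrix ι ι F) *ᵥ z) hn₃).trans (e1 (a • y) hay z)
      convert mul_mem (mul_mem (mul_mem k3 k1) k2) (inv_mem (mul_mem k2 k1)) using 1
      rw [eq_mul_inv_iff_mul_eq]
      refine gl_ext_mulVec fun z => ?_
      simp only [Units.val_mul, ← Matrix.mulVec_mulVec, transv_mulVec, f1, f2, f3,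
        polarBilin_apply_apply, hwz, Matrix.mulVec_add, Matrix.mulVec_sub, Matrix.mulVec_smul,
        polar_add_right, polar_sub_right, polar_smul_right, polar_smul_left, QuadraticMap.map_smul,
        ← hu', hy, hy', hx, hpp, huu, hyy, hyy', hyQ, hyQ', hyp', smul_eq_mul, mul_zero, zero_mul,
        add_zero, sub_zero, (polar_comm Qf x p).trans hx, (polar_comm Qf y p).trans hy,
        polar_comm Qf y x, ← ha, ← hb, ← ha']
      module
    obtain ⟨l, hl⟩ := Submodule.mem_span_singleton.1 hlin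
    have hrep : ∀ z, polar Qf u (Gi *ᵥ z) = l * polar Qf p z := fun z => by
      rw [← hp'a, ← hl, polar_smul_left, smul_eq_mul]
    refine ⟨l, fun h => hp0 ?_, hrep, fun x y hx hy => ?_⟩
    · rw [← hGu, show u = 0 from K.hB u fun y => by rw [← hcancel y, hrep, h, zero_mul],
        Matrix.mulVec_zero]
    · have := hzero x y hx hy (by rw [hrep, hx, mul_zero]) (by rw [hrep, hy, mul_zero])
      rw [← hl, smul_smul, ← sub_smul, smul_eq_zero] at this
      rw [sub_eq_zero.1 (this.resolve_right hp0), mul_comm]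
  obtain ⟨l, hl0, hlp, hlW⟩ := hstar p hp0 hp hpu
  obtain ⟨f, hf, hpf⟩ := Forms.exists_singular_partner K.hB hp hp0
  have hpp : polar Qf p p = 0 := by rw [K.self, hp, mul_zero]
  have hdecp : ∀ a, polar Qf p (a - polar Qf p a • f) = 0 := fun a => by
    rw [polar_sub_right, polar_smul_right, hpf, smul_eq_mul, mul_one, sub_self]
  set δ := polar Qf (Gi *ᵥ f) (Gi *ᵥ f) - l * polar Qf f f with hδ
  by_cases hE : ∃ h, polar Qf p h = 0 ∧ polar Qf (Gi *ᵥ f) (Gi *ᵥ h) ≠ l * polar Qf f h
  · obtain ⟨h₀, hh₀, hE⟩ := hE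
    set h := h₀ - polar Qf f h₀ • p with hh
    have hhp : polar Qf p h = 0 := by
      rw [hh, polar_sub_right, polar_smul_right, hh₀, hpp, smul_zero, sub_zero]
    have hhf : polar Qf f h = 0 := by
      rw [hh, polar_sub_right, polar_smul_right, polar_comm Qf f p, hpf, smul_eq_mul, mul_one, sub_self]
    set E := polar Qf (Gi *ᵥ f) (Gi *ᵥ h) with hEdef
    have hE0 : E ≠ 0 := by
      intro e
      apply hE
      rw [hEdef, hh, Matrix.mulVec_sub, Matrix.mulVec_smul, polar_sub_right, polar_smul_right,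
        polar_comm Qf (Gi *ᵥ f) (Gi *ᵥ p), hlp, hpf, smul_eq_mul] at e
      linear_combination e
    set t := -δ / (2 * E) with ht
    set z := f + t • h - (t * t * Qf h) • p with hz
    have hzQ : Qf z = 0 := by
      simp only [hz, qf_sub, qf_add, QuadraticMap.map_smul, hf, hp, polar_smul_right,
        polar_add_left, polar_smul_left, polar_comm Qf f p, hpf, polar_comm Qf h p, hhp, hhf, smul_eq_mul]
      ring
    have hpz : polar Qf p z = 1 := by
      rw [hz, polar_sub_right, polar_add_right, polar_smul_right, polar_smul_right, hpf, hhp, hpp]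
      simp
    have hzG : Qf (Gi *ᵥ z) = 0 := by
      have h1 : polar Qf (Gi *ᵥ z) (Gi *ᵥ z) = 0 := by
        have ehh := hlW h h hhp hhp
        rw [hz]
        simp only [Matrix.mulVec_sub, Matrix.mulVec_add, Matrix.mulVec_smul, polar_sub_left, polar_sub_right,
          polar_add_left, polar_add_right, polar_smul_left, polar_smul_right, hlp, hpp, hpf, hhp, ehh,
          polar_comm Qf (Gi *ᵥ h) (Gi *ᵥ f), ← hEdef, polar_comm Qf (Gi *ᵥ f) (Gi *ᵥ p),
          polar_comm Qf (Gi *ᵥ h) (Gi *ᵥ p), K.self h, smul_eq_mul]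
        have h2 := K.h2
        have hff : polar Qf f f = 0 := by rw [K.self, hf, mul_zero]
        have hδ' : polar Qf (Gi *ᵥ f) (Gi *ᵥ f) = δ := by rw [hδ, hff, mul_zero, sub_zero]
        rw [hδ']
        have e : 2 * E * t = -δ := by rw [ht]; field_simp
        linear_combination e
      rw [K.self, mul_eq_zero] at h1
      exact h1.resolve_left K.h2
    have hz0 : z ≠ 0 := fun e => one_ne_zero (α := F) (by rw [← hpz, e, polar_zero_right])
    obtain ⟨l', -, hlz, hlW'⟩ := hstar z hz0 hzQ hzG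
    have hll : l' = l := by
      have e1 := hlp z
      rw [polar_comm, hlz, polar_comm Qf z p, hpz, mul_one, mul_one] at e1
      exact e1
    rw [hll] at hlz hlW'
    have hall : ∀ a b, polar Qf (Gi *ᵥ a) (Gi *ᵥ b) = l * polar Qf a b := by
      have hd : ∀ a, polar Qf p (a - polar Qf p a • z) = 0 := fun a => by
        rw [polar_sub_right, polar_smul_right, hpz, smul_eq_mul, mul_one, sub_self]
      intro a b
      have h1 := hlW _ _ (hd a) (hd b)
      simp only [Matrix.mulVec_sub, Matrix.mulVec_smul, polar_sub_left, polar_sub_right, polar_smul_left,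
        polar_smul_right, polar_comm Qf (Gi *ᵥ a) (Gi *ᵥ z), polar_comm Qf a z, hlz, smul_eq_mul] at h1
      linear_combination h1
    refine hns ⟨(Units.mk0 l hl0)⁻¹, fun a => ?_⟩
    have h1 := hall (G *ᵥ a) (G *ᵥ a)
    rw [hcancel, K.self, K.self, mul_left_comm] at h1
    rw [mul_left_cancel₀ K.h2 h1, Units.val_inv_eq_inv_val, Units.val_mk0, inv_mul_cancel_left₀ hl0]
  · push Not at hE
    have hff : polar Qf f f = 0 := by rw [K.self, hf, mul_zero]
    have hform : ∀ a b, polar Qf (Gi *ᵥ a) (Gi *ᵥ b) =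
        l * polar Qf a b + δ * (polar Qf p a * polar Qf p b) := by
      intro a b
      have h1 := hlW _ _ (hdecp a) (hdecp b)
      have h2 := hE _ (hdecp a)
      have h3 := hE _ (hdecp b)
      simp only [Matrix.mulVec_sub, Matrix.mulVec_smul, polar_sub_left, polar_sub_right, polar_smul_left,
        polar_smul_right, polar_comm Qf (Gi *ᵥ a) (Gi *ᵥ f), polar_comm Qf a f, smul_eq_mul] at h1 h2 h3
      rw [hδ]
      linear_combination h1 + polar Qf p b * h2 + polar Qf p a * h3
    have hδ0 : δ ≠ 0 := by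
      intro h
      refine hns ⟨(Units.mk0 l hl0)⁻¹, fun a => ?_⟩
      have h1 := hform (G *ᵥ a) (G *ᵥ a)
      rw [hcancel, K.self, K.self, h, zero_mul, add_zero, mul_left_comm] at h1
      rw [mul_left_cancel₀ K.h2 h1, Units.val_inv_eq_inv_val, Units.val_mk0, inv_mul_cancel_left₀ hl0]
    set γ := -δ / (2 * l) with hγ
    have hγ0 : γ ≠ 0 := div_ne_zero (neg_ne_zero.2 hδ0) (mul_ne_zero K.h2 hl0)
    have h0 : polarBilin Qf (γ • p) p = 0 := by
      rw [polarBilin_apply_apply, polar_smul_left, hpp, smul_zero]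
    refine hcon p (γ • p) hp0 hp (smul_ne_zero hγ0 hp0) ⟨h0, ?_⟩
    have hs : g⁻¹ * transv (polarBilin Qf (γ • p)) p h0 ∈ M := by
      refine K.sim _ (mul_mem (inv_mem hgS) (transv_mem_specialLinear _ _ _)) l hl0 fun z => ?_
      rw [Units.val_mul, ← Matrix.mulVec_mulVec, transv_mulVec, polarBilin_apply_apply, polar_smul_left,
        smul_eq_mul, ← hGi]
      have h1 := hform (z + (γ * polar Qf p z) • p) (z + (γ * polar Qf p z) • p)
      rw [K.self] at h1
      simp only [qf_add, QuadraticMap.map_smul, polar_add_right, polar_smul_right, hp, hpp, K.self,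
        polar_comm Qf z p, smul_eq_mul] at h1
      refine mul_left_cancel₀ K.h2 ?_
      rw [h1]
      have h2 := K.h2
      have e : 2 * l * γ = -δ := by rw [hγ]; field_simp
      linear_combination polar Qf p z * polar Qf p z * e
    have := mul_mem hg hs
    rwa [mul_inv_cancel_left] at this

/-- Moving lines between non-orthogonal singular vectors. -/
theorem QCtx.line_move {p q : ι → F} (hp : Qf p = 0) (hq : Qf q = 0) (hpq : polar Qf p q ≠ 0)
    (hP : ∀ c : F, c • p ∈ qFun Qf M p) (c : F) : c • q ∈ qFun Qf M q := by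
  set β := polar Qf p q with hβ
  have hq0 : q ≠ 0 := fun h => hpq (by rw [hβ, h, polar_zero_right])
  have hp0 : p ≠ 0 := fun h => hpq (by rw [hβ, h, polar_zero_left])
  have hpp : polar Qf p p = 0 := by rw [K.self, hp, mul_zero]
  have hqq : polar Qf q q = 0 := by rw [K.self, hq, mul_zero]
  -- an anisotropic vector orthogonal to both
  obtain ⟨h, hhp, hhq, hhQ⟩ : ∃ h, polar Qf p h = 0 ∧ polar Qf q h = 0 ∧ Qf h ≠ 0 := by
    by_contra hc
    push Not at hc
    set U := LinearMap.ker (polarBilin Qf p) ⊓ LinearMap.ker (polarBilin Qf q) with hU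
    obtain ⟨s, hs, hs0⟩ : ∃ s ∈ U, s ≠ 0 := by
      refine U.ne_bot_iff.1 fun h => ?_
      have h3 := finrank_inf_ker_ge (polarBilin Qf q) (LinearMap.ker (polarBilin Qf p))
      have h5 := finrank_inf_ker_ge (polarBilin Qf p) (⊤ : Submodule F (ι → F))
      rw [top_inf_eq, finrank_top, K.finrank_eq] at h5
      rw [← hU, h, finrank_bot] at h3
      omega
    refine hs0 (K.hB s fun z => ?_)
    set z' := z - (polar Qf q z / β) • p - (polar Qf p z / β) • q with hz'
    have hz'U : z' ∈ U := ⟨by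
        show polar Qf p z' = 0
        rw [hz', polar_sub_right, polar_sub_right, polar_smul_right, polar_smul_right, hpp, ← hβ,
          smul_zero, sub_zero, smul_eq_mul, div_mul_cancel₀ _ hpq, sub_self], by
        show polar Qf q z' = 0
        rw [hz', polar_sub_right, polar_sub_right, polar_smul_right, polar_smul_right, hqq,
          polar_comm Qf q p, ← hβ, smul_zero, sub_zero, smul_eq_mul, div_mul_cancel₀ _ hpq, sub_self]⟩
    have e1 : polar Qf s z' = 0 := by
      have hsum := hc _ (U.add_mem hs hz'U).1 (U.add_mem hs hz'U).2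
      rw [qf_add, hc s hs.1 hs.2, hc z' hz'U.1 hz'U.2] at hsum
      simpa using hsum
    rw [hz', polar_sub_right, polar_sub_right, polar_smul_right, polar_smul_right, polar_comm Qf s p,
      polar_comm Qf s q, show polar Qf p s = 0 from hs.1, show polar Qf q s = 0 from hs.2] at e1
    simpa using e1
  set r := p - (Qf h / β) • q + h with hr
  have hrQ : Qf r = 0 := by
    rw [hr, qf_add, qf_sub, QuadraticMap.map_smul, hp, hq, polar_smul_right, polar_sub_left,
      polar_smul_left, hhp, hhq, ← hβ]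
    simp only [smul_eq_mul]
    field_simp
    ring
  have hrp : polar Qf r p = -Qf h := by
    rw [polar_comm, hr, polar_add_right, polar_sub_right, polar_smul_right, hpp, ← hβ, hhp, smul_eq_mul,
      div_mul_cancel₀ _ hpq]; ring
  have hrq : polar Qf r q = β := by
    rw [polar_comm, hr, polar_add_right, polar_sub_right, polar_smul_right, hqq, polar_comm Qf q p, ← hβ,
      hhq]; simp
  set κ := -Qf h / β with hκ
  have hκ0 : κ ≠ 0 := div_ne_zero (neg_ne_zero.2 hhQ) hpq
  have hRp : -Qf h ≠ 0 := neg_ne_zero.2 hhQ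
  have hrr : polar Qf r r = 0 := by rw [K.self, hrQ, mul_zero]
  set x := (-Qf h)⁻¹ • (κ • q - p) with hx
  have hxr : polar Qf r x = 0 := by
    rw [hx, polar_smul_right, polar_sub_right, polar_smul_right, hrq, hrp, hκ]
    simp only [smul_eq_mul]
    rw [div_mul_cancel₀ _ hpq, sub_self, mul_zero]
  -- the Siegel element at `r` sends `p` to a multiple of `q`
  have hk : (siegel Qf hrQ hxr).1 p = κ • q := by
    have e1 : polar Qf x p = (-Qf h)⁻¹ * (κ * β) := by
      rw [hx, polar_smul_left, polar_sub_left, polar_smul_left, polar_comm Qf q p, ← hβ, hpp]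
      simp
    have e2 : Qf x = (-Qf h)⁻¹ * (-Qf h)⁻¹ * (-(κ * β)) := by
      rw [hx, QuadraticMap.map_smul, qf_sub, QuadraticMap.map_smul, hq, hp, polar_smul_left,
        polar_comm Qf q p, ← hβ]
      simp
    rw [siegel_apply, hrp, e1, e2, hx, smul_smul, mul_inv_cancel₀ hRp, one_smul]
    match_scalars <;> field_simp <;> ring
  have hm := qFun_map (hP (c / (κ * κ))) (K.siegel_mem hrQ hxr)
  rw [map_smul, hk] at hm
  have := qFun_rescale hκ0 hm
  convert this using 1
  rw [smul_smul, smul_smul]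
  congr 1
  field_simp

/-- All singular lines. -/
theorem QCtx.line_all {p q : ι → F} (hp0 : p ≠ 0) (hp : Qf p = 0) (hP : ∀ c : F, c • p ∈ qFun Qf M p)
    (hq0 : q ≠ 0) (hq : Qf q = 0) (c : F) : c • q ∈ qFun Qf M q := by
  by_cases hpq : polar Qf p q = 0
  swap; · exact K.line_move hp hq hpq hP c
  obtain ⟨f, hf, hpf⟩ := Forms.exists_singular_partner K.hB hp hp0
  obtain ⟨f', hf', hqf'⟩ := Forms.exists_singular_partner K.hB hq hq0
  have hf'q : polar Qf f' q ≠ 0 := by rw [polar_comm, hqf']; exact one_ne_zero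
  have hPf : ∀ c : F, c • f ∈ qFun Qf M f := K.line_move hp hf (by rw [hpf]; exact one_ne_zero) hP
  by_cases hfq : polar Qf f q = 0
  swap; · exact K.line_move hf hq hfq hPf c
  by_cases hpf' : polar Qf p f' = 0
  swap; · exact K.line_move hf' hq hf'q (K.line_move hp hf' hpf' hP) c
  by_cases hff' : polar Qf f f' = 0
  swap; · exact K.line_move hf' hq hf'q (K.line_move hf hf' hff' hPf) c
  have hs : Qf (f + f') = 0 := by rw [qf_add, hf, hf', hff']; simp
  refine K.line_move hs hq ?_ (K.line_move hp hs ?_ hP) c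
  · rw [polar_add_left, hfq, zero_add]; exact hf'q
  · rw [polar_add_right, hpf, hpf', add_zero]; exact one_ne_zero

/-- A singular centre with an anisotropic functional. -/
theorem QCtx.exists_aniso {p : ι → F} (hp0 : p ≠ 0) (hp : Qf p = 0)
    (hP : ∀ c : F, c • p ∈ qFun Qf M p) :
    ∃ v w, v ≠ 0 ∧ Qf v = 0 ∧ Qf w ≠ 0 ∧ ∀ c : F, c • w ∈ qFun Qf M v := by
  obtain ⟨f, hf, hpf⟩ := Forms.exists_singular_partner K.hB hp hp0
  have hfp : polar Qf f p = 1 := by rw [polar_comm, hpf]
  have hpp : polar Qf p p = 0 := by rw [K.self, hp, mul_zero]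
  have hff : polar Qf f f = 0 := by rw [K.self, hf, mul_zero]
  have hf0 : f ≠ 0 := fun h => one_ne_zero (α := F) (by rw [← hpf, h, polar_zero_right])
  set a := p + f with ha
  set a' := p - f with ha'
  have haQ : Qf a = 1 := by rw [ha, qf_add, hp, hf, hpf]; simp
  have ha'Q : Qf a' = -1 := by rw [ha', qf_sub, hp, hf, hpf]; simp
  have ha'a : polar Qf a' a = 0 := by
    rw [ha, ha', polar_sub_left, polar_add_right, polar_add_right, hpp, hpf, hfp, hff]; ring
  have hA : ∀ c : F, c • a' ∈ qFun Qf M a := by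
    intro c
    obtain ⟨d1, hD⟩ := K.line_all hp0 hp hP hf0 hf 1
    obtain ⟨b1, hB'⟩ := hP c
    refine ⟨by rw [map_smul, LinearMap.smul_apply, polarBilin_apply_apply, ha'a, smul_zero], ?_⟩
    convert mul_mem (mul_mem hD hB') (inv_mem hD) using 1
    rw [eq_mul_inv_iff_mul_eq]
    refine gl_ext_mulVec fun z => ?_
    simp only [Units.val_mul, ← Matrix.mulVec_mulVec, transv_mulVec, polarBilin_apply_apply,
      polar_smul_left, polar_add_right, polar_smul_right, ha, ha', polar_sub_left, hpp, hpf, hfp, hff,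
      smul_eq_mul, one_mul, mul_one, mul_zero, add_zero]
    module
  -- a singular vector orthogonal to the axis
  set S := OrthGen.perpSub Qf (F ∙ a') with hS
  have ha'0 : a' ≠ 0 := fun h => one_ne_zero (α := F) (by
    rw [h, QuadraticMap.map_zero] at ha'Q; linear_combination ha'Q)
  have hSmem : ∀ {x}, x ∈ S → polar Qf a' x = 0 := fun {x} h => h a' (Submodule.mem_span_singleton_self a')
  have hmemS : ∀ {x}, polar Qf a' x = 0 → x ∈ S := fun {x} h y hy => by
    obtain ⟨c, rfl⟩ := Submodule.mem_span_singleton.1 hy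
    show polar Qf (c • a') x = 0
    rw [polar_smul_left, h, smul_zero]
  obtain ⟨e, heS, he0, he⟩ := Forms.exists_singular_vector_of_three_le Qf (S := S) (by
    rw [hS, OrthGen.finrank_orthogonal_polar K.hB, finrank_span_singleton ha'0, K.finrank_eq])
  obtain ⟨e', he', hee'⟩ := Forms.exists_singular_partner K.hB he he0
  have hea' : polar Qf e a' = 0 := (polar_comm Qf e a').trans (hSmem heS)
  have ha'a' : polar Qf a' a' ≠ 0 := by rw [K.self, ha'Q]; simpa using K.h2
  have hspan := le_span_singular heS he ⟨e' - (polar Qf a' e' / polar Qf a' a') • a', hmemS (by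
      rw [polar_sub_right, polar_smul_right, smul_eq_mul, div_mul_cancel₀ _ ha'a', sub_self]), by
      rw [polar_sub_right, polar_smul_right, hea', smul_zero, sub_zero, hee']; exact one_ne_zero⟩
  obtain ⟨q, hqS, hq, hqa⟩ : ∃ q ∈ S, Qf q = 0 ∧ polar Qf q a ≠ 0 := by
    by_contra hc
    push Not at hc
    have key : ∀ z ∈ S, polar Qf z a = 0 := by
      intro z hz
      have hz' := hspan hz
      clear hz
      induction hz' using Submodule.span_induction with
      | mem s hs => exact hc s hs.1 hs.2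
      | zero => exact polar_zero_left _ _
      | add s t _ _ hs ht => rw [polar_add_left, hs, ht, add_zero]
      | smul l s _ hs => rw [polar_smul_left, hs, smul_zero]
    have := key a (hmemS ha'a)
    rw [K.self, haQ, mul_one] at this
    exact K.h2 this
  have hq0 : q ≠ 0 := fun h => hqa (by rw [h, polar_zero_left])
  set d := -1 / (polar Qf q a * polar Qf q a) with hd
  obtain ⟨t1, hT⟩ := K.line_all hp0 hp hP hq0 hq d
  set v := a + (d * polar Qf q a) • q with hv
  have hvQ : Qf v = 0 := by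
    rw [hv, qf_add, QuadraticMap.map_smul, haQ, hq, polar_smul_right, polar_comm Qf a q, hd]
    simp only [smul_eq_mul]
    field_simp
    ring
  have hqa' : polar Qf q a' = 0 := (polar_comm Qf q a').trans (hSmem hqS)
  have hv0 : v ≠ 0 := fun h => hqa (by
    have e := congrArg (polar Qf q) h
    rw [hv, polar_add_right, polar_smul_right, K.self q, hq, mul_zero, smul_zero, add_zero,
      polar_zero_right] at e
    exact e)
  have hva' : polar Qf a' v = 0 := by
    rw [hv, polar_add_right, polar_smul_right, ha'a, hSmem hqS, smul_zero, add_zero]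
  refine ⟨v, a', hv0, hvQ, by rw [ha'Q]; exact neg_ne_zero.2 one_ne_zero, fun c => ?_⟩
  obtain ⟨c1, hC⟩ := hA c
  refine ⟨by rw [map_smul, LinearMap.smul_apply, polarBilin_apply_apply, hva', smul_zero], ?_⟩
  convert mul_mem (mul_mem hT hC) (inv_mem hT) using 1
  rw [eq_mul_inv_iff_mul_eq]
  refine gl_ext_mulVec fun z => ?_
  simp only [Units.val_mul, ← Matrix.mulVec_mulVec, transv_mulVec, polarBilin_apply_apply,
    polar_smul_left, polar_add_right, polar_smul_right, hv, hSmem hqS, smul_eq_mul, mul_zero, add_zero]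
  module

/-- A singular centre with an anisotropic functional is a centre for all functionals. -/
theorem QCtx.mem_centres {v w₀ : ι → F} (hv0 : v ≠ 0) (hv : Qf v = 0) (hw₀ : Qf w₀ ≠ 0)
    (hY₀ : ∀ c : F, c • w₀ ∈ qFun Qf M v) : v ∈ centres M := by
  obtain ⟨f, hf, hvf⟩ := Forms.exists_singular_partner K.hB hv hv0
  have hfv : polar Qf f v = 1 := by rw [polar_comm, hvf]
  have hvv : polar Qf v v = 0 := by rw [K.self, hv, mul_zero]
  have hff : polar Qf f f = 0 := by rw [K.self, hf, mul_zero]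
  have hvw₀ : polar Qf v w₀ = 0 := by
    have := (hY₀ 1).choose
    rwa [one_smul, polarBilin_apply_apply, polar_comm] at this
  have hw₀v : w₀ ∉ F ∙ v := fun h => by
    obtain ⟨c, rfl⟩ := Submodule.mem_span_singleton.1 h
    rw [QuadraticMap.map_smul, hv, smul_zero] at hw₀
    exact hw₀ rfl
  have hline : ∀ c : F, c • v ∈ qFun Qf M v := K.line_of_outside hv (by simpa using hY₀ 1) hw₀v
  set w := w₀ - polar Qf f w₀ • v with hw
  have hY : ∀ c : F, c • w ∈ qFun Qf M v := fun c => by
    rw [hw, smul_sub, smul_smul, sub_eq_add_neg]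
    exact qFun_add (hY₀ c) (qFun_neg (hline _))
  have hwQ : Qf w = Qf w₀ := by
    rw [hw, qf_sub, QuadraticMap.map_smul, hv, polar_smul_right, polar_comm Qf w₀ v, hvw₀]; simp
  have hvw : polar Qf v w = 0 := by
    rw [hw, polar_sub_right, polar_smul_right, hvw₀, hvv, smul_zero, sub_zero]
  have hfw : polar Qf f w = 0 := by
    rw [hw, polar_sub_right, polar_smul_right, hfv, smul_eq_mul, mul_one, sub_self]
  have hwv : polar Qf w v = 0 := (polar_comm Qf w v).trans hvw
  have hwf : polar Qf w f = 0 := (polar_comm Qf w f).trans hfw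
  rw [← hwQ] at hw₀
  -- the last vector of an orthogonal basis
  obtain ⟨y, hyU, hy0⟩ : ∃ y ∈ LinearMap.ker (polarBilin Qf v) ⊓ LinearMap.ker (polarBilin Qf f) ⊓
      LinearMap.ker (polarBilin Qf w), y ≠ 0 := by
    refine (Submodule.ne_bot_iff _).1 fun h => ?_
    have h3 := finrank_inf_ker_ge (polarBilin Qf f) (LinearMap.ker (polarBilin Qf v))
    have h4 := finrank_inf_ker_ge (polarBilin Qf w)
      (LinearMap.ker (polarBilin Qf v) ⊓ LinearMap.ker (polarBilin Qf f))
    have h5 := finrank_inf_ker_ge (polarBilin Qf v) (⊤ : Submodule F (ι → F))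
    rw [top_inf_eq, finrank_top, K.finrank_eq] at h5
    rw [h, finrank_bot] at h4
    omega
  have hvy : polar Qf v y = 0 := hyU.1.1
  have hfy : polar Qf f y = 0 := hyU.1.2
  have hwy : polar Qf w y = 0 := hyU.2
  have hyv : polar Qf y v = 0 := (polar_comm Qf y v).trans hvy
  have hyf : polar Qf y f = 0 := (polar_comm Qf y f).trans hfy
  have hyw : polar Qf y w = 0 := (polar_comm Qf y w).trans hwy
  have hww : polar Qf w w = 2 * Qf w := K.self w
  have hyy : polar Qf y y = 2 * Qf y := K.self y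
  have h2 := K.h2
  -- coordinates
  let Φ : (ι → F) →ₗ[F] (Fin 4 → F) :=
    LinearMap.pi ![polarBilin Qf v, polarBilin Qf f, polarBilin Qf w, polarBilin Qf y]
  have hinj4 : ∀ z, polar Qf v z = 0 → polar Qf f z = 0 → polar Qf w z = 0 → Qf y ≠ 0 →
      polar Qf y z = 0 → z = 0 := by
    intro z h1 h2' h3 hyQ h4
    have hsurj : Function.Surjective Φ := fun c => ⟨c 0 • f + c 1 • v + (c 2 / (2 * Qf w)) • w +
        (c 3 / (2 * Qf y)) • y, by
      funext i
      fin_cases i <;>
        simp [Φ, polar_add_right, polar_smul_right, hvf, hfv, hvv, hff, hvw, hfw, hvy, hfy, hwv, hwf, hwy,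
          hyv, hyf, hyw, hww, hyy] <;>
        field_simp⟩
    have hinj := (LinearMap.injective_iff_surjective_of_finrank_eq_finrank
      (by rw [K.finrank_eq]; simp) (f := Φ)).2 hsurj
    apply hinj
    rw [map_zero]
    funext i
    fin_cases i <;> simpa [Φ]
  have hyQ : Qf y ≠ 0 := by
    intro hyQ
    -- otherwise `y` is orthogonal to everything
    apply hy0
    refine K.hB y fun z => ?_
    by_contra hne
    have hUz : ∀ z, polar Qf y (z - polar Qf f z • v - polar Qf v z • f -
        (polar Qf w z / (2 * Qf w)) • w) = polar Qf y z := fun z => by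
      rw [polar_sub_right, polar_sub_right, polar_sub_right, polar_smul_right, polar_smul_right,
        polar_smul_right, hyv, hyf, hyw]
      simp
    set U := LinearMap.ker (polarBilin Qf v) ⊓ LinearMap.ker (polarBilin Qf f) ⊓
      LinearMap.ker (polarBilin Qf w) with hU
    set z' := z - polar Qf f z • v - polar Qf v z • f - (polar Qf w z / (2 * Qf w)) • w with hz'
    have hz'U : z' ∈ U := by
      refine ⟨⟨?_, ?_⟩, ?_⟩
      · show polar Qf v z' = 0
        simp [hz', polar_sub_right, polar_smul_right, hvv, hvf, hvw]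
      · show polar Qf f z' = 0
        simp [hz', polar_sub_right, polar_smul_right, hfv, hff, hfw]
      · show polar Qf w z' = 0
        simp [hz', polar_sub_right, polar_smul_right, hwv, hwf, hww]
        field_simp
        ring
    have hdim : finrank F U ≤ 1 := by
      let Ψ : (ι → F) →ₗ[F] (Fin 3 → F) :=
        LinearMap.pi ![polarBilin Qf v, polarBilin Qf f, polarBilin Qf w]
      have hs : Function.Surjective Ψ := fun c => ⟨c 0 • f + c 1 • v + (c 2 / (2 * Qf w)) • w, by
        funext i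
        fin_cases i <;>
          simp [Ψ, polar_add_right, polar_smul_right, hvf, hfv, hvv, hff, hvw, hfw, hwv, hwf, hww] <;>
          field_simp⟩
      have h1 := LinearMap.finrank_range_add_finrank_ker Ψ
      rw [LinearMap.range_eq_top.2 hs, finrank_top, K.finrank_eq, finrank_pi, Fintype.card_fin] at h1
      have hle : U ≤ LinearMap.ker Ψ := fun s hs => by
        rw [LinearMap.mem_ker]
        funext i
        fin_cases i
        · exact hs.1.1
        · exact hs.1.2
        · exact hs.2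
      have := Submodule.finrank_mono hle
      omega
    have hUy : U = F ∙ y := (Submodule.eq_of_le_of_finrank_le
      ((Submodule.span_singleton_le_iff_mem _ _).2 hyU) (by rw [finrank_span_singleton hy0]; omega)).symm
    rw [hUy] at hz'U
    obtain ⟨k, hk⟩ := Submodule.mem_span_singleton.1 hz'U
    apply hne
    rw [← hUz z, ← hz', ← hk, polar_smul_right, hyy, hyQ, mul_zero, smul_zero]
  have hexp : ∀ z, z = polar Qf f z • v + polar Qf v z • f + (polar Qf w z / (2 * Qf w)) • w +
      (polar Qf y z / (2 * Qf y)) • y := fun z => by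
    rw [← sub_eq_zero]
    refine hinj4 _ ?_ ?_ ?_ hyQ ?_ <;>
      simp [polar_sub_right, polar_add_right, polar_smul_right, hvf, hfv, hvv, hff, hvw, hfw, hvy, hfy, hwv,
        hwf, hwy, hyv, hyf, hyw, hww, hyy] <;>
      field_simp <;> ring
  have hQexp : ∀ a b c d : F, Qf (a • v + b • f + c • w + d • y) =
      a * b + c * c * Qf w + d * d * Qf y := fun a b c d => by
    simp only [qf_add, polar_add_left, polar_smul_left, polar_smul_right, QuadraticMap.map_smul, hv, hf,
      hvf, hvw, hfw, hvy, hfy, hwy, smul_eq_mul]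
    ring
  set t := Qf y / Qf w with ht
  obtain ⟨α, β, N, hβ, hN, hαβ⟩ : ∃ α β N : F, β ≠ 0 ∧ N ≠ 0 ∧ α * α + t * (β * β) = N ∧ N * N = 1 := by
    by_cases h1 : 1 + t = 0
    · exact ⟨0, 1, -1, one_ne_zero, neg_ne_zero.2 one_ne_zero, by linear_combination h1, by ring⟩
    · refine ⟨(1 - t) / (1 + t), 2 / (1 + t), 1, div_ne_zero h2 h1, one_ne_zero, ?_, by ring⟩
      field_simp
      ring
  obtain ⟨hαβ, hNN⟩ := hαβ
  obtain ⟨g, hgS, hg⟩ := exists_update
    ![polarBilin Qf v, (2 * Qf w)⁻¹ • polarBilin Qf w, (2 * Qf y)⁻¹ • polarBilin Qf y]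
    ![(N - 1) • f, (α - 1) • w + β • y, (-(β * t)) • w + (α - 1) • y] (by
      simp [Matrix.det_fin_three, polar_add_right, polar_smul_right, hvf, hvw, hvy, hwf, hwy, hyf, hyw,
        hww, hyy]
      field_simp
      linear_combination N * hαβ + hNN)
  simp only [Fin.sum_univ_three, Matrix.cons_val_zero, Matrix.cons_val_one, Matrix.cons_val,
    LinearMap.smul_apply, polarBilin_apply_apply, smul_eq_mul] at hg
  have hgz : ∀ z, (g : Matrix ι ι F) *ᵥ z = polar Qf f z • v + (N * polar Qf v z) • f +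
      (α * (polar Qf w z / (2 * Qf w)) - β * t * (polar Qf y z / (2 * Qf y))) • w +
      (β * (polar Qf w z / (2 * Qf w)) + α * (polar Qf y z / (2 * Qf y))) • y := fun z => by
    rw [hg]
    nth_rewrite 1 [hexp z]
    match_scalars <;> field_simp <;> ring
  have hsim : ∀ z, Qf ((g : Matrix ι ι F) *ᵥ z) = N * Qf z := fun z => by
    conv_rhs => rw [hexp z, hQexp]
    rw [hgz, hQexp]
    rw [← hαβ, ht]
    field_simp
    ring
  have hgM : g ∈ M := K.sim g hgS N hN hsim
  have hpol : ∀ a b, polar Qf ((g : Matrix ι ι F) *ᵥ a) ((g : Matrix ι ι F) *ᵥ b) = N * polar Qf a b :=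
    fun a b => by simp only [polar, ← Matrix.mulVec_add, hsim]; ring
  have hgv : (g : Matrix ι ι F) *ᵥ v = v := by
    rw [hgz, hfv, hvv, hwv, hyv]; simp
  have hgw : (g : Matrix ι ι F) *ᵥ w = α • w + β • y := by
    rw [hgz, hfw, hvw, hyw, hww, div_self (mul_ne_zero h2 hw₀)]; simp
  have hY' : ∀ c : F, c • y ∈ qFun Qf M v := by
    intro c
    obtain ⟨h0, hm⟩ := hY (c * N / β)
    have hself' : polarBilin Qf (((c * N / β) / N) • (α • w + β • y)) v = 0 := by
      simp [hwv, hyv]
    have h1 : ((c * N / β) / N) • (α • w + β • y) ∈ qFun Qf M v := by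
      refine ⟨hself', ?_⟩
      convert mul_mem (mul_mem hgM hm) (inv_mem hgM) using 1
      rw [eq_mul_inv_iff_mul_eq]
      refine gl_ext_mulVec fun z => ?_
      simp only [Units.val_mul, ← Matrix.mulVec_mulVec, transv_mulVec, Matrix.mulVec_add, Matrix.mulVec_smul,
        hgv, ← hgw, polarBilin_apply_apply, polar_smul_left, hpol, smul_eq_mul]
      match_scalars <;> field_simp
    have := qFun_add h1 (qFun_neg (hY ((c * N / β) / N * α)))
    convert this using 1
    match_scalars <;> field_simp <;> ring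
  intro φ hφ
  obtain ⟨x, hx⟩ : ∃ x, ∀ z, polar Qf x z = φ z :=
    ⟨(LinearMap.BilinForm.toDual (polarBilin Qf) (polarBilin_nondeg K.hB)).symm φ, fun z =>
      LinearMap.BilinForm.apply_toDual_symm_apply (hB := polarBilin_nondeg K.hB) _ z⟩
  have hxv : polar Qf v x = 0 := by rw [polar_comm, hx, hφ]
  have hxY : x ∈ qFun Qf M v := by
    rw [hexp x, hxv, zero_smul, add_zero]
    exact qFun_add (qFun_add (hline _) (hY _)) (hY' _)
  obtain ⟨h, hm⟩ := hxY
  convert hm using 1
  exact gl_ext_mulVec fun z => by simp [hx]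

omit K

/-- The similarity group of a quadratic form is maximal in `SL₄` in odd characteristic. -/
theorem quad_maximal (h4 : Fintype.card ι = 4) (h2 : (2 : F) ≠ 0) {Q : (ι → F) → F}
    (hQ : IsNondegenerateQuadraticForm Q) :
    IsMaximalIn (specialLinear ι F) (quadSimilarityGroup Q ⊓ specialLinear ι F) := by
  haveI : Nontrivial ι := Fintype.one_lt_card_iff_nontrivial.1 (by omega)
  set Qf := toQF hQ with hQfdef
  have hQf : ∀ x, Qf x = Q x := fun x => rfl
  have hB : BNondeg Qf := bNondeg_toQF hQ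
  have hV : finrank F (ι → F) = 4 := by rw [finrank_pi, h4]
  obtain ⟨e₀, -, he₀0, he₀⟩ := Forms.exists_singular_vector_of_three_le Qf
    (S := (⊤ : Submodule F (ι → F))) (by rw [finrank_top, hV]; norm_num)
  obtain ⟨f₀, hf₀, hef₀⟩ := Forms.exists_singular_partner hB he₀ he₀0
  have hee₀ : polar Qf e₀ e₀ = 0 := by rw [polar_self, he₀, smul_zero]
  refine ⟨lt_of_le_not_ge inf_le_right fun hle => ?_, fun M hM hMK => ?_⟩
  · have h0 : polarBilin Qf e₀ e₀ = 0 := hee₀
    obtain ⟨c, hc⟩ := (hle (transv_mem_specialLinear _ e₀ h0)).1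
    have h1 := hc f₀
    rw [transv_mulVec, polarBilin_apply_apply, hef₀, one_smul, ← hQf, ← hQf, hf₀, mul_zero,
      qf_add, hf₀, he₀, polar_comm Qf f₀ e₀, hef₀] at h1
    simp at h1
  by_cases hMW : M ≤ quadSimilarityGroup Q
  · exact Or.inl (le_antisymm (le_inf hMW hMK) hM)
  refine Or.inr (le_antisymm hMK ?_)
  have K : QCtx Qf M := ⟨hB, h2, h4, fun g hg c hc hgc =>
    hM ⟨⟨Units.mk0 c hc, fun z => hgc z⟩, hg⟩⟩
  obtain ⟨g, hgM, hgW⟩ := SetLike.not_le_iff_exists.1 hMW
  have hns : ¬ ∃ c : Fˣ, ∀ a, Qf ((g : Matrix ι ι F) *ᵥ a) = (c : F) * Qf a :=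
    fun ⟨c, hc⟩ => hgW ⟨c, fun a => hc a⟩
  obtain ⟨h, hhM, hhns, p, hp0, hp, hph⟩ := K.exists_fix_singular hgM hns
  obtain ⟨v₁, w₁, hv₁0, hv₁, hw₁0, hw₁⟩ := K.exists_transvection hhM (hMK hhM) hhns hp0 hp hph
  have hP : ∀ c : F, c • v₁ ∈ qFun Qf M v₁ := by
    by_cases hwv : w₁ ∈ F ∙ v₁
    · obtain ⟨γ, rfl⟩ := Submodule.mem_span_singleton.1 hwv
      exact K.line_of_self hv₁0 hv₁ (fun h => hw₁0 (by rw [h, zero_smul])) hw₁
    · exact K.line_of_outside hv₁ hw₁ hwv
  obtain ⟨e, w, he0, he, hwQ, hY⟩ := K.exists_aniso hv₁0 hv₁ hP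
  have heX : e ∈ centres M := K.mem_centres he0 he hwQ hY
  -- closing up
  have hline : ∀ a b : ι → F, a ∈ centres M → b ∈ centres M → b ∉ F ∙ a → b + a ∈ centres M := by
    intro a b ha hb hab
    obtain ⟨ψ, hψ1, hψ⟩ := exists_functional hab
    have := mulVec_mem_centres hb (ha ψ (hψ a (Submodule.mem_span_singleton_self a)))
    rwa [transv_mulVec, hψ1, one_smul] at this
  have hX0 : (0 : ι → F) ∈ centres M := by simpa using smul_mem_centres heX 0
  have hstep : ∀ a b : ι → F, a ∈ centres M → b ∈ centres M → a + b ∈ centres M := by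
    intro a b ha hb
    by_cases hab : a ∈ F ∙ b
    · obtain ⟨c, rfl⟩ := Submodule.mem_span_singleton.1 hab
      rw [show c • b + b = (c + 1) • b by module]
      exact smul_mem_centres hb _
    · exact hline b a hb ha hab
  -- conjugates by transvections at the centres
  have hmove : ∀ a, a ∈ centres M → ∀ (φ : (ι → F) →ₗ[F] F) (h : φ a = 0), ∀ b ∈ centres M,
      b + φ b • a ∈ centres M := fun a ha φ h b hb => by
    have := mulVec_mem_centres hb (ha φ h)
    rwa [transv_mulVec] at this
  refine specialLinear_le_of_transv_mem fun φ a h => ?_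
  suffices ha : a ∈ centres M from ha φ h
  -- the centres form a subspace invariant under the Siegel elements
  let X : Submodule F (ι → F) :=
    { carrier := centres M
      add_mem' := fun {a b} ha hb => hstep a b ha hb
      zero_mem' := hX0
      smul_mem' := fun c a ha => smul_mem_centres ha c }
  suffices hX : X = ⊤ by
    have : a ∈ X := hX ▸ Submodule.mem_top
    exact this
  rw [eq_top_iff]
  intro z _
  obtain ⟨f, hf, hef⟩ := Forms.exists_singular_partner hB he he0
  have hfe : polar Qf f e = 1 := by rw [polar_comm, hef]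
  have hinv : ∀ x (hx : polar Qf f x = 0), x - polar Qf x e • f - Qf x • f ∈ X := fun x hx => by
    have hm := mulVec_mem_centres heX (K.siegel_mem hf hx)
    rw [oqToGL_mulVec, siegel_apply, hfe, one_smul, mul_one] at hm
    have := X.sub_mem (show _ ∈ X from hm) (show e ∈ X from heX)
    convert this using 1
    module
  have hff : polar Qf f f = 0 := by rw [polar_self, hf, smul_zero]
  set T := LinearMap.ker (polarBilin Qf f) ⊓ LinearMap.ker (polarBilin Qf e) with hT
  obtain ⟨x₀, hx₀, hx₀Q⟩ : ∃ x ∈ T, Qf x ≠ 0 := by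
    by_contra hc
    push Not at hc
    obtain ⟨s, hs, hs0⟩ : ∃ s ∈ T, s ≠ 0 := by
      refine T.ne_bot_iff.1 fun h => ?_
      have h3 := finrank_inf_ker_ge (polarBilin Qf e) (LinearMap.ker (polarBilin Qf f))
      have h5 := finrank_inf_ker_ge (polarBilin Qf f) (⊤ : Submodule F (ι → F))
      rw [top_inf_eq, finrank_top, hV] at h5
      rw [← hT, h, finrank_bot] at h3
      omega
    refine hs0 (hB s fun z => ?_)
    have hee : polar Qf e e = 0 := by rw [polar_self, he, smul_zero]
    set z' := z - polar Qf f z • e - polar Qf e z • f with hz'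
    have hz'T : z' ∈ T := ⟨by
      show polar Qf f z' = 0
      simp [hz', polar_sub_right, polar_smul_right, hfe, hff], by
      show polar Qf e z' = 0
      simp [hz', polar_sub_right, polar_smul_right, hee, hef]⟩
    have e1 : polar Qf s z' = 0 := by
      have hsum := hc _ (T.add_mem hs hz'T)
      rw [qf_add, hc s hs, hc z' hz'T] at hsum
      simpa using hsum
    rw [hz', polar_sub_right, polar_sub_right, polar_smul_right, polar_smul_right, polar_comm Qf s e,
      polar_comm Qf s f, show polar Qf e s = 0 from hs.2, show polar Qf f s = 0 from hs.1] at e1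
    simpa using e1
  -- the partner
  have hfX : f ∈ X := by
    have hx₀e : polar Qf x₀ e = 0 := (polar_comm Qf x₀ e).trans hx₀.2
    have h1 := hinv x₀ hx₀.1
    have h2' := hinv (-x₀) (by rw [polar_neg_right, show polar Qf f x₀ = 0 from hx₀.1, neg_zero])
    rw [QuadraticMap.map_neg, polar_neg_left, hx₀e, neg_zero, zero_smul, sub_zero] at h2'
    rw [hx₀e, zero_smul, sub_zero] at h1
    have h3 := X.smul_mem (-(2 * Qf x₀)⁻¹) (X.add_mem h1 h2')
    convert h3 using 1
    match_scalars <;> field_simp <;> ring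
  set z' := z - polar Qf f z • e - polar Qf e z • f with hz'
  have hz'f : polar Qf f z' = 0 := by simp [hz', polar_sub_right, polar_smul_right, hfe, hff]
  have hz'X : z' ∈ X := by
    have := X.add_mem (hinv z' hz'f) (X.smul_mem (polar Qf z' e + Qf z') hfX)
    convert this using 1
    module
  have := X.add_mem (X.add_mem hz'X (X.smul_mem (polar Qf f z) (show e ∈ X from heX)))
    (X.smul_mem (polar Qf e z) hfX)
  convert this using 1
  rw [hz']
  module

end Cfsg.Agent.MaxSub.SLFour
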