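import Cfsg.Agent.MaxSub.SubfieldMax.Main

/-!
Subfield groups of prime index are maximal in the special linear group of a four-dimensional space.
-/

set_option autoImplicit false
set_option linter.unusedSectionVars false
set_option linter.style.haveILetI false

namespace Cfsg.Agent.MaxSub.SLFour

open Matrix Cfsg.Geo Cfsg.Agent.MaxSub.SubfieldMax
open scoped MatrixGroups Matrix

variable {ι : Type} [Fintype ι] [DecidableEq ι] {F : Type*} [Field F] [Fintype F]
  {M : Subgroup (GL ι F)} {F₀ : Subfield F}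

/-- Conjugating a transvection by a rational elementary one. -/
theorem elem_step (hEl : ∀ c ∈ F₀, Asc M c) {x φ : ι → F} (ht : InM M x φ) (hφx : φ ⬝ᵥ x = 0) {a : F}
    (ha : a ∈ F₀) {l j : ι} (hlj : l ≠ j) :
    InM M (x + (a * x j) • ev F l) (φ - (a * φ l) • ev F j) ∧
      (φ - (a * φ l) • ev F j) ⬝ᵥ (x + (a * x j) • ev F l) = 0 := by
  obtain ⟨σ, hσ, eσ⟩ := hEl a ha l j hlj
  have hinv := inv_val_of_sq eσ (vmv_mul_vmv_zero
    (show ev F j ⬝ᵥ (a • ev F l) = 0 by rw [dotProduct_smul, ev_dot_ev hlj.symm, smul_zero]) _ _)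
  refine ⟨?_, ?_⟩
  · have h := ht.conj hσ
    rw [eσ, hinv] at h
    convert h using 1
    · rw [Matrix.add_mulVec, Matrix.one_mulVec, Matrix.vecMulVec_mulVec, ev_dot]
      ext y; simp; ring
    · rw [Matrix.vecMul_sub, Matrix.vecMul_one, Matrix.vecMul_vecMulVec, dotProduct_smul, dot_ev, smul_eq_mul]
  · simp only [sub_dotProduct, dotProduct_add, smul_dotProduct, dotProduct_smul, ev_dot, dot_ev, smul_eq_mul, hφx]
    simp [ev, hlj.symm]
    ring

/-- Quadratic case in dimension four. -/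
theorem exists_param_quadratic_four (h4 : Fintype.card ι = 4) (hq : Fintype.card F = Nat.card F₀ ^ 2)
    (hEl : ∀ c ∈ F₀, Asc M c) {x φ : ι → F} (ht : InM M x φ) (hφx : φ ⬝ᵥ x = 0) {i : ι} (hi : φ i ≠ 0)
    (hx : Irr F₀ x) : ∃ c, Asc M c ∧ c ∉ F₀ := by
  classical
  haveI := Fintype.ofFinite F₀
  obtain ⟨j, k, hj, hc⟩ := hx
  set c := x k / x j with hcdef
  have hjk : j ≠ k := fun e => hc (by rw [hcdef, ← e, div_self hj]; exact one_mem _)
  -- the field is spanned by one and the ratio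
  have hspan : ∀ z : F, ∃ α ∈ F₀, ∃ β ∈ F₀, z = α + β * c := by
    have hinj : Function.Injective (fun ab : F₀ × F₀ => (ab.1 : F) + ab.2 * c) := by
      rintro ⟨a, b⟩ ⟨a', b'⟩ e
      simp only at e
      by_cases hb : b = b'
      · subst hb
        simpa using e
      · refine absurd ?_ hc
        have hne : ((b : F) - b') ≠ 0 := sub_ne_zero.2 (fun e => hb (Subtype.ext e))
        rw [show c = ((a' : F) - a) / ((b : F) - b') by rw [eq_div_iff hne]; linear_combination e]
        exact div_mem (sub_mem a'.2 a.2) (sub_mem b.2 b'.2)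
    have hbij := (Fintype.bijective_iff_injective_and_card _).2 ⟨hinj, by
      rw [hq, Fintype.card_prod, Nat.card_eq_fintype_card, pow_two]⟩
    intro z
    obtain ⟨⟨a, b⟩, e⟩ := hbij.2 z
    exact ⟨a, a.2, b, b.2, e.symm⟩
  obtain ⟨l, hl⟩ := exists_avoid {j, k} (Finset.card_le_two.trans_lt (by omega))
  obtain ⟨m, hm⟩ := exists_avoid {j, k, l} (Finset.card_le_three.trans_lt (by omega))
  simp only [Finset.mem_insert, Finset.mem_singleton, not_or] at hl hm
  have hall : ∀ y, y = j ∨ y = k ∨ y = l ∨ y = m := by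
    have hcd : ({j, k, l, m} : Finset ι).card = 4 := by
      rw [Finset.card_insert_of_notMem (by simp [hjk, Ne.symm hl.1, Ne.symm hm.1]),
        Finset.card_insert_of_notMem (by simp [Ne.symm hl.2, Ne.symm hm.2.1]),
        Finset.card_insert_of_notMem (by simp [Ne.symm hm.2.2]), Finset.card_singleton]
    have := (Finset.card_eq_iff_eq_univ _).1 (hcd.trans h4.symm)
    intro y
    have hy := Finset.mem_univ y
    rw [← this] at hy
    simpa using hy
  -- clearing the coordinates `l` and `m`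
  have clear : ∀ {x φ : ι → F}, InM M x φ → φ ⬝ᵥ x = 0 → φ ≠ 0 → x j ≠ 0 → x k / x j = c → ∀ {l}, l ≠ j → l ≠ k →
      ∃ x' φ', InM M x' φ' ∧ φ' ⬝ᵥ x' = 0 ∧ φ' ≠ 0 ∧ x' l = 0 ∧ (∀ y, y ≠ l → x' y = x y) := by
    intro x φ ht h0 hφ hxj hxk l hlj hlk
    obtain ⟨α, hα, β, hβ, e⟩ := hspan (x l / x j)
    obtain ⟨h1, h1'⟩ := elem_step hEl ht h0 (neg_mem hα) hlj
    obtain ⟨h2, h2'⟩ := elem_step hEl h1 h1' (neg_mem hβ) hlk
    refine ⟨_, _, h2, h2', fun e0 => hφ ?_, ?_, fun y hy => ?_⟩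
    · have el : φ l = 0 := by
        have := congrFun e0 l
        simpa [ev, hlj, hlk] using this
      funext y
      have := congrFun e0 y
      simpa [el, ev, hlj] using this
    · rw [← hxk] at e
      simp [ev, hlk.symm]
      field_simp at e
      linear_combination e
    · simp [ev, hy]
  obtain ⟨x₁, φ₁, ht₁, h01, hφ₁, hl₁, hx₁⟩ := clear ht hφx (fun e => hi (by rw [e]; rfl)) hj rfl hl.1 hl.2
  obtain ⟨x₂, φ₂, ht₂, h02, hφ₂, hm₂, hx₂⟩ := clear ht₁ h01 hφ₁
    (by rw [hx₁ j (Ne.symm hl.1)]; exact hj) (by rw [hx₁ j (Ne.symm hl.1), hx₁ k (Ne.symm hl.2)]) hm.1 hm.2.1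
  have hj₂ : x₂ j = x j := by rw [hx₂ j (Ne.symm hm.1), hx₁ j (Ne.symm hl.1)]
  have hk₂ : x₂ k = x k := by rw [hx₂ k (Ne.symm hm.2.1), hx₁ k (Ne.symm hl.2)]
  have hl₂ : x₂ l = 0 := by rw [hx₂ l (Ne.symm hm.2.2), hl₁]
  have finish : ∀ {φ : ι → F} {l m : ι}, InM M x₂ φ → φ ⬝ᵥ x₂ = 0 → φ l ≠ 0 → l ≠ m → l ≠ j → l ≠ k →
      x₂ l = 0 → x₂ m = 0 → ∃ c, Asc M c ∧ c ∉ F₀ := by
    intro φ l m ht h0 hl0 hlm hlj hlk hxl hxm
    have h1 : InM M (ev F l) (ev F m) := by simpa using hEl 1 (one_mem _) l m hlm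
    have h2 : InM M (φ l • x₂) (ev F m) := by
      have := ht.comm h1 h0 (ev_dot_ev hlm.symm) (by rw [ev_dot, hxm])
      rwa [dot_ev] at this
    have h3 : ∀ z, z ≠ l → Asc M (φ l * x₂ z) := fun z hz => by
      have := (hEl 1 (one_mem _) l z (Ne.symm hz)).comm h2 (by rw [one_smul, ev_dot_ev hz])
        (by rw [dotProduct_smul, ev_dot, hxm, smul_zero]) (by rw [one_smul, ev_dot_ev hlm.symm])
      rw [one_smul, dotProduct_smul, ev_dot, smul_eq_mul] at this
      exact asc_of_one (by omega) (hEl 1 (one_mem _)) hlm this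
    by_contra hcon
    push Not at hcon
    apply hc
    have := div_mem (hcon _ (h3 k (Ne.symm hlk))) (hcon _ (h3 j (Ne.symm hlj)))
    rwa [mul_div_mul_left _ _ hl0, hj₂, hk₂] at this
  by_cases hA : φ₂ l = 0
  swap; · exact finish ht₂ h02 hA (Ne.symm hm.2.2) hl.1 hl.2 hl₂ hm₂
  by_cases hB : φ₂ m = 0
  swap; · exact finish ht₂ h02 hB hm.2.2 hm.1 hm.2.1 hm₂ hl₂
  have hφj : φ₂ j ≠ 0 := by
    intro e
    apply hφ₂
    have hk0 : x₂ k ≠ 0 := by
      rw [hk₂]; intro e'; exact hc (by rw [hcdef, e', zero_div]; exact zero_mem _)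
    have hsum : φ₂ k * x₂ k = 0 := by
      rw [← h02, dotProduct, Finset.sum_eq_single k (fun y _ hy => ?_) (by simp)]
      rcases hall y with rfl | rfl | rfl | rfl
      · rw [e, zero_mul]
      · exact absurd rfl hy
      · rw [hA, zero_mul]
      · rw [hB, zero_mul]
    funext y
    rcases hall y with rfl | rfl | rfl | rfl
    · exact e
    · exact (mul_eq_zero.1 hsum).resolve_right hk0
    · exact hA
    · exact hB
  obtain ⟨h5, h5'⟩ := elem_step hEl ht₂ h02 (one_mem _) (Ne.symm hl.1)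
  rw [hl₂, mul_zero, zero_smul, add_zero] at h5 h5'
  exact finish h5 h5' (by simp [ev, hA, hl.1, hφj]) (Ne.symm hm.2.2) hl.1 hl.2 hl₂ hm₂

/-- **The dichotomy.** -/
theorem dichotomy_four {r : ℕ} (hr : r.Prime) (h4 : Fintype.card ι = 4) (hcard : Fintype.card F = Nat.card F₀ ^ r)
    (hEl : ∀ c ∈ F₀, Asc M c) : specialLinear ι F ≤ M ∨ M ≤ subfieldSubgroup F₀ 1 := by
  haveI : Nonempty ι := Fintype.card_pos_iff.mp (by omega)
  haveI : Nontrivial ι := Fintype.one_lt_card_iff_nontrivial.mp (by omega)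
  have hmid := mid_of_prime hr hcard
  by_cases h : ∀ g ∈ M, ∀ i, ¬ Irr F₀ fun k => (g : Matrix ι ι F) k i
  · exact Or.inr (le_subfieldSubgroup_of_columns hEl h)
  push Not at h
  obtain ⟨g, hg, i, hx⟩ := h
  left
  obtain ⟨j, hji⟩ := exists_ne i
  set x : ι → F := fun k => (g : Matrix ι ι F) k i with hxdef
  set φ : ι → F := fun k => ((g⁻¹ : GL ι F) : Matrix ι ι F) j k with hφdef
  have ht : ∀ a ∈ F₀, InM M (a • x) φ := fun a ha => by
    have := (hEl a ha i j hji.symm).conj hg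
    rwa [Matrix.mulVec_smul, Matrix.mulVec_single_one, Matrix.single_one_vecMul] at this
  have hφx : φ ⬝ᵥ x = 0 := by
    show (((g⁻¹ : GL ι F) : Matrix ι ι F) * (g : Matrix ι ι F)) j i = 0
    rw [← Units.val_mul, inv_mul_cancel, Units.val_one, Matrix.one_apply_ne hji]
  obtain ⟨i₀, hi₀⟩ : ∃ i₀, φ i₀ ≠ 0 := by
    by_contra hc
    push Not at hc
    exact Matrix.GeneralLinearGroup.det_ne_zero g⁻¹ (Matrix.det_eq_zero_of_row_eq_zero j hc)
  rcases hr.eq_two_or_odd with rfl | hodd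
  · obtain ⟨c, hc, hcF⟩ := exists_param_quadratic_four h4 hcard hEl
      (by simpa using ht 1 (one_mem _)) hφx hi₀ hx
    exact specialLinear_le_of_asc (by omega) hmid hEl hc hcF
  · obtain ⟨x', φ', i', j', k', ht', hφx', h1, h2, h3, g4, g5⟩ :=
      exists_indices (by omega) (hEl 1 (one_mem _)) ht hφx hi₀ hx
    have := hr.two_le
    obtain ⟨c, hc, hcF⟩ := exists_param_odd (by omega) (by omega) hcard hmid hEl ht' hφx' h1 h2 h3 g4 g5
    exact specialLinear_le_of_asc (by omega) hmid hEl hc hcF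

/-- **Subfield groups of prime index are maximal in `SL`.** -/
theorem subfield_maximal {r : ℕ} (hr : r.Prime) (h4 : Fintype.card ι = 4)
    (hcard : Fintype.card F = Nat.card F₀ ^ r) (P : GL ι F) :
    IsMaximalIn (specialLinear ι F) (subfieldSubgroup F₀ P ⊓ specialLinear ι F) := by
  classical
  haveI : Nontrivial ι := Fintype.one_lt_card_iff_nontrivial.mp (by omega)
  have hF0 : F₀ ≠ ⊤ := by
    rintro rfl
    rw [Nat.card_congr (Subfield.topEquiv : (⊤ : Subfield F) ≃+* F).toEquiv, Nat.card_eq_fintype_card] at hcard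
    have := (Nat.pow_right_injective Fintype.one_lt_card ((pow_one (Fintype.card F)).trans hcard)).symm
    exact hr.ne_one this
  have hnot := not_le_subfieldSubgroup hF0 P
  refine ⟨lt_of_le_not_ge inf_le_right fun h => hnot (h.trans inf_le_left), fun K hK hKS => ?_⟩
  set M : Subgroup (GL ι F) := K.comap (MulAut.conj P).toMonoidHom with hM
  have hdetc : ∀ y : GL ι F, (MulAut.conj P y : GL ι F) ∈ specialLinear ι F ↔ y ∈ specialLinear ι F := by
    intro y
    simp only [MulAut.conj_apply, Cfsg.Agent.GeoClasses.mem_specialLinear_iff, Units.val_mul]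
    rw [Matrix.det_mul, Matrix.det_mul, mul_right_comm, ← Matrix.det_mul, ← Units.val_mul, mul_inv_cancel,
      Units.val_one, Matrix.det_one, one_mul]
  have hmemP : ∀ y ∈ subfieldSubgroup F₀ (1 : GL ι F), MulAut.conj P y ∈ subfieldSubgroup F₀ P := by
    intro y hy
    rw [subfieldSubgroup, Subgroup.mem_map] at hy ⊢
    obtain ⟨w, hw, rfl⟩ := hy
    exact ⟨w, hw, by simp⟩
  have hEl : ∀ c ∈ F₀, Asc M c := by
    intro c hc i j hij
    let T : GL ι F₀ := Matrix.SpecialLinearGroup.toGL (Matrix.SpecialLinearGroup.transvection hij (⟨c, hc⟩ : F₀))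
    refine ⟨Matrix.GeneralLinearGroup.map (F₀.subtype : F₀ →+* F) T, hK ⟨hmemP _ ?_, (hdetc _).2 ?_⟩, ?_⟩
    · exact ⟨_, Subgroup.mem_sup_left ⟨T, rfl⟩, by simp⟩
    · rw [Cfsg.Agent.GeoClasses.mem_specialLinear_iff]
      show (F₀.subtype.mapMatrix ((Matrix.SpecialLinearGroup.transvection hij (⟨c, hc⟩ : F₀) :
        Matrix.SpecialLinearGroup ι F₀) : Matrix ι ι F₀)).det = 1
      rw [← RingHom.map_det, Matrix.SpecialLinearGroup.det_coe, map_one]
    · ext a b
      simp [T, Matrix.SpecialLinearGroup.transvection_coe, vecMulVec_apply, Matrix.single, ev, Pi.single_apply,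
        Matrix.one_apply, eq_comm, ite_and]
      split_ifs <;> simp_all
  rcases dichotomy_four hr h4 hcard hEl with h | h
  · right
    refine le_antisymm hKS fun y hy => ?_
    have hz := (MulAut.conj P).apply_symm_apply y
    have h1 := h ((hdetc _).1 (hz ▸ hy))
    rw [hM, Subgroup.mem_comap, MulEquiv.coe_toMonoidHom, hz] at h1
    exact h1
  · left
    refine le_antisymm (fun y hy => ⟨?_, hKS hy⟩) hK
    have hz := (MulAut.conj P).apply_symm_apply y
    have h1 := hmemP _ (h (show (MulAut.conj P).symm y ∈ M by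
      rw [hM, Subgroup.mem_comap, MulEquiv.coe_toMonoidHom, hz]; exact hy))
    rwa [hz] at h1

end Cfsg.Agent.MaxSub.SLFour
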