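import Cfsg.Agent.GeoClasses.UnitSimMax

/-!
The similarity group of a unitary form is maximal in the special linear group, dimension at
least four.
-/

set_option autoImplicit false
set_option linter.unusedSectionVars false

namespace Cfsg.Agent.MaxSub.SLFour

open Matrix Cfsg.Geo Cfsg.Agent.Classical.U Cfsg.Agent.ClassicalMax Cfsg.Agent.GeoClasses Module
open Cfsg.Agent.Forms (hperp mem_hperp finrank_hperp hperp_hperp)
open scoped MatrixGroups Matrix

universe u

variable {F : Type u} [Field F] {n q : ℕ}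

variable (hF : SqField F q)
include hF

theorem uFun_rescale {M : Subgroup (GL (Fin n) F)} {v w : Fin n → F} {μ : F} (hμ : μ ≠ 0)
    (h : w ∈ uFun q M (μ • v)) : μ ^ q • w ∈ uFun q M v := by
  obtain ⟨h, hm⟩ := h
  have e : ∀ x, hermL q (μ ^ q • w) x = μ * hermL q w x := fun x => by
    simp [hermL_apply, herm_smul_right, hF.pow_pow]
  have h' : hermL q w v = 0 := by
    rw [map_smul, smul_eq_mul] at h
    exact (mul_eq_zero.1 h).resolve_left hμ
  refine ⟨by rw [e, h', mul_zero], ?_⟩
  convert hm using 1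
  refine gl_ext_mulVec fun x => ?_
  simp only [transv_mulVec, e]
  module

/-- Upgrading the multiples of an isotropic vector from a line over the fixed field to all. -/
theorem line_mem_uFun {M : Subgroup (GL (Fin n) F)}
    (hSU : ∀ k ∈ SUG n F q, ugToGL n F q k ∈ M) {v e w : Fin n → F} (hv : herm q v v = 0)
    (he : herm q e e = 0) (hev : herm q e v = 0)
    (hline : ∀ d : F, d ^ q = -d → (d * herm q w e) • e ∈ uFun q M v)
    (hv0 : v ≠ 0) (hne : e ∉ F ∙ v) (hwe : herm q w e ≠ 0) (_hw : w ∈ uFun q M v) (c : F) :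
    c • e ∈ uFun q M v := by
  have hve := Cfsg.Agent.Forms.herm_comm_zero hF hev
  have he0 : e ≠ 0 := fun h => hne (h ▸ zero_mem _)
  have hne' : v ∉ F ∙ e := fun h => by
    obtain ⟨l, hl⟩ := Submodule.mem_span_singleton.1 h
    have hl0 : l ≠ 0 := fun h0 => hv0 (by rw [← hl, h0, zero_smul])
    exact hne (Submodule.mem_span_singleton.2 ⟨l⁻¹, by rw [← hl, inv_smul_smul₀ hl0]⟩)
  -- root elements swapping between the two vectors
  have hroot : ∀ a b : Fin n → F, herm q a a = 0 → herm q b b = 0 → herm q b a = 0 → b ∉ F ∙ a →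
      ∀ t : F, ∃ k ∈ SUG n F q, k.1 a = a ∧ k.1 b = b + t • a := by
    intro a b ha hb hba hbna t
    have haS : b ∈ hperp q (F ∙ a) := fun x hx => by
      obtain ⟨l, rfl⟩ := Submodule.mem_span_singleton.1 hx
      rw [herm_smul_right, hba, mul_zero]
    obtain ⟨g, hgS, hp⟩ := exists_pair_mem hF haS hb (by
      by_contra hcon
      push Not at hcon
      apply hbna
      rw [← hperp_hperp hF (F ∙ a), mem_hperp]
      exact fun y hy => Cfsg.Agent.Forms.herm_comm_zero hF (hcon y hy))
    obtain ⟨-, hg, hbg⟩ := hp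
    have hga : herm q g a = 0 := hgS a (Submodule.mem_span_singleton_self a)
    have hc : UniCond q a ((-t) ^ q • g) 0 :=
      ⟨ha, by rw [herm_smul_left, hga, mul_zero], by
        rw [herm_smul_left, herm_smul_right, hg, zero_pow hF.q_ne_zero]; ring⟩
    refine ⟨uni hF hc, det_uni hF hc, ?_, ?_⟩
    · rw [uni_apply, ha, herm_smul_right, Cfsg.Agent.Forms.herm_comm_zero hF hga]
      simp
    · rw [uni_apply, hba, herm_smul_right, hbg, hF.pow_pow]
      simp
  have hw : ∀ t : F, t ≠ 0 → ∃ k ∈ SUG n F q, k.1 e = t • v ∧ k.1 v = (-t⁻¹) • e := by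
    intro t ht
    obtain ⟨A, hA, hAv, hAe⟩ := hroot v e hv he hev hne t
    obtain ⟨B, hB, hBe, hBv⟩ := hroot e v he hv hve hne' (-t⁻¹)
    refine ⟨A * B * A, mul_mem (mul_mem hA hB) hA, ?_, ?_⟩
    · show A.1 (B.1 (A.1 e)) = _
      rw [hAe, map_add, map_smul, hBe, hBv, smul_add, smul_smul, map_add, map_add, map_smul, map_smul,
        hAe, hAv]
      match_scalars <;> field_simp <;> ring
    · show A.1 (B.1 (A.1 v)) = _
      rw [hAv, hBv, map_add, map_smul, hAe, hAv]
      match_scalars <;> field_simp <;> ring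
  -- a torus parameter
  haveI : Finite F := hF.1
  haveI := Fintype.ofFinite F
  obtain ⟨u, hu⟩ := IsCyclic.exists_ofOrder_eq_natCard (α := Fˣ)
  set μ : F := (u : F) with hμdef
  have hμ : μ ≠ 0 := u.ne_zero
  have hq := hF.one_lt
  set lam := μ ^ q / μ with hlam
  have hlam0 : lam ≠ 0 := div_ne_zero (pow_ne_zero _ hμ) hμ
  have hlamF : lam ^ q ≠ lam := by
    intro h
    rw [hF.fixed_iff hlam0] at h
    have hlam' : lam = μ ^ (q - 1) := by
      rw [hlam, div_eq_iff hμ, ← pow_succ, Nat.sub_add_cancel hq.le]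
    rw [hlam', ← pow_mul] at h
    have hd := orderOf_dvd_of_pow_eq_one (Units.ext (by simpa [hμdef] using h) : u ^ ((q - 1) * (q - 1)) = 1)
    rw [hu, hF.card_units] at hd
    have := Nat.le_of_dvd (Nat.mul_pos (by omega) (by omega)) (Nat.dvd_of_mul_dvd_mul_left (by omega) hd |>.trans
      (dvd_mul_right (q - 1) 1))
    omega
  -- the torus carries the line over the fixed field to a second one
  have hsecond : ∀ d : F, d ^ q = -d → (lam * (d * herm q w e)) • e ∈ uFun q M v := by
    intro d hd
    obtain ⟨k₁, hk₁, e1, e1'⟩ := hw μ hμ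
    obtain ⟨k₂, hk₂, e2, e2'⟩ := hw (-1) (neg_ne_zero.2 one_ne_zero)
    have hkv : (k₁ * k₂).1 v = μ • v := by
      show k₁.1 (k₂.1 v) = _
      rw [e2', map_smul, e1, smul_smul]
      congr 1
      field_simp
    have hke : (k₁ * k₂).1 e = μ⁻¹ • e := by
      show k₁.1 (k₂.1 e) = _
      rw [e2, map_smul, e1', smul_smul]
      congr 1
      ring
    have h1 := uFun_map hF (hline d hd) (hSU _ (mul_mem hk₁ hk₂))
    rw [map_smul, hkv, hke, smul_smul] at h1
    have := uFun_rescale hF hμ h1
    rw [smul_smul] at this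
    convert this using 2
    rw [hlam]
    field_simp
  -- solve for the two coordinates over the fixed field
  obtain ⟨d₀, hd₀, hd₀q⟩ := hF.exists_skew
  set c' := c / (d₀ * herm q w e) with hc'
  set b := (c' - c' ^ q) / (lam - lam ^ q) with hb
  set a := c' - b * lam with ha
  have hden : lam - lam ^ q ≠ 0 := sub_ne_zero.2 (Ne.symm hlamF)
  have hbq : b ^ q = b := by
    rw [hb, div_pow, hF.sub_pow, hF.sub_pow, hF.pow_pow, hF.pow_pow, ← neg_sub (c'), ← neg_sub lam,
      neg_div_neg_eq]
  have haq : a ^ q = a := by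
    rw [ha, hF.sub_pow, mul_pow, hbq]
    have : b * (lam - lam ^ q) = c' - c' ^ q := by rw [hb, div_mul_cancel₀ _ hden]
    linear_combination this
  have hskew : ∀ r : F, r ^ q = r → (r * d₀) ^ q = -(r * d₀) := fun r hr => by
    rw [mul_pow, hr, hd₀q]; ring
  have := uFun_add hF (hline _ (hskew a haq)) (hsecond _ (hskew b hbq))
  convert this using 1
  rw [← add_smul]
  congr 1
  rw [ha, hc']
  field_simp
  ring

/-- The auxiliary vector moving an anisotropic centre to an isotropic one. -/
theorem exists_aux_vector (hn : 4 ≤ n) {v w : Fin n → F} (hv : herm q v v ≠ 0)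
    (hvw0 : herm q v w = 0) (hwv : w ∉ F ∙ v) (β : F) :
    ∃ z, herm q z v = β ∧ herm q z w = 1 ∧ herm q z z = 0 ∧ ∀ a b : F, z ≠ a • v + b • w := by
  have hwv0 := Cfsg.Agent.Forms.herm_comm_zero hF hvw0
  have hvq : herm q v v ^ q = herm q v v := hF.herm_symm v v
  set k := β / herm q v v with hk
  set τ := -(k * k ^ q * herm q v v) with hτ
  have hτq : τ ^ q = τ := by
    rw [hτ, hF.neg_pow, mul_pow, mul_pow, hF.pow_pow, hvq]; ring
  have hw0 : w ≠ 0 := fun h => hwv (h ▸ zero_mem _)
  obtain ⟨a, hav, haw, haa, hanot⟩ : ∃ a, herm q a v = 0 ∧ herm q a w = 1 ∧ herm q a a = τ ∧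
      a ∉ F ∙ w := by
    by_cases hww : herm q w w = 0
    · obtain ⟨f, hfS, hp⟩ := exists_pair_mem hF (S := hperp q (F ∙ v)) (e := w)
        (fun x hx => by
          obtain ⟨l, rfl⟩ := Submodule.mem_span_singleton.1 hx
          rw [herm_smul_right, hwv0, mul_zero]) hww (by
          by_contra hcon
          push Not at hcon
          apply hwv
          rw [← hperp_hperp hF (F ∙ v), mem_hperp]
          exact fun y hy => Cfsg.Agent.Forms.herm_comm_zero hF (hcon y hy))
      obtain ⟨-, hf, hwf⟩ := hp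
      have hfw : herm q f w = 1 := by rw [← hF.herm_symm, hwf, one_pow]
      obtain ⟨l, hl⟩ := hF.exists_trace hτq
      refine ⟨f + l • w, ?_, ?_, ?_, fun h => ?_⟩
      · rw [herm_add_left, herm_smul_left, hfS v (Submodule.mem_span_singleton_self v), hwv0]; ring
      · rw [herm_add_left, herm_smul_left, hfw, hww]; ring
      · simp only [herm_add_left, hF.herm_add_right, herm_smul_left, herm_smul_right, hf, hww, hwf, hfw]
        linear_combination hl
      · obtain ⟨r, hr⟩ := Submodule.mem_span_singleton.1 h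
        have := congrArg (fun x => herm q x w) hr
        simp only [herm_smul_left, herm_add_left, hfw, hww] at this
        exact one_ne_zero (α := F) (by linear_combination -this)
    · set U := hperp q (Submodule.span F (Set.range ![v, w])) with hU
      have hUmem : ∀ {x}, x ∈ U → herm q x v = 0 ∧ herm q x w = 0 := fun {x} hx =>
        ⟨hx v (Submodule.subset_span ⟨0, rfl⟩), hx w (Submodule.subset_span ⟨1, rfl⟩)⟩
      obtain ⟨e, heU, he0, he⟩ := exists_isotropic_mem hF (S := U) (by
        rw [hU, finrank_hperp hF]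
        have := (finrank_range_le_card (R := F) ![v, w]).trans_eq (Fintype.card_fin 2)
        unfold Set.finrank at this
        omega)
      obtain ⟨f, hfU, hp⟩ := exists_pair_mem hF heU he (by
        by_contra hcon
        push Not at hcon
        have hmem : e ∈ hperp q U := fun y hy => Cfsg.Agent.Forms.herm_comm_zero hF (hcon y hy)
        rw [hU, hperp_hperp hF, Submodule.mem_span_range_iff_exists_fun] at hmem
        obtain ⟨r, hr⟩ := hmem
        simp only [Fin.sum_univ_two, Matrix.cons_val_zero, Matrix.cons_val_one] at hr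
        have h1 := (hUmem heU).1
        have h2 := (hUmem heU).2
        rw [← hr, herm_add_left, herm_smul_left, herm_smul_left] at h1 h2
        rw [hwv0, mul_zero, add_zero] at h1
        rw [hvw0, mul_zero, zero_add] at h2
        rw [(mul_eq_zero.1 h1).resolve_right hv, (mul_eq_zero.1 h2).resolve_right hww, zero_smul,
          zero_smul, zero_add] at hr
        exact he0 hr.symm)
      obtain ⟨-, hf, hef⟩ := hp
      have hfe : herm q f e = 1 := by rw [← hF.herm_symm, hef, one_pow]
      have hwq : herm q w w ^ q = herm q w w := hF.herm_symm w w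
      obtain ⟨l, hl⟩ := hF.exists_trace (c := τ - (herm q w w)⁻¹)
        (by rw [hF.sub_pow, hτq, inv_pow, hwq])
      set b := f + l • e with hb
      have hbv : herm q b v = 0 := by
        rw [hb, herm_add_left, herm_smul_left, (hUmem hfU).1, (hUmem heU).1]; ring
      have hbw : herm q b w = 0 := by
        rw [hb, herm_add_left, herm_smul_left, (hUmem hfU).2, (hUmem heU).2]; ring
      have hbb : herm q b b = τ - (herm q w w)⁻¹ := by
        simp only [hb, herm_add_left, hF.herm_add_right, herm_smul_left, herm_smul_right, hf, he, hef, hfe]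
        linear_combination hl
      have hbe : herm q b e = 1 := by rw [hb, herm_add_left, herm_smul_left, hfe, he]; ring
      refine ⟨(herm q w w)⁻¹ • w + b, ?_, ?_, ?_, fun h => ?_⟩
      · rw [herm_add_left, herm_smul_left, hwv0, hbv]; ring
      · rw [herm_add_left, herm_smul_left, inv_mul_cancel₀ hww, hbw]; ring
      · simp only [herm_add_left, hF.herm_add_right, herm_smul_left, herm_smul_right, hbb, hbw,
          Cfsg.Agent.Forms.herm_comm_zero hF hbw, inv_pow, hwq]
        field_simp
        ring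
      · obtain ⟨r, hr⟩ := Submodule.mem_span_singleton.1 h
        have := congrArg (fun x => herm q x e) hr
        simp only [herm_smul_left, herm_add_left, hbe, Cfsg.Agent.Forms.herm_comm_zero hF (hUmem heU).2] at this
        exact one_ne_zero (α := F) (by linear_combination -this)
  refine ⟨k • v + a, ?_, ?_, ?_, fun x y h => hanot ?_⟩
  · rw [herm_add_left, herm_smul_left, hav, hk, div_mul_cancel₀ _ hv, add_zero]
  · rw [herm_add_left, herm_smul_left, hvw0, haw, mul_zero, zero_add]
  · simp only [herm_add_left, hF.herm_add_right, herm_smul_left, herm_smul_right, hav,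
      Cfsg.Agent.Forms.herm_comm_zero hF hav, haa, hτ]
    ring
  · have hx : k = x := by
      have := congrArg (fun t => herm q t v) h
      simp only [herm_add_left, herm_smul_left, hav, hwv0, mul_zero, add_zero] at this
      exact mul_right_cancel₀ hv this
    rw [← hx] at h
    exact Submodule.mem_span_singleton.2 ⟨y, (add_left_cancel h).symm⟩

/-- An isotropic centre with a functional outside its line is a centre for all functionals. -/
theorem mem_centres_of_uFun_four (hn : 4 ≤ n) {M : Subgroup (GL (Fin n) F)}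
    (hSU : ∀ k ∈ SUG n F q, ugToGL n F q k ∈ M) {v w₀ : Fin n → F} (hv0 : v ≠ 0)
    (hv : herm q v v = 0) (hw₀ : w₀ ∈ uFun q M v) (hw₀v : w₀ ∉ F ∙ v) : v ∈ centres M := by
  set S := hperp q (F ∙ v) with hS
  have hmemS : ∀ {x}, herm q x v = 0 → x ∈ S := fun {x} h w hw => by
    obtain ⟨c, rfl⟩ := Submodule.mem_span_singleton.1 hw
    rw [herm_smul_right, h, mul_zero]
  have hSmem : ∀ {x}, x ∈ S → herm q x v = 0 := fun {x} h =>
    h v (Submodule.mem_span_singleton_self v)
  have hYS : ∀ {x}, x ∈ uFun q M v → x ∈ S := fun {x} h =>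
    hmemS (Cfsg.Agent.Forms.herm_comm_zero hF h.choose)
  have hone : ∀ w ∈ uFun q M v, ∀ e ∈ S, herm q e e = 0 → herm q w e ≠ 0 →
      ∀ c : F, c • e ∈ uFun q M v := by
    intro w hw e heS he hwe c
    have hev := hSmem heS
    have hve := Cfsg.Agent.Forms.herm_comm_zero hF hev
    have hk : ∀ {x : Fin n → F} {a : F} (h : UniCond q e x a), x ∈ S →
        w + herm q w e • x + (a * herm q w e - herm q w x) • e ∈ uFun q M v := by
      intro x a h hx
      have := uFun_map hF hw (hSU _ (det_uni hF h))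
      rw [uni_apply, uni_apply, hve, Cfsg.Agent.Forms.herm_comm_zero hF (hSmem hx)] at this
      simpa using this
    refine line_mem_uFun hF hSU hv he hev ?_ hv0 (fun h => hwe ?_) hwe hw c
    · intro d hd
      have := uFun_add hF (hk (x := 0) (a := d) ((TrvCond.uniCond hF ⟨he, hd⟩)) (zero_mem _))
        (uFun_neg hF hw)
      convert this using 1
      rw [hF.herm_zero_right, sub_zero]
      module
    · obtain ⟨l, rfl⟩ := Submodule.mem_span_singleton.1 h
      rw [herm_smul_right, hSmem (hYS hw), mul_zero]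
  have hspread : ∀ e ∈ S, herm q e e = 0 → e ∉ F ∙ v → ∀ c : F, c • e ∈ uFun q M v := by
    -- first reach one isotropic line
    have hdimS : 2 ≤ finrank F S - 1 := by
      rw [hS, finrank_hperp hF, finrank_span_singleton hv0]
      omega
    obtain ⟨S', hS'S, hdis, hsup⟩ : ∃ S', S' ≤ S ∧ (F ∙ v) ⊓ S' = ⊥ ∧ (F ∙ v) ⊔ S' = S := by
      obtain ⟨C, hC⟩ := Submodule.exists_isCompl (F ∙ v)
      refine ⟨C ⊓ S, inf_le_right, ?_, ?_⟩
      · rw [← inf_assoc, hC.inf_eq_bot, bot_inf_eq]
      · rw [← sup_inf_assoc_of_le C ((Submodule.span_singleton_le_iff_mem _ _).2 (hmemS hv)),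
          hC.sup_eq_top, top_inf_eq]
    have hS'dim : 2 ≤ finrank F S' := by
      have h1 := Submodule.finrank_add_le_finrank_add_finrank (F ∙ v) S'
      rw [hsup, finrank_span_singleton hv0] at h1
      omega
    obtain ⟨e₁, he₁S', he₁0, he₁⟩ := exists_isotropic_mem hF hS'dim
    have he₁v : e₁ ∉ F ∙ v := fun h => he₁0 (by
      have : e₁ ∈ (F ∙ v) ⊓ S' := ⟨h, he₁S'⟩
      rwa [hdis, Submodule.mem_bot] at this)
    obtain ⟨e₀, he₀S, he₀, -, hwe₀⟩ :=
      exists_iso_not_orth_in hF he₁ (hS'S he₁S') he₁v (hYS hw₀) hw₀v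
    have hwe₀' : herm q w₀ e₀ ≠ 0 := by rw [← hF.herm_symm]; exact pow_ne_zero _ hwe₀
    have h0 := hone w₀ hw₀ e₀ he₀S he₀ hwe₀'
    have he₀v : e₀ ∉ F ∙ v := fun h => hwe₀ (by
      obtain ⟨c, rfl⟩ := Submodule.mem_span_singleton.1 h
      rw [herm_smul_left, Cfsg.Agent.Forms.herm_comm_zero hF (hSmem (hYS hw₀)), mul_zero])
    intro e heS he hev
    obtain ⟨z, hzS, hz, hze₀, hze⟩ := exists_iso_not_orth_in hF he₀ he₀S he₀v heS hev
    have h1 := hone _ (by simpa using h0 1) z hzS hz (by
      rw [← hF.herm_symm]; exact pow_ne_zero _ hze₀)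
    exact hone _ (by simpa using h1 1) e heS he hze
  have hiso : ∀ e ∈ S, herm q e e = 0 → ∀ c : F, c • e ∈ uFun q M v := by
    intro e heS he c
    by_cases hev : e ∈ F ∙ v
    · obtain ⟨l, rfl⟩ := Submodule.mem_span_singleton.1 hev
      obtain ⟨z, hzS, hz, hzv⟩ : ∃ z ∈ S, herm q z z = 0 ∧ z ∉ F ∙ v := by
        obtain ⟨C, hC⟩ := Submodule.exists_isCompl (F ∙ v)
        have hd : 2 ≤ finrank F ↥(C ⊓ S) := by
          have h1 := Submodule.finrank_sup_add_finrank_inf_eq C S
          have h2 := Submodule.finrank_le (C ⊔ S)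
          have h3 := Submodule.finrank_add_eq_of_isCompl hC
          have h4 : finrank F S = n - 1 := by
            rw [hS, finrank_hperp hF, finrank_span_singleton hv0]
          rw [finrank_span_singleton hv0] at h3
          rw [Module.finrank_pi, Fintype.card_fin] at h2 h3
          omega
        obtain ⟨z, hz, hz0, hzz⟩ := exists_isotropic_mem hF hd
        refine ⟨z, hz.2, hzz, fun h => hz0 ?_⟩
        have : z ∈ (F ∙ v) ⊓ C := ⟨h, hz.1⟩
        rwa [hC.inf_eq_bot, Submodule.mem_bot] at this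
      have hzv' := hSmem hzS
      have hm1 := hspread (z + v) (S.add_mem hzS (hmemS hv)) (by
        rw [herm_add_left, hF.herm_add_right, hF.herm_add_right, hz, hzv',
          Cfsg.Agent.Forms.herm_comm_zero hF hzv', hv]
        ring) (fun h => hzv (by
          simpa using Submodule.sub_mem _ h (Submodule.mem_span_singleton_self v))) (c * l)
      have hm2 := hspread z hzS hz hzv (c * l)
      have := uFun_add hF hm1 (uFun_neg hF hm2)
      convert this using 1
      module
    · exact hspread e heS he hev c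
  intro φ hφ
  obtain ⟨w, hw⟩ := exists_herm_rep hF φ
  have hwS : w ∈ S := hmemS (Cfsg.Agent.Forms.herm_comm_zero hF ((hw v).trans hφ))
  have hfin : ∀ c : F, c • w ∈ uFun q M v := by
    by_cases hwv : w ∈ F ∙ v
    · obtain ⟨l, rfl⟩ := Submodule.mem_span_singleton.1 hwv
      intro c
      rw [smul_smul]
      exact hiso v (hmemS hv) hv _
    · have hS'dim : ∃ e ∈ S, herm q e e = 0 ∧ e ∉ F ∙ v := by
        obtain ⟨C, hC⟩ := Submodule.exists_isCompl (F ∙ v)
        have hd : 2 ≤ finrank F ↥(C ⊓ S) := by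
          have h1 := Submodule.finrank_sup_add_finrank_inf_eq C S
          have h2 := Submodule.finrank_le (C ⊔ S)
          have h3 := Submodule.finrank_add_eq_of_isCompl hC
          have h4 : finrank F S = n - 1 := by
            rw [hS, finrank_hperp hF, finrank_span_singleton hv0]
          rw [finrank_span_singleton hv0] at h3
          rw [Module.finrank_pi, Fintype.card_fin] at h2 h3
          omega
        obtain ⟨z, hz, hz0, hzz⟩ := exists_isotropic_mem hF hd
        refine ⟨z, hz.2, hzz, fun h => hz0 ?_⟩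
        have : z ∈ (F ∙ v) ⊓ C := ⟨h, hz.1⟩
        rwa [hC.inf_eq_bot, Submodule.mem_bot] at this
      obtain ⟨e, heS, he, hev⟩ := hS'dim
      obtain ⟨y, hy, hye⟩ : ∃ y ∈ S, herm q y e ≠ 0 := by
        by_contra hcon
        push Not at hcon
        apply hev
        rw [← hperp_hperp hF (F ∙ v), mem_hperp]
        exact fun y hy => Cfsg.Agent.Forms.herm_comm_zero hF (hcon y hy)
      obtain ⟨f, hfS, hp⟩ := exists_pair_mem hF heS he ⟨y, hy, hye⟩
      have hspan := le_span_isotropic hF heS hfS hp hwS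
      clear hwv hwS hw
      induction hspan using Submodule.span_induction with
      | mem z hz => exact hiso z hz.1 hz.2.1
      | zero => intro c; rw [smul_zero]; exact uFun_zero M hF.q_ne_zero v
      | add a b _ _ ha hb => intro c; rw [smul_add]; exact uFun_add hF (ha c) (hb c)
      | smul l a _ ha => intro c; rw [smul_smul]; exact ha _
  obtain ⟨h, hm⟩ := hfin 1
  convert hm using 1
  exact gl_ext_mulVec fun x => by simp [hermL_apply, hw]

/-- `GU ∩ SL` up to similarity is maximal in `SL`, for the standard form. -/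
theorem herm_maximal_four (hn : 4 ≤ n) :
    IsMaximalIn (specialLinear (Fin n) F)
      (similarityGroup (Cfsg.hermForm n F q) ⊓ specialLinear (Fin n) F) := by
  haveI : Nontrivial (Fin n) := Fin.nontrivial_iff_two_le.2 (by omega)
  obtain ⟨ρ, hρ⟩ := hF.exists_trace (c := (1 : F)) (one_pow q)
  obtain ⟨δ, hδ0, hδ⟩ := hF.exists_skew
  have htop : ∀ {e : Fin n → F}, e ≠ 0 → herm q e e = 0 → ∃ f, IsUPair q e f := fun {e} he0 he => by
    obtain ⟨y, hy⟩ : ∃ y, herm q y e ≠ 0 := by
      by_contra hcon
      push Not at hcon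
      exact he0 (hF.eq_zero_of_herm e fun x =>
        by rw [← hF.herm_symm, hcon x, zero_pow hF.q_ne_zero])
    obtain ⟨f, -, hf⟩ := exists_pair_mem hF (Submodule.mem_top (x := e)) he ⟨y, trivial, hy⟩
    exact ⟨f, hf⟩
  obtain ⟨e₀, -, he₀0, he₀⟩ := exists_isotropic_mem hF (S := (⊤ : Submodule F (Fin n → F)))
    (by rw [finrank_top, Module.finrank_pi, Fintype.card_fin]; omega)
  obtain ⟨f₀, hp₀⟩ := htop he₀0 he₀
  refine ⟨lt_of_le_not_ge inf_le_right fun hle => ?_, fun M hM hMK => ?_⟩
  · obtain ⟨-, hf, hef⟩ := hp₀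
    have hfe : herm q f₀ e₀ = 1 := by rw [← hF.herm_symm, hef, one_pow]
    have h0 : hermL q (ρ • e₀) e₀ = 0 := by
      rw [hermL_apply, herm_smul_right, he₀, mul_zero]
    obtain ⟨μ, hμ⟩ := (hle (transv_mem_specialLinear (hermL q (ρ • e₀)) e₀ h0)).1
    have h1 := hμ e₀ f₀
    have h2 := hμ f₀ f₀
    simp only [transv_mulVec, h0, zero_smul, add_zero, hermL_apply] at h1 h2
    change herm q _ _ = _ * herm q _ _ at h1
    change herm q _ _ = _ * herm q _ _ at h2
    simp only [herm_add_left, hF.herm_add_right, herm_smul_left, herm_smul_right, he₀, hf, hef,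
      hfe, mul_zero, mul_one, add_zero, zero_add, hF.pow_pow] at h1 h2
    have : ρ + ρ ^ q = 0 := by linear_combination h2
    rw [hρ] at this
    exact one_ne_zero this
  by_cases hMW : M ≤ similarityGroup (Cfsg.hermForm n F q)
  · exact Or.inl (le_antisymm (le_inf hMW hMK) hM)
  refine Or.inr (le_antisymm hMK ?_)
  have hSU : ∀ k ∈ SUG n F q, ugToGL n F q k ∈ M := fun k hk =>
    hM ⟨⟨1, fun a b => by
      rw [ugToGL_mulVec, ugToGL_mulVec, Units.val_one, one_mul]; exact UG_app k a b⟩,
      (ugToGL_mem_suGL hk).2⟩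
  have htrv : ∀ {e : Fin n → F}, herm q e e = 0 → ∀ {d : F}, d ^ q = -d →
      d ^ q • e ∈ uFun q M e := by
    intro e he d hd
    refine ⟨by rw [hermL_apply, herm_smul_right, he, mul_zero], ?_⟩
    convert hSU _ (det_uni hF ((TrvCond.uniCond hF ⟨he, hd⟩ : UniCond q e 0 d))) using 1
    refine gl_ext_mulVec fun x => ?_
    rw [transv_mulVec, ugToGL_mulVec, uni_apply, hermL_apply, herm_smul_right, hF.pow_pow,
      hF.herm_zero_right]
    module
  obtain ⟨g, hgM, hgW⟩ := SetLike.not_le_iff_exists.1 hMW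
  set G : Matrix (Fin n) (Fin n) F := (g : Matrix (Fin n) (Fin n) F) with hG
  have hconj : ∀ {e : Fin n → F}, ∀ w ∈ uFun q M e,
      ∀ w', (∀ x, herm q x w' = herm q (((g⁻¹ : GL (Fin n) F) : Matrix (Fin n) (Fin n) F) *ᵥ x) w) →
      w' ∈ uFun q M (G *ᵥ e) := by
    intro e w hw w' hw'
    obtain ⟨h, hm⟩ := hw
    have h0 : hermL q w' (G *ᵥ e) = 0 := by
      rw [hermL_apply, hw', Matrix.mulVec_mulVec, hG, ← Units.val_mul, inv_mul_cancel,
        Units.val_one, Matrix.one_mulVec]
      exact h
    refine ⟨h0, ?_⟩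
    convert mul_mem (mul_mem hgM hm) (inv_mem hgM) using 1
    refine gl_ext_mulVec fun x => ?_
    simp only [Units.val_mul, ← Matrix.mulVec_mulVec, transv_mulVec, hermL_apply, hw',
      Matrix.mulVec_add, Matrix.mulVec_smul, ← hG]
    rw [show G *ᵥ (((g⁻¹ : GL (Fin n) F) : Matrix (Fin n) (Fin n) F) *ᵥ x) = x from
      mulVec_inv_cancel g x]
  -- a transvection of `M` outside the unitary group
  obtain ⟨v, w, hv0, hwY, hwv⟩ : ∃ v w, v ≠ 0 ∧ w ∈ uFun q M v ∧ w ∉ F ∙ v := by
    by_contra hcon
    push Not at hcon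
    refine hgW ?_
    have hprop : ∀ e, herm q e e = 0 → ∃ μ, ∀ y, herm q (G *ᵥ y) (G *ᵥ e) = μ * herm q y e := by
      intro e he
      rcases eq_or_ne e 0 with rfl | he0
      · exact ⟨0, fun y => by rw [Matrix.mulVec_zero, hF.herm_zero_right, zero_mul]⟩
      obtain ⟨w', hw'⟩ := exists_herm_rep hF (hermL q (δ ^ q • e) ∘ₗ
        Matrix.toLin' ((g⁻¹ : GL (Fin n) F) : Matrix (Fin n) (Fin n) F))
      have hw'' : ∀ x, herm q x w' = herm q (((g⁻¹ : GL (Fin n) F) : Matrix (Fin n) (Fin n) F) *ᵥ x)
          (δ ^ q • e) := fun x => by rw [hw' x]; simp [hermL_apply]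
      have hval : ∀ y, herm q (G *ᵥ y) w' = δ * herm q y e := fun y => by
        rw [hw'', Matrix.mulVec_mulVec, hG, ← Units.val_mul, inv_mul_cancel, Units.val_one,
          Matrix.one_mulVec, herm_smul_right, hF.pow_pow]
      have hge : G *ᵥ e ≠ 0 := fun h => he0 (mulVec_injective g (by simpa [hG] using h))
      obtain ⟨l, rfl⟩ := Submodule.mem_span_singleton.1
        (hcon _ w' hge (hconj _ (htrv he hδ) w' hw''))
      have hl : l ^ q ≠ 0 := by
        intro hl
        obtain ⟨f, -, hf, hef⟩ := htop he0 he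
        have := hval f
        rw [herm_smul_right, hl, zero_mul, ← hF.herm_symm e f, hef, one_pow, mul_one] at this
        exact hδ0 this.symm
      refine ⟨δ / l ^ q, fun y => ?_⟩
      rw [div_mul_eq_mul_div, eq_div_iff hl, ← hval y, herm_smul_right, mul_comm]
    choose! μ hμ using hprop
    have hflip : ∀ e z, herm q e e = 0 → herm q z z = 0 → herm q z e ≠ 0 → μ e = μ z ^ q := by
      intro e z he hz hze
      have h1 := hμ e he z
      rw [← hF.herm_symm (G *ᵥ e) (G *ᵥ z), hμ z hz e, mul_pow, hF.herm_symm] at h1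
      exact (mul_right_cancel₀ hze h1).symm
    have hconst : ∀ e, e ≠ 0 → herm q e e = 0 → μ e = μ e₀ := by
      intro e he0 he
      obtain ⟨-, hf, hef⟩ := id hp₀
      have hfe : herm q f₀ e₀ = 1 := by rw [← hF.herm_symm, hef, one_pow]
      have hzz : herm q (e₀ + δ • f₀) (e₀ + δ • f₀) = 0 := by
        simp only [herm_add_left, hF.herm_add_right, herm_smul_left, herm_smul_right, he₀, hf,
          hef, hfe, hδ]
        ring
      have a1 := hflip e₀ _ he₀ hzz (by
        rw [herm_add_left, herm_smul_left, he₀, hfe, zero_add, mul_one]; exact hδ0)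
      have a2 := hflip f₀ _ hf hzz (by
        rw [herm_add_left, herm_smul_left, hf, hef, mul_zero, add_zero]; exact one_ne_zero)
      have a3 := hflip e₀ f₀ he₀ hf (by rw [hfe]; exact one_ne_zero)
      have hfix : μ e₀ ^ q = μ e₀ := by rw [a2, ← a1] at a3; exact a3.symm
      by_cases hee : herm q e e₀ = 0
      · obtain ⟨z, hz, h1, h2⟩ := exists_isotropic_not_orth hF he0 he he₀0 hee
        rw [hflip e z he hz (by rw [← hF.herm_symm]; exact pow_ne_zero _ h1),
          hflip e₀ z he₀ hz (by rw [← hF.herm_symm]; exact pow_ne_zero _ h2)]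
      · rw [hflip e e₀ he he₀ (by rw [← hF.herm_symm]; exact pow_ne_zero _ hee), hfix]
    have hall : ∀ y e, herm q (G *ᵥ y) (G *ᵥ e) = μ e₀ * herm q y e := by
      intro y e
      obtain ⟨-, hf, hef⟩ := hp₀
      have hspan := le_span_isotropic hF (S := ⊤) (e := e₀) (f := f₀) trivial trivial
        ⟨he₀, hf, hef⟩ (Submodule.mem_top (x := e))
      induction hspan using Submodule.span_induction with
      | mem z hz =>
        rw [hμ z hz.2.1, hconst z (fun h => hz.2.2 (by rw [h, herm_zero_left])) hz.2.1]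
      | zero => rw [Matrix.mulVec_zero, hF.herm_zero_right, hF.herm_zero_right, mul_zero]
      | add a b _ _ ha hb =>
        rw [Matrix.mulVec_add, hF.herm_add_right, hF.herm_add_right, ha, hb, mul_add]
      | smul c a _ ha =>
        rw [Matrix.mulVec_smul, herm_smul_right, herm_smul_right, ha]; ring
    have hμ0 : μ e₀ ≠ 0 := fun h => he₀0 (by
      refine mulVec_injective g (?_ : G *ᵥ e₀ = G *ᵥ 0)
      rw [Matrix.mulVec_zero]
      refine hF.eq_zero_of_herm _ fun x => ?_
      obtain ⟨y, rfl⟩ : ∃ y, x = G *ᵥ y := ⟨_, (mulVec_inv_cancel g x).symm⟩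
      rw [hall, h, zero_mul])
    exact ⟨Units.mk0 _ hμ0, fun a b => hall a b⟩
  -- an isotropic one
  obtain ⟨v, w, hv0, hv, hwY, hwv⟩ :
      ∃ v w, v ≠ 0 ∧ herm q v v = 0 ∧ w ∈ uFun q M v ∧ w ∉ F ∙ v := by
    by_cases hv : herm q v v = 0
    · exact ⟨v, w, hv0, hv, hwY, hwv⟩
    obtain ⟨hvw0', hm⟩ := id hwY
    have hvw0 : herm q v w = 0 := hvw0'
    have hwv0 := Cfsg.Agent.Forms.herm_comm_zero hF hvw0
    obtain ⟨β, hβ⟩ := hF.exists_trace (c := -herm q v v) (by rw [hF.neg_pow, hF.herm_symm])
    obtain ⟨z, hzv, hzw, hzz, hzind⟩ :=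
      exists_aux_vector hF hn hv hvw0 hwv β
    refine ⟨z + v, δ ^ q • (z - β • w), fun h => ?_, ?_, ?_, fun h => ?_⟩
    · exact hzind (-1) 0 (by linear_combination (norm := module) h)
    · rw [herm_add_left, hF.herm_add_right, hF.herm_add_right, hzz, hzv, ← hF.herm_symm z v, hzv]
      linear_combination hβ
    · obtain ⟨h1, h1m⟩ := htrv hzz hδ
      have h0 : hermL q (δ ^ q • (z - β • w)) (z + v) = 0 := by
        rw [hermL_apply, herm_smul_right, hF.herm_sub_right, herm_add_left, herm_smul_right,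
          herm_add_left, hzz, ← hF.herm_symm z v, hzv, hzw, hvw0]
        ring
      refine ⟨h0, ?_⟩
      convert mul_mem (mul_mem hm h1m) (inv_mem hm) using 1
      rw [eq_mul_inv_iff_mul_eq]
      refine gl_ext_mulVec fun x => ?_
      simp only [Units.val_mul, ← Matrix.mulVec_mulVec, transv_mulVec, hermL_apply, map_add,
        map_smul, herm_smul_right, hF.herm_sub_right, herm_add_left, herm_smul_left, hzw, hvw0,
        ← hF.herm_symm z v, hzv, hF.pow_pow, Matrix.mulVec_add, Matrix.mulVec_smul, smul_eq_mul]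
      module
    · obtain ⟨l, hl⟩ := Submodule.mem_span_singleton.1 h
      rcases eq_or_ne (l - δ ^ q) 0 with hd | hd
      · rw [sub_eq_zero] at hd
        subst hd
        have hq : (-δ) ≠ 0 := neg_ne_zero.2 hδ0
        have h2 : v + β • w = 0 := by
          have := congrArg (fun t => (δ ^ q)⁻¹ • t) hl
          simp only [smul_smul, inv_mul_cancel₀ (hδ ▸ hq), one_smul] at this
          linear_combination (norm := module) this
        have h3 := congrArg (fun t => herm q t v) h2
        simp only [herm_add_left, herm_smul_left, hwv0, mul_zero, add_zero, herm_zero_left] at h3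
        exact hv h3
      · refine hzind (-l / (l - δ ^ q)) (-(δ ^ q * β) / (l - δ ^ q)) ?_
        linear_combination (norm := (match_scalars <;> field_simp <;> ring))
          (l - δ ^ q)⁻¹ • hl
  have hvX : v ∈ centres M := mem_centres_of_uFun_four hF (by omega) hSU hv0 hv hwY hwv
  have hisoX : ∀ u, herm q u u = 0 → u ∈ centres M := by
    intro u hu
    rcases eq_or_ne u 0 with rfl | hu0
    · simpa using smul_mem_centres hvX 0
    obtain ⟨k, hk, c, hc, hku⟩ := TG_transitive_lines hF hv0 hv hu0 hu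
    have := smul_mem_centres (mulVec_mem_centres hvX (hSU k (TG_le_SUG hF hk))) c⁻¹
    rwa [ugToGL_mulVec, hku, inv_smul_smul₀ hc] at this
  refine specialLinear_le_of_transv_mem fun φ u h => ?_
  suffices hu : u ∈ centres M from hu φ h
  by_cases hu : herm q u u = 0
  · exact hisoX u hu
  obtain ⟨z, hz, hzu⟩ : ∃ z, herm q z z = 0 ∧ herm q u z ≠ 0 := by
    by_contra hcon
    push Not at hcon
    apply hu
    obtain ⟨-, hf, hef⟩ := hp₀
    have hspan := le_span_isotropic hF (S := ⊤) (e := e₀) (f := f₀) trivial trivial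
      ⟨he₀, hf, hef⟩ (Submodule.mem_top (x := u))
    have : ∀ x ∈ Submodule.span F {z | z ∈ (⊤ : Submodule F (Fin n → F)) ∧ herm q z z = 0 ∧
        herm q z e₀ ≠ 0}, herm q u x = 0 := fun x hx => by
      induction hx using Submodule.span_induction with
      | mem z hz => exact hcon z hz.2.1
      | zero => exact hF.herm_zero_right u
      | add a b _ _ ha hb => rw [hF.herm_add_right, ha, hb, add_zero]
      | smul c a _ ha => rw [herm_smul_right, ha, mul_zero]
    exact this u hspan
  obtain ⟨c, hc⟩ := hF.exists_trace (c := herm q u u) (hF.herm_symm u u)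
  set z₁ := (c / herm q u z) ^ q • z with hz₁
  have h1 : herm q u z₁ = c := by
    rw [hz₁, herm_smul_right, hF.pow_pow, div_mul_cancel₀ _ hzu]
  have hz₁z : herm q z₁ z₁ = 0 := by rw [hz₁, herm_smul_left, herm_smul_right, hz]; ring
  have hyy : herm q (u - z₁) (u - z₁) = 0 := by
    rw [herm_sub_left, hF.herm_sub_right, hF.herm_sub_right, hz₁z, h1, ← hF.herm_symm u z₁, h1]
    linear_combination -hc
  have hind : (u - z₁) ∉ F ∙ z₁ := fun h => hu (by
    obtain ⟨l, hl⟩ := Submodule.mem_span_singleton.1 h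
    rw [show u = (l + 1) • z₁ by linear_combination (norm := module) -hl, herm_smul_left,
      herm_smul_right, hz₁z]
    ring)
  obtain ⟨ψ, hψ1, hψ⟩ := exists_functional hind
  have h0 := hψ z₁ (Submodule.mem_span_singleton_self z₁)
  have := mulVec_mem_centres (hisoX _ hyy) (hisoX z₁ hz₁z ψ h0)
  rwa [transv_mulVec, hψ1, one_smul, sub_add_cancel] at this

omit hF in
/-- The similarity group of a unitary form is maximal in `SL`. -/
theorem unitary_maximal [Fintype F] (hn : 4 ≤ n) {σ : F ≃+* F}
    {f : (Fin n → F) → (Fin n → F) → F} (hf : IsUnitaryForm σ f) :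
    IsMaximalIn (specialLinear (Fin n) F) (similarityGroup f ⊓ specialLinear (Fin n) F) := by
  obtain ⟨q, hF, hσ⟩ := exists_sqField_of_involution hf.involutive hf.ne_refl
  have hJ := unitaryForm_eq_formOf hf
  set J := gramMatrix f with hJdef
  have hherm : starMat σ J = J := formOf_injective fun a b => by
    rw [formOf_star hf.involutive, ← hJ]; exact (hf.herm a b).symm
  have hJu : IsUnit J := by
    rw [Matrix.isUnit_iff_isUnit_det, isUnit_iff_ne_zero]
    intro hdet
    obtain ⟨x, hx0, hx⟩ := Matrix.exists_mulVec_eq_zero_iff.2 hdet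
    obtain ⟨⟨y, hy⟩, -⟩ := hf.nondegenerate (fun i => σ.symm (x i))
      (fun h => hx0 (funext fun i => by simpa using congrFun h i))
    apply hy
    rw [hJ, formOf, show (fun i => σ (σ.symm (x i))) = x by funext i; simp, hx, dotProduct_zero]
  obtain ⟨D, hD⟩ := exists_congr_one hf.involutive hf.ne_refl hJu hherm
  have hfD : ∀ a b, f ((D : Matrix (Fin n) (Fin n) F) *ᵥ a) ((D : Matrix (Fin n) (Fin n) F) *ᵥ b)
      = herm q a b := fun a b => by
    rw [hJ, formOf_mulVec, hD]
    simp [formOf, dotProduct, Cfsg.hermForm, hσ]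
  set j := (MulAut.conj D).toMonoidHom with hj
  have hjS : (specialLinear (Fin n) F).map j = specialLinear (Fin n) F := by
    ext g
    simp only [Subgroup.mem_map]
    constructor
    · rintro ⟨k, hk, rfl⟩
      rw [mem_specialLinear_iff] at hk ⊢
      show ((D * k * D⁻¹ : GL (Fin n) F) : Matrix (Fin n) (Fin n) F).det = 1
      rw [Units.val_mul, Units.val_mul, Matrix.det_units_conj, hk]
    · intro hg
      refine ⟨D⁻¹ * g * D, ?_, by simp [hj]; group⟩
      rw [mem_specialLinear_iff] at hg ⊢
      rw [Units.val_mul, Units.val_mul, Matrix.det_units_conj', hg]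
  have hjP : (similarityGroup (Cfsg.hermForm n F q)).map j = similarityGroup f := by
    ext g
    simp only [Subgroup.mem_map]
    constructor
    · rintro ⟨k, ⟨c, hc⟩, rfl⟩
      refine ⟨c, fun a b => ?_⟩
      obtain ⟨a, rfl⟩ : ∃ a', a = (D : Matrix (Fin n) (Fin n) F) *ᵥ a' :=
        ⟨_, (mulVec_inv_cancel D a).symm⟩
      obtain ⟨b, rfl⟩ : ∃ b', b = (D : Matrix (Fin n) (Fin n) F) *ᵥ b' :=
        ⟨_, (mulVec_inv_cancel D b).symm⟩
      have e : ∀ x, ((j k : GL (Fin n) F) : Matrix (Fin n) (Fin n) F) *ᵥ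
          ((D : Matrix (Fin n) (Fin n) F) *ᵥ x) = (D : Matrix (Fin n) (Fin n) F) *ᵥ
            ((k : Matrix (Fin n) (Fin n) F) *ᵥ x) := fun x => by
        show ((D * k * D⁻¹ : GL (Fin n) F) : Matrix (Fin n) (Fin n) F) *ᵥ _ = _
        rw [Matrix.mulVec_mulVec, Matrix.mulVec_mulVec, ← Units.val_mul, ← Units.val_mul,
          inv_mul_cancel_right]
      rw [e, e, hfD, hfD]
      exact hc a b
    · rintro ⟨c, hc⟩
      refine ⟨D⁻¹ * g * D, ⟨c, fun a b => ?_⟩, by simp [hj]; group⟩
      show herm q _ _ = _ * herm q _ _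
      rw [← hfD, ← hfD]
      simp only [Units.val_mul, ← Matrix.mulVec_mulVec, mulVec_inv_cancel]
      exact hc _ _
  have := isMaximalIn_map (j := j) (MulAut.conj D).injective (herm_maximal_four hF hn)
  rwa [Subgroup.map_inf _ _ j (MulAut.conj D).injective, hjS, hjP] at this

end Cfsg.Agent.MaxSub.SLFour
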